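import Mathlib
import Cfsg.Prelude
import Cfsg.Agent.Lib.H47.A8GL4
import Cfsg.Agent.Lib.H11.PStabApp
import Cfsg.Agent.Lib.H59.PCons
import Cfsg.Agent.Lib.H76.SecRank
import Cfsg.Agent.Lib.H3.PBasic

set_option autoImplicit false

/-! Automorphism groups of small elementary abelian 2-groups embed in the alternating group of
degree 8. -/

namespace H61.A8Emb

open Cfsg

theorem gl_embed (k : ℕ) (hk : k ≤ 4) (A : Type*) [AddCommGroup A] [Module (ZMod 2) A]
    [Module.Finite (ZMod 2) A]
    (hA : Module.finrank (ZMod 2) A = k) :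
    ∃ f : (A ≃ₗ[ZMod 2] A) →* ↥(alternatingGroup (Fin 8)), Function.Injective f := by
  obtain ⟨e8⟩ := H47.A8GL4.exists_equiv
  have hf : Module.finrank (ZMod 2) (A × (Fin (4 - k) → ZMod 2)) = Module.finrank (ZMod 2) (Fin 4 → ZMod 2) := by
    rw [Module.finrank_prod, hA]
    simp
    omega
  let e := LinearEquiv.ofFinrankEq (A × (Fin (4 - k) → ZMod 2)) (Fin 4 → ZMod 2) hf
  let f1 : (A ≃ₗ[ZMod 2] A) →* ((A × (Fin (4 - k) → ZMod 2)) ≃ₗ[ZMod 2] (A × (Fin (4 - k) → ZMod 2))) :=
    { toFun := fun g => LinearEquiv.prodCongr g (LinearEquiv.refl _ _)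
      map_one' := by ext <;> rfl
      map_mul' := by intro a b; ext <;> rfl }
  have hf1 : Function.Injective f1 := by
    intro a b hab
    ext x
    have := congrArg (fun h => (h (x, 0)).1) hab
    simpa [f1] using this
  let f2 : ((A × (Fin (4 - k) → ZMod 2)) ≃ₗ[ZMod 2] (A × (Fin (4 - k) → ZMod 2))) ≃*
      ((Fin 4 → ZMod 2) ≃ₗ[ZMod 2] (Fin 4 → ZMod 2)) :=
    { toFun := fun g => (e.symm.trans g).trans e
      invFun := fun g => (e.trans g).trans e.symm
      left_inv := fun g => by ext x <;> simp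
      right_inv := fun g => by ext x; simp
      map_mul' := fun a b => by ext x; simp }
  let f3 : ((Fin 4 → ZMod 2) ≃ₗ[ZMod 2] (Fin 4 → ZMod 2)) ≃* GL (Fin 4) (ZMod 2) :=
    (LinearMap.GeneralLinearGroup.generalLinearEquiv (ZMod 2) (Fin 4 → ZMod 2)).symm.trans
      Matrix.GeneralLinearGroup.toLin.symm
  exact ⟨(e8.symm.toMonoidHom.comp (f3.toMonoidHom.comp f2.toMonoidHom)).comp f1,
    (e8.symm.injective.comp (f3.injective.comp f2.injective)).comp hf1⟩

theorem mulAut_embed (V : Type*) [Group V] [Finite V] (hc : ∀ a b : V, a * b = b * a)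
    (h2 : ∀ a : V, a ^ 2 = 1) (hcard : Nat.card V ≤ 2 ^ 4) :
    ∃ f : MulAut V →* ↥(alternatingGroup (Fin 8)), Function.Injective f := by
  letI : CommGroup V := { (inferInstance : Group V) with mul_comm := hc }
  letI : Module (ZMod 2) (Additive V) := AddCommGroup.zmodModule (n := 2) (by
    intro x
    have := h2 x.toMul
    exact this)
  have hfin : Module.Finite (ZMod 2) (Additive V) := inferInstance
  have hcard2 : Nat.card (Additive V) = 2 ^ Module.finrank (ZMod 2) (Additive V) := by
    rw [Module.natCard_eq_pow_finrank (K := ZMod 2), Nat.card_zmod]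
  have hk : Module.finrank (ZMod 2) (Additive V) ≤ 4 := by
    have h1 : (2:ℕ) ^ Module.finrank (ZMod 2) (Additive V) ≤ 2 ^ 4 := by
      rw [← hcard2]
      exact hcard
    exact (Nat.pow_le_pow_iff_right (by norm_num)).1 h1
  obtain ⟨f, hf⟩ := gl_embed _ hk (Additive V) rfl
  let g : MulAut V →* (Additive V ≃ₗ[ZMod 2] Additive V) :=
    { toFun := fun a => { (MulEquiv.toAdditive a : Additive V ≃+ Additive V) with
          map_smul' := fun c x => by
            have := ((MulEquiv.toAdditive a : Additive V ≃+ Additive V).toAddMonoidHom.toZModLinearMap 2).map_smul c x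
            exact this }
      map_one' := by ext; rfl
      map_mul' := by intro a b; ext; rfl }
  have hg : Function.Injective g := by
    intro a b hab
    ext x
    exact congrArg (fun h => (h (Additive.ofMul x)).toMul) hab
  exact ⟨f.comp g, hf.comp hg⟩

theorem centralizer_pCore_le {X : Type*} [Group X] [Finite X] (h : H59.CharP.CT 2 X) :
    Subgroup.centralizer (pCore 2 X : Set X) ≤ pCore 2 X := by
  apply H1.Cores.le_pCore inferInstance
  rintro ⟨x, hx⟩
  obtain ⟨k, hk⟩ := H11.PStabApp.exists_pow_coprime 2 x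
  refine ⟨k, ?_⟩
  have h1 : x ^ 2 ^ k = 1 := by
    apply h _ hk
    intro R hR hRp y hy
    have hy' : y ∈ pCore 2 X := H1.Cores.le_pCore hR hRp hy
    have hxk : x ^ 2 ^ k ∈ Subgroup.centralizer (pCore 2 X : Set X) := Subgroup.pow_mem _ hx _
    exact (Subgroup.mem_centralizer_iff.1 hxk) y hy'
  exact Subtype.ext h1

theorem quotient_embed {X : Type*} [Group X] [Finite X] (hc : IsPConstrained 2 X) (hO : oddCore X = ⊥)
    (h4 : SectionalPRankLE 2 4 ↥(pCore 2 X)) :
    ∃ f : X ⧸ pCore 2 X →* ↥(alternatingGroup (Fin 8)), Function.Injective f := by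
  have hCT : H59.CharP.CT 2 X := H59.PCons.CT_of_isPConstrained hc hO
  have hC := centralizer_pCore_le hCT
  set Q := pCore 2 X with hQ
  have hQp : IsPGroup 2 Q := H1.Cores.isPGroup_pCore 2
  let V := ↥Q ⧸ frattini ↥Q
  have hcV : ∀ a b : V, a * b = b * a := by
    intro a b
    obtain ⟨a, rfl⟩ := QuotientGroup.mk_surjective a
    obtain ⟨b, rfl⟩ := QuotientGroup.mk_surjective b
    rw [← QuotientGroup.mk_mul, ← QuotientGroup.mk_mul, QuotientGroup.eq]
    have := H3.PBasic.commutator_le_frattini hQp (Subgroup.commutator_mem_commutator (Subgroup.mem_top b⁻¹) (Subgroup.mem_top a⁻¹))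
    convert this using 1
    rw [commutatorElement_def]
    group
  have h2V : ∀ a : V, a ^ 2 = 1 := by
    intro a
    obtain ⟨a, rfl⟩ := QuotientGroup.mk_surjective a
    rw [← QuotientGroup.mk_pow, QuotientGroup.eq_one_iff]
    exact H3.PBasic.pow_mem_frattini hQp a
  have hcard : Nat.card V ≤ 2 ^ 4 := by
    have h1 := H76.SecRank.relIndex_le h4 (frattini ↥Q) ⊤ le_top (by
      intro x _ y _
      have := H3.PBasic.commutator_le_frattini hQp (Subgroup.commutator_mem_commutator (Subgroup.mem_top x) (Subgroup.mem_top y))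
      rwa [commutatorElement_def] at this) (fun x _ => H3.PBasic.pow_mem_frattini hQp x)
    rwa [Subgroup.relIndex_top_right] at h1
  obtain ⟨f, hf⟩ := mulAut_embed V hcV h2V hcard
  -- the action on the Frattini quotient
  let act : X →* MulAut V :=
    { toFun := fun x => QuotientGroup.congr (frattini ↥Q) (frattini ↥Q) (MulAut.conjNormal x) (by
        have : (frattini ↥Q).Characteristic := inferInstance
        exact Subgroup.characteristic_iff_map_eq.1 this _)
      map_one' := by
        ext v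
        obtain ⟨v, rfl⟩ := QuotientGroup.mk_surjective v
        simp
      map_mul' := by
        intro x y
        ext v
        obtain ⟨v, rfl⟩ := QuotientGroup.mk_surjective v
        change QuotientGroup.mk (MulAut.conjNormal (x * y) v) = QuotientGroup.mk (MulAut.conjNormal x (MulAut.conjNormal y v))
        rw [map_mul]
        rfl }
  have hact : ∀ (x : X) (q : ↥Q), act x (QuotientGroup.mk q) = QuotientGroup.mk (MulAut.conjNormal x q) := by
    intro x q; rfl
  have hker : act.ker = Q := by
    apply le_antisymm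
    · apply H11.PStabApp.mem_pCore_of_trivial 2 hC
      intro x hx n hn
      have h1 : act x (QuotientGroup.mk ⟨n, hn⟩) = QuotientGroup.mk ⟨n, hn⟩ := by
        rw [MonoidHom.mem_ker.1 hx]; rfl
      rw [hact, eq_comm, QuotientGroup.eq] at h1
      have h2 : (⟨n, hn⟩ : ↥Q) * ((⟨n, hn⟩ : ↥Q)⁻¹ * (MulAut.conjNormal x ⟨n, hn⟩)) * (⟨n, hn⟩ : ↥Q)⁻¹ ∈ frattini ↥Q :=
        (inferInstance : (frattini ↥Q).Normal).conj_mem _ h1 _
      refine ⟨_, h2, ?_⟩
      simp
    · intro x hx
      rw [MonoidHom.mem_ker]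
      ext v
      obtain ⟨v, rfl⟩ := QuotientGroup.mk_surjective v
      rw [hact]
      have : (MulAut.conjNormal x v : ↥Q) = ⟨x, hx⟩ * v * ⟨x, hx⟩⁻¹ := by
        apply Subtype.ext; simp
      rw [this, QuotientGroup.mk_mul, QuotientGroup.mk_mul, hcV (QuotientGroup.mk _) (QuotientGroup.mk v), mul_assoc, ← QuotientGroup.mk_mul, mul_inv_cancel]
      simp
  refine ⟨f.comp (QuotientGroup.lift Q act (fun x hx => by have h := hker.ge hx; exact h)), hf.comp ?_⟩
  rw [← MonoidHom.ker_eq_bot_iff, QuotientGroup.ker_lift, hker, QuotientGroup.map_mk'_self]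

end H61.A8Emb
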