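import Mathlib
import Cfsg.Agent.Lib.H97.AschCases
import Cfsg.Agent.Lib.H96.AschSympType1

set_option autoImplicit false
set_option linter.unusedSectionVars false

/-! `q = 5`, `n = 4`: the stabiliser of a frame in `SL₄(5)` lies in the normaliser of a symplectic-type group. -/

namespace H61.AschE6

open Cfsg Cfsg.Geo Matrix H97.AschNonab H97.AschEnv H97.AschGrp H96.AschSympType1

variable {F : Type*} [Field F]

/-! ### the abstract criterion -/

section abstract

variable {ι : Type} [Fintype ι] [DecidableEq ι]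

theorem char_five [Fintype F] (hq : Fintype.card F = 5) : CharP F 5 := by
  obtain ⟨p, hp⟩ := CharP.exists F
  obtain ⟨m, hpp, hcard⟩ := FiniteField.card F p
  have h1 : p ∣ 5 := by
    have : p ∣ p ^ (m : ℕ) := dvd_pow_self p m.pos.ne'
    rwa [← hcard, hq] at this
  have h2 : p = 5 := (Nat.prime_dvd_prime_iff_eq hpp (by norm_num)).mp h1
  rwa [h2] at hp

lemma five_zero [Fintype F] (hq : Fintype.card F = 5) : (5 : F) = 0 := by
  have := char_five hq
  exact_mod_cast CharP.cast_eq_zero F 5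

lemma two_ne [Fintype F] (hq : Fintype.card F = 5) : (2 : F) ≠ 0 := by
  intro h
  have h5 := five_zero hq
  have : (1 : F) = 0 := by linear_combination h5 - 2 * h
  exact one_ne_zero this

lemma pow_four [Fintype F] (hq : Fintype.card F = 5) {c : F} (hc : c ≠ 0) : c ^ 4 = 1 := by
  have := FiniteField.pow_card_sub_one_eq_one c hc
  rwa [hq] at this

lemma center_four [Fintype F] (hq : Fintype.card F = 5) [Nonempty ι] {R : Subgroup (GL ι F)}
    (hR : Full R) (hs : scalars ι F ≤ R) : Nat.card (Subgroup.center R) = 4 := by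
  classical
  rw [center_eq hR]
  have e : (scalars ι F).subgroupOf R ≃ Fˣ := by
    refine (Equiv.ofBijective (fun c : Fˣ => (⟨⟨sc ι c, hs (sc_mem c)⟩, sc_mem c⟩ :
      (scalars ι F).subgroupOf R)) ⟨?_, ?_⟩).symm
    · intro a b hab
      apply sc_injective (ι := ι)
      exact congrArg (fun z : (scalars ι F).subgroupOf R => ((z : R) : GL ι F)) hab
    · rintro ⟨⟨x, hx⟩, hxs⟩
      obtain ⟨c, rfl⟩ := mem_scalars_sc.1 (Subgroup.mem_subgroupOf.1 hxs)
      exact ⟨c, rfl⟩
  rw [Nat.card_congr e, Nat.card_eq_fintype_card, Fintype.card_units, hq]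

lemma card_of [Fintype F] (hq : Fintype.card F = 5) (hι : Fintype.card ι = 4) {R : Subgroup (GL ι F)}
    (hR : Full R) (hs : scalars ι F ≤ R)
    (hcomm : ∀ x ∈ R, ∀ y ∈ R, (x : Matrix ι ι F) * y = y * x ∨ (x : Matrix ι ι F) * y = -(y * x)) :
    Nat.card R = 64 := by
  have hne : Nonempty ι := Fintype.card_pos_iff.mp (by omega)
  have hcen := center_four hq hR hs
  have hnil : ∀ x ∈ R, ∀ y ∈ R, x * y * x⁻¹ * y⁻¹ ∈ scalars ι F := by
    intro x hx y hy
    rcases hcomm x hx y hy with h | h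
    · have : x * y = y * x := Units.ext (by rw [Units.val_mul, Units.val_mul]; exact h)
      rw [this]
      have : y * x * x⁻¹ * y⁻¹ = 1 := by group
      rw [this]
      exact Subgroup.one_mem _
    · have : x * y = sc ι (-1) * (y * x) := Units.ext (by
        rw [Units.val_mul, Units.val_mul, sc_val, Units.val_mul, h]
        simp)
      rw [this]
      have : sc ι (-1) * (y * x) * x⁻¹ * y⁻¹ = sc ι (-1 : Fˣ) := by group
      rw [this]
      exact sc_mem _
  rw [card_eq hnil hR, hcen, hι]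
  norm_num

theorem data_of [Fintype F] (hq : Fintype.card F = 5) (hι : Fintype.card ι = 4) {R : Subgroup (GL ι F)}
    (hR : Full R) (hs : scalars ι F ≤ R)
    (hcomm : ∀ x ∈ R, ∀ y ∈ R, (x : Matrix ι ι F) * y = y * x ∨ (x : Matrix ι ι F) * y = -(y * x))
    (hsq : ∀ x ∈ R, (x : Matrix ι ι F) * x = 1 ∨ (x : Matrix ι ι F) * x = -1) :
    IsLinearSymplecticTypeData 2 R := by
  classical
  have h5 := five_zero hq
  have hne : Nonempty ι := Fintype.card_pos_iff.mp (by omega)
  have h2ι : 2 ≤ Fintype.card ι := by omega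
  have hfinM : Finite (Matrix ι ι F) := by unfold Matrix; infer_instance
  have hfinG : Finite (GL ι F) := inferInstance
  have h2 := two_ne hq
  -- a square root of -1
  have hi : (2 : F) * 2 = -1 := by linear_combination h5
  let u2 : Fˣ := Units.mk0 2 h2
  have hpow4 : ∀ x ∈ R, x ^ 4 = 1 := by
    intro x hx
    apply Units.ext
    rw [Units.val_pow_eq_pow_val, Units.val_one]
    have : (x : Matrix ι ι F) ^ 4 = (x * x) * (x * x) := by
      rw [pow_succ, pow_succ, pow_succ, pow_one]; simp only [mul_assoc]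
    rw [this]
    rcases hsq x hx with h | h
    · rw [h, one_mul]
    · rw [h]; simp
  refine ⟨⟨Nat.prime_two, ?_, ?_, ?_⟩, hR.absIrr, 5, 1, by norm_num, ?_, ?_⟩
  · intro x
    refine ⟨2, ?_⟩
    apply Subtype.ext
    exact hpow4 x.1 x.2
  · intro A hA hAc
    have hle : A.map R.subtype ≤ scalars ι F := by
      rintro _ ⟨⟨x, hxR⟩, hxA, rfl⟩
      by_contra hxs
      change (x : GL ι F) ∉ scalars ι F at hxs
      have hex : ∃ y ∈ R, ¬ (x : GL ι F) * y = y * x := by
        by_contra hcon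
        push Not at hcon
        exact hxs (scalar_of_full_comm hR hcon)
      obtain ⟨y, hy, hxy⟩ := hex
      have hxyM : ((x : GL ι F) : Matrix ι ι F) * y = -(y * x) := by
        rcases hcomm x hxR y hy with h | h
        · exfalso; apply hxy; apply Units.ext; rw [Units.val_mul, Units.val_mul]; exact h
        · exact h
      -- an involution anticommuting with x
      obtain ⟨w, hw, hww, hxw⟩ : ∃ w ∈ R, (w : Matrix ι ι F) * w = 1 ∧ ((x : GL ι F) : Matrix ι ι F) * w = -(w * x) := by
        rcases hsq y hy with h | h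
        · exact ⟨y, hy, h, hxyM⟩
        · refine ⟨sc ι u2 * y, R.mul_mem (hs (sc_mem u2)) hy, ?_, ?_⟩
          · rw [Units.val_mul, sc_val]
            change ((2 : F) • (1 : Matrix ι ι F) * y) * ((2 : F) • (1 : Matrix ι ι F) * y) = 1
            rw [smul_mul_assoc, one_mul, smul_mul_assoc, mul_smul_comm, smul_smul, h, hi]
            simp
          · rw [Units.val_mul, sc_val]
            change ((x : GL ι F) : Matrix ι ι F) * ((2 : F) • (1 : Matrix ι ι F) * y) = -(((2 : F) • (1 : Matrix ι ι F) * y) * x)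
            rw [smul_mul_assoc, one_mul, smul_mul_assoc, mul_smul_comm, hxyM, smul_neg]
      -- h = 1 + 2 w
      have hinv1 : (1 + (2 : F) • (w : Matrix ι ι F)) * ((2 : F)⁻¹ • (1 - (2 : F) • (w : Matrix ι ι F))) = 1 := by
        rw [mul_smul_comm, add_mul, one_mul, mul_sub, mul_one, smul_mul_assoc, mul_smul_comm, hww, smul_smul, hi, neg_smul, one_smul]
        have : (1 : Matrix ι ι F) - (2 : F) • (w : Matrix ι ι F) + ((2 : F) • (w : Matrix ι ι F) - -1) = (2 : F) • 1 := by
          rw [two_smul F (1 : Matrix ι ι F)]; abel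
        rw [this, smul_smul, inv_mul_cancel₀ h2, one_smul]
      have hinv2 : ((2 : F)⁻¹ • (1 - (2 : F) • (w : Matrix ι ι F))) * (1 + (2 : F) • (w : Matrix ι ι F)) = 1 := by
        rw [smul_mul_assoc, mul_add, mul_one, sub_mul, one_mul, smul_mul_assoc, mul_smul_comm, hww, smul_smul, hi, neg_smul, one_smul]
        have : (1 : Matrix ι ι F) - (2 : F) • (w : Matrix ι ι F) + ((2 : F) • (w : Matrix ι ι F) - -1) = (2 : F) • 1 := by
          rw [two_smul F (1 : Matrix ι ι F)]; abel
        rw [this, smul_smul, inv_mul_cancel₀ h2, one_smul]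
      let h : GL ι F := ⟨_, _, hinv1, hinv2⟩
      have hval : (h : Matrix ι ι F) = 1 + (2 : F) • (w : Matrix ι ι F) := rfl
      have hival : ((h⁻¹ : GL ι F) : Matrix ι ι F) = (2 : F)⁻¹ • (1 - (2 : F) • (w : Matrix ι ι F)) := rfl
      -- conjugation
      have hanti : ∀ v : GL ι F, (v : Matrix ι ι F) * w = -(w * v) → h * v * h⁻¹ = sc ι (-u2) * (v * w) := by
        intro v hv
        have e1 : h * v = sc ι (-u2) * (v * w) * h := by
          apply Units.ext
          rw [Units.val_mul, Units.val_mul, Units.val_mul, sc_val, hval, Units.val_mul]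
          change (1 + (2 : F) • (w : Matrix ι ι F)) * v = (-2 : F) • (1 : Matrix ι ι F) * (v * w) * (1 + (2 : F) • (w : Matrix ι ι F))
          have e2 : (v : Matrix ι ι F) * w * w = v := by rw [mul_assoc, hww, mul_one]
          have e3 : (w : Matrix ι ι F) * v = -(v * w) := by rw [hv, neg_neg]
          rw [add_mul, one_mul, smul_mul_assoc, e3, smul_mul_assoc, one_mul, mul_add, mul_one, mul_smul_comm,
            smul_mul_assoc, e2, smul_smul]
          have e4 : (2 : F) * (-2) = 1 := by linear_combination -hi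
          rw [e4, one_smul, smul_neg, neg_smul, add_comm]
        rw [e1, mul_assoc, mul_inv_cancel, mul_one]
      have hcom : ∀ v : GL ι F, (v : Matrix ι ι F) * w = w * v → h * v * h⁻¹ = v := by
        intro v hv
        have e1 : h * v = v * h := by
          apply Units.ext
          rw [Units.val_mul, Units.val_mul, hval, add_mul, mul_add, one_mul, mul_one, smul_mul_assoc, mul_smul_comm, hv]
        rw [e1, mul_assoc, mul_inv_cancel, mul_one]
      have hconj : ∀ v ∈ R, h * v * h⁻¹ ∈ R := by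
        intro v hv
        rcases hcomm v hv w hw with hc | hc
        · rw [hcom v hc]; exact hv
        · rw [hanti v hc]
          exact R.mul_mem (hs (sc_mem _)) (R.mul_mem hv hw)
      have hNB : NB (subgroupNormalizer R) R := by
        intro g hg v hv
        exact (Subgroup.mem_normalizer_iff.1 hg v).1 hv
      have hhN : h ∈ subgroupNormalizer R := by
        have hfin : Finite R := Subtype.finite
        exact Subgroup.mem_normalizer_fintype (fun n hn => hconj n hn)
      have h3 := NB_of_characteristic hNB A hA h hhN x ⟨⟨x, hxR⟩, hxA, rfl⟩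
      obtain ⟨x', hx'A, hx'⟩ := h3
      rw [hanti x hxw] at hx'
      have h4 : x' * ⟨x, hxR⟩ = ⟨x, hxR⟩ * x' := by
        have := hAc.is_comm.comm (⟨x', hx'A⟩ : A) ⟨⟨x, hxR⟩, hxA⟩
        exact congrArg Subtype.val this
      have h6 : ((x' : GL ι F) : Matrix ι ι F) * x = x * (x' : GL ι F) := by
        have := congrArg (fun z : R => ((z : GL ι F) : Matrix ι ι F)) h4
        simpa using this
      have h7 : ((x' : GL ι F) : Matrix ι ι F) = (-2 : F) • ((x : Matrix ι ι F) * w) := by
        have := congrArg (fun z : GL ι F => (z : Matrix ι ι F)) hx'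
        simp only [Units.val_mul] at this
        rw [sc_val] at this
        change ((x' : GL ι F) : Matrix ι ι F) = _ at this
        rw [this]
        change (-2 : F) • (1 : Matrix ι ι F) * _ = _
        rw [smul_mul_assoc, one_mul]
      rw [h7, smul_mul_assoc, mul_smul_comm] at h6
      -- x w x = - x x w
      have h8 : ((x : GL ι F) : Matrix ι ι F) * w * x = -(x * (x * w)) := by
        have e5 : (w : Matrix ι ι F) * x = -(x * w) := by rw [hxw, neg_neg]
        rw [mul_assoc, e5, mul_neg]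
      rw [h8] at h6
      have h9 : (4 : F) • (((x : GL ι F) : Matrix ι ι F) * (x * w)) = 0 := by
        have : (-2 : F) • -(((x : GL ι F) : Matrix ι ι F) * (x * w)) - (-2 : F) • (((x : GL ι F) : Matrix ι ι F) * (x * w)) = 0 :=
          sub_eq_zero.2 h6
        rw [smul_neg, ← neg_smul, ← sub_smul] at this
        rw [← this]
        congr 1
        norm_num
      have h10 : (4 : F) ≠ 0 := by
        intro h0
        have : (1 : F) = 0 := by linear_combination h5 - h0
        exact one_ne_zero this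
      have h11 : (((x : GL ι F) : Matrix ι ι F) * (x * w)) = 0 := by
        have := congrArg (fun X => (4 : F)⁻¹ • X) h9
        simpa [smul_smul, inv_mul_cancel₀ h10] using this
      have h12 : (((x : GL ι F) * ((x : GL ι F) * w) : GL ι F) : Matrix ι ι F) = 0 := by
        rw [Units.val_mul, Units.val_mul]; exact h11
      exact Units.ne_zero _ h12
    let f : A →* scalars ι F :=
      { toFun := fun x => ⟨((x : R) : GL ι F), hle ⟨(x : R), x.2, rfl⟩⟩
        map_one' := rfl
        map_mul' := fun _ _ => rfl }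
    have hf : Function.Injective f := by
      intro x y hxy
      apply Subtype.ext
      apply Subtype.ext
      exact congrArg (fun z : scalars ι F => (z : GL ι F)) hxy
    exact isCyclic_of_injective f hf
  · have h1 : Monoid.exponent R ∣ 4 := by
      apply Monoid.exponent_dvd_of_forall_pow_eq_one
      intro g
      apply Subtype.ext
      exact hpow4 g g.2
    have h4 : Monoid.exponent R ∣ 2 ^ 2 := by simpa using h1
    obtain ⟨k, hk, hk2⟩ := (Nat.dvd_prime_pow Nat.prime_two).1 h4
    have hcase : k = 0 ∨ k = 1 ∨ k = 2 := by omega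
    have key : ¬ Monoid.exponent R ∣ 2 := by
      intro hdvd
      apply not_comm_of_full h2ι hR
      intro x hx y hy
      have hsq : ∀ z ∈ R, z * z = 1 := by
        intro z hz
        have := Monoid.exponent_dvd_iff_forall_pow_eq_one.1 hdvd (⟨z, hz⟩ : R)
        have h3 := congrArg Subtype.val this
        rw [← sq]
        exact h3
      have e1 := hsq x hx
      have e2 := hsq y hy
      have e3 := hsq (x * y) (R.mul_mem hx hy)
      have i1 : x⁻¹ = x := inv_eq_of_mul_eq_one_right e1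
      have i2 : y⁻¹ = y := inv_eq_of_mul_eq_one_right e2
      have i3 : (x * y)⁻¹ = x * y := inv_eq_of_mul_eq_one_right e3
      rw [← i3, _root_.mul_inv_rev, i1, i2]
    rcases hcase with h | h | h
    · exfalso; apply key; rw [hk2, h]; norm_num
    · exfalso; apply key; rw [hk2, h]; norm_num
    · rw [hk2, h]; norm_num
  · have hcen := center_four hq hR hs
    refine ⟨by norm_num, char_five hq, by rw [hq]; norm_num, by rw [hcen]; norm_num, ?_⟩
    intro d h1 h2
    omega
  · right; left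
    refine ⟨rfl, rfl, center_four hq hR hs, by omega, 2, ?_⟩
    rw [card_of hq hι hR hs hcomm]
    norm_num

end abstract

/-! ### the concrete group -/

def V4P (τ : Equiv.Perm (Fin 4)) : Prop := τ * τ = 1 ∧ (τ = 1 ∨ ∀ i, τ i ≠ i)

instance (τ : Equiv.Perm (Fin 4)) : Decidable (V4P τ) := by unfold V4P; infer_instance

set_option maxRecDepth 20000 in
theorem V4_mul : ∀ a b : Equiv.Perm (Fin 4), V4P a → V4P b → V4P (a * b) := by decide +kernel

set_option maxRecDepth 20000 in
theorem V4_comm : ∀ a b : Equiv.Perm (Fin 4), V4P a → V4P b → a * b = b * a := by decide +kernel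

lemma V4_one : V4P 1 := ⟨rfl, Or.inl rfl⟩

lemma V4_conj {a : Equiv.Perm (Fin 4)} (ha : V4P a) (σ : Equiv.Perm (Fin 4)) : V4P (σ⁻¹ * a * σ) := by
  refine ⟨?_, ?_⟩
  · have : σ⁻¹ * a * σ * (σ⁻¹ * a * σ) = σ⁻¹ * (a * a) * σ := by group
    rw [this, ha.1]; group
  · rcases ha.2 with h | h
    · left; rw [h]; group
    · right
      intro i hi
      apply h (σ i)
      have := congrArg σ hi
      simpa using this

set_option maxRecDepth 20000 in
theorem V4_pairs : ∀ a : Equiv.Perm (Fin 4), V4P a → a ≠ 1 → ∀ i j, j ≠ i → j ≠ a i →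
    ∃ π : Equiv.Perm (Fin 4), π 0 = i ∧ π 1 = a i ∧ π 2 = j ∧ π 3 = a j := by decide +kernel

theorem V4_trans : ∀ i : Fin 4, ∃ a : Equiv.Perm (Fin 4), V4P a ∧ a 0 = i := by decide +kernel

lemma prod_pairs {M : Type*} [CommMonoid M] {a : Equiv.Perm (Fin 4)} (ha : V4P a) (h1 : a ≠ 1) {i j : Fin 4} (hij : j ≠ i)
    (hij' : j ≠ a i) (f : Fin 4 → M) : ∏ k, f k = (f i * f (a i)) * (f j * f (a j)) := by
  obtain ⟨π, h2, h3, h4, h5⟩ := V4_pairs a ha h1 i j hij hij'
  rw [← Equiv.prod_comp π, Fin.prod_univ_four, h2, h3, h4, h5]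
  simp only [mul_assoc]

/-- monomial matrices -/
def M (τ : Equiv.Perm (Fin 4)) (ε : Fin 4 → F) : Matrix (Fin 4) (Fin 4) F := fun i j => if j = τ i then ε i else 0

lemma M_mul (a b : Equiv.Perm (Fin 4)) (ε δ : Fin 4 → F) :
    M a ε * M b δ = M (b * a) (fun i => ε i * δ (a i)) := by
  ext i k
  rw [Matrix.mul_apply, Finset.sum_eq_single (a i)]
  · by_cases h : k = b (a i) <;> simp [M, h]
  · intro j _ hj
    simp only [M, if_neg hj, zero_mul]
  · intro h; exact absurd (Finset.mem_univ _) h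

lemma M_one : M 1 (fun _ => (1 : F)) = 1 := by
  ext i j
  simp only [M, Equiv.Perm.one_apply, Matrix.one_apply, eq_comm]

lemma M_smul (c : F) (a : Equiv.Perm (Fin 4)) (ε : Fin 4 → F) : c • M a ε = M a (fun i => c * ε i) := by
  ext i j
  simp only [M, Matrix.smul_apply, smul_eq_mul, mul_ite, mul_zero]

lemma M_neg (a : Equiv.Perm (Fin 4)) (ε : Fin 4 → F) : -M a ε = M a (fun i => - ε i) := by
  ext i j
  simp only [M, Matrix.neg_apply]
  split_ifs <;> simp

structure EP (ε : Fin 4 → F) : Prop where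
  ne : ∀ i, ε i ≠ 0
  sq : ∀ i j, ε i * ε i = ε j * ε j
  prod : ∏ i, ε i = 1

lemma EP.mul {ε δ : Fin 4 → F} (hε : EP ε) (hδ : EP δ) (a : Equiv.Perm (Fin 4)) : EP (fun i => ε i * δ (a i)) where
  ne i := mul_ne_zero (hε.ne i) (hδ.ne _)
  sq i j := by
    have h1 := hε.sq i j
    have h2 := hδ.sq (a i) (a j)
    calc ε i * δ (a i) * (ε i * δ (a i)) = (ε i * ε i) * (δ (a i) * δ (a i)) := by ring
      _ = (ε j * ε j) * (δ (a j) * δ (a j)) := by rw [h1, h2]
      _ = _ := by ring
  prod := by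
    rw [Finset.prod_mul_distrib, hε.prod, Equiv.prod_comp a δ, hδ.prod, mul_one]

/-- the symplectic-type group -/
def R0 (F : Type*) [Field F] : Subgroup (GL (Fin 4) F) where
  carrier := {g | ∃ τ, V4P τ ∧ ∃ ε : Fin 4 → F, EP ε ∧ (g : Matrix (Fin 4) (Fin 4) F) = M τ ε}
  mul_mem' := by
    rintro x y ⟨a, ha, ε, hε, hx⟩ ⟨b, hb, δ, hδ, hy⟩
    exact ⟨b * a, V4_mul _ _ hb ha, _, hε.mul hδ a, by rw [Units.val_mul, hx, hy, M_mul]⟩
  one_mem' := ⟨1, V4_one, fun _ => 1, ⟨fun _ => one_ne_zero, fun _ _ => rfl, by simp⟩, by rw [M_one]; rfl⟩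
  inv_mem' := by
    rintro x ⟨a, ha, ε, hε, hx⟩
    have haa : a * a = 1 := ha.1
    have haa' : ∀ i, a (a i) = i := fun i => by
      have := congrArg (fun p : Equiv.Perm (Fin 4) => p i) haa
      simpa using this
    refine ⟨a, ha, fun i => (ε (a i))⁻¹, ⟨fun i => inv_ne_zero (hε.ne _), fun i j => ?_, ?_⟩, ?_⟩
    · rw [← mul_inv, ← mul_inv, hε.sq (a i) (a j)]
    · rw [Finset.prod_inv_distrib, Equiv.prod_comp a ε, hε.prod, inv_one]
    · have h1 : (x : Matrix (Fin 4) (Fin 4) F) * M a (fun i => (ε (a i))⁻¹) = 1 := by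
        rw [hx, M_mul, haa, ← M_one]
        congr 1
        ext i
        rw [haa', mul_inv_cancel₀ (hε.ne i)]
      calc ((x⁻¹ : GL (Fin 4) F) : Matrix (Fin 4) (Fin 4) F)
          = ((x⁻¹ : GL (Fin 4) F) : Matrix (Fin 4) (Fin 4) F) * ((x : Matrix (Fin 4) (Fin 4) F) * M a (fun i => (ε (a i))⁻¹)) := by
            rw [h1, mul_one]
        _ = _ := by rw [← mul_assoc, ← Units.val_mul, inv_mul_cancel, Units.val_one, one_mul]

section five

variable [Fintype F]

lemma sign_const (hq : Fintype.card F = 5) {ε : Fin 4 → F} (hε : EP ε) {a : Equiv.Perm (Fin 4)} (ha : V4P a) :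
    ∃ s : F, (s = 1 ∨ s = -1) ∧ ∀ i, ε i * ε (a i) = s := by
  have haa' : ∀ i, a (a i) = i := fun i => by
    have := congrArg (fun p : Equiv.Perm (Fin 4) => p i) ha.1
    simpa using this
  have hp4 : ∀ i, ε i * ε i * (ε i * ε i) = 1 := fun i => by
    have := pow_four hq (hε.ne i)
    rw [← this]; ring
  have hp : ∀ i, (ε i * ε (a i)) * (ε i * ε (a i)) = 1 := fun i => by
    calc (ε i * ε (a i)) * (ε i * ε (a i)) = (ε i * ε i) * (ε (a i) * ε (a i)) := by ring
      _ = (ε i * ε i) * (ε i * ε i) := by rw [hε.sq (a i) i]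
      _ = 1 := hp4 i
  refine ⟨ε 0 * ε (a 0), ?_, ?_⟩
  · exact mul_self_eq_one_iff.1 (hp 0)
  · intro i
    by_cases h1 : a = 1
    · rw [h1]
      exact hε.sq i 0
    by_cases hi : i = 0
    · rw [hi]
    by_cases hi2 : i = a 0
    · rw [hi2, haa', mul_comm]
    have := prod_pairs ha h1 hi hi2 ε
    rw [hε.prod] at this
    calc ε i * ε (a i) = (ε 0 * ε (a 0)) * (ε 0 * ε (a 0)) * (ε i * ε (a i)) := by rw [hp 0, one_mul]
      _ = (ε 0 * ε (a 0)) * ((ε 0 * ε (a 0)) * (ε i * ε (a i))) := by ring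
      _ = _ := by rw [← this, mul_one]

lemma R0_sq (hq : Fintype.card F = 5) : ∀ x ∈ R0 F, (x : Matrix (Fin 4) (Fin 4) F) * x = 1 ∨
    (x : Matrix (Fin 4) (Fin 4) F) * x = -1 := by
  rintro x ⟨a, ha, ε, hε, hx⟩
  obtain ⟨s, hs, h⟩ := sign_const hq hε ha
  have h1 : (x : Matrix (Fin 4) (Fin 4) F) * x = s • 1 := by
    rw [hx, M_mul, ha.1, ← M_one, M_smul]
    congr 1
    ext i
    rw [h, mul_one]
  rw [h1]
  rcases hs with rfl | rfl
  · left; rw [one_smul]
  · right; rw [neg_smul, one_smul]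

lemma R0_comm (hq : Fintype.card F = 5) : ∀ x ∈ R0 F, ∀ y ∈ R0 F,
    (x : Matrix (Fin 4) (Fin 4) F) * y = y * x ∨ (x : Matrix (Fin 4) (Fin 4) F) * y = -(y * x) := by
  rintro x ⟨a, ha, ε, hε, hx⟩ y ⟨b, hb, δ, hδ, hy⟩
  obtain ⟨s, hs, h⟩ := sign_const hq hε hb
  obtain ⟨t, ht, h'⟩ := sign_const hq hδ ha
  obtain ⟨s1, hs1, h1⟩ := sign_const hq hε V4_one
  obtain ⟨t1, ht1, h1'⟩ := sign_const hq hδ V4_one
  have hcom : b * a = a * b := V4_comm _ _ hb ha
  -- ε i δ (a i) = u * δ i ε (b i)
  have hs2 : s * s = 1 := by rcases hs with rfl | rfl <;> ring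
  have ht2 : t * t = 1 := by rcases ht with rfl | rfl <;> ring
  have hs12 : s1 * s1 = 1 := by rcases hs1 with rfl | rfl <;> ring
  have ht12 : t1 * t1 = 1 := by rcases ht1 with rfl | rfl <;> ring
  have hu2 : (s * t * s1 * t1) * (s * t * s1 * t1) = 1 := by
    calc (s * t * s1 * t1) * (s * t * s1 * t1) = (s * s) * (t * t) * (s1 * s1) * (t1 * t1) := by ring
      _ = 1 := by rw [hs2, ht2, hs12, ht12]; ring
  have key : (x : Matrix (Fin 4) (Fin 4) F) * y = (s * t * s1 * t1) • ((y : Matrix (Fin 4) (Fin 4) F) * x) := by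
    rw [hx, hy, M_mul, M_mul, M_smul, hcom]
    congr 1
    ext i
    have e1 := h i
    have e2 := h' i
    have e3 := h1 i
    have e4 := h1' i
    rw [Equiv.Perm.one_apply] at e3 e4
    have hεi := hε.ne i
    have hδi := hδ.ne i
    -- multiply by ε i δ i
    have e5 : (ε i * δ i) * (ε i * δ (a i)) = (ε i * δ i) * (s * t * s1 * t1 * (δ i * ε (b i))) := by
      calc (ε i * δ i) * (ε i * δ (a i)) = (ε i * ε i) * (δ i * δ (a i)) := by ring
        _ = s1 * t := by rw [e3, e2]
        _ = s * s * t * s1 * (t1 * t1) := by rw [hs2, ht12]; ring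
        _ = s * t * s1 * t1 * (ε i * ε (b i)) * (δ i * δ i) := by rw [e1, e4]; ring
        _ = _ := by ring
    exact mul_left_cancel₀ (mul_ne_zero hεi hδi) e5
  rw [key]
  rcases mul_self_eq_one_iff.1 hu2 with h | h
  · left; rw [h, one_smul]
  · right; rw [h, neg_smul, one_smul]

lemma scalars_le_R0 (hq : Fintype.card F = 5) : scalars (Fin 4) F ≤ R0 F := by
  intro z hz
  obtain ⟨c, hc⟩ := (mem_scalars_iff z).1 hz
  refine ⟨1, V4_one, fun _ => c, ⟨fun _ => c.ne_zero, fun _ _ => rfl, ?_⟩, ?_⟩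
  · rw [Fin.prod_univ_four, ← pow_four hq c.ne_zero]; ring
  · rw [hc, ← M_one, M_smul, ]
    congr 1
    ext i
    rw [mul_one]

/-- the group element with given monomial matrix -/
def mk (a : Equiv.Perm (Fin 4)) (ε : Fin 4 → F) (hε : ∀ i, ε i ≠ 0) : GL (Fin 4) F where
  val := M a ε
  inv := M a⁻¹ (fun i => (ε (a⁻¹ i))⁻¹)
  val_inv := by
    rw [M_mul, inv_mul_cancel, ← M_one]
    congr 1
    ext i
    rw [Equiv.Perm.inv_def, Equiv.symm_apply_apply, mul_inv_cancel₀ (hε i)]
  inv_val := by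
    rw [M_mul, mul_inv_cancel, ← M_one]
    congr 1
    ext i
    rw [inv_mul_cancel₀ (hε _)]

lemma R0_full (hq : Fintype.card F = 5) : Full (R0 F) := by
  have h5 := five_zero hq
  unfold Full
  rw [eq_top_iff]
  -- single 0 0
  have hmem : ∀ (a : Equiv.Perm (Fin 4)) (ε : Fin 4 → F), V4P a → EP ε → M a ε ∈ env (R0 F) := by
    intro a ε ha hε
    exact mem_env (x := mk a ε hε.ne) ⟨a, ha, ε, hε, rfl⟩
  have h00 : Matrix.single (0 : Fin 4) (0 : Fin 4) (1 : F) ∈ env (R0 F) := by
    have hc1 : EP (![1, 1, 1, 1] : Fin 4 → F) := ⟨by intro i; fin_cases i <;> simp, by intro i j; fin_cases i <;> fin_cases j <;> simp, by simp [Fin.prod_univ_four]⟩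
    have hc2 : EP (![1, 1, -1, -1] : Fin 4 → F) := ⟨by intro i; fin_cases i <;> simp, by intro i j; fin_cases i <;> fin_cases j <;> simp, by simp [Fin.prod_univ_four]⟩
    have hc3 : EP (![1, -1, 1, -1] : Fin 4 → F) := ⟨by intro i; fin_cases i <;> simp, by intro i j; fin_cases i <;> fin_cases j <;> simp, by simp [Fin.prod_univ_four]⟩
    have hc4 : EP (![1, -1, -1, 1] : Fin 4 → F) := ⟨by intro i; fin_cases i <;> simp, by intro i j; fin_cases i <;> fin_cases j <;> simp, by simp [Fin.prod_univ_four]⟩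
    have hsum : Matrix.single (0 : Fin 4) (0 : Fin 4) (1 : F) = (-1 : F) • (M 1 ![1, 1, 1, 1] + M 1 ![1, 1, -1, -1] +
        M 1 ![1, -1, 1, -1] + M 1 ![1, -1, -1, 1]) := by
      ext i j
      simp only [Matrix.single_apply, M, Matrix.smul_apply, Matrix.add_apply, Equiv.Perm.one_apply]
      fin_cases i <;> fin_cases j <;> simp
      linear_combination h5
    rw [hsum]
    exact (env _).smul_mem ((env _).add_mem ((env _).add_mem ((env _).add_mem (hmem _ _ V4_one hc1) (hmem _ _ V4_one hc2))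
      (hmem _ _ V4_one hc3)) (hmem _ _ V4_one hc4)) _
  have hone : EP (fun _ => 1 : Fin 4 → F) := ⟨fun _ => one_ne_zero, fun _ _ => rfl, by simp⟩
  have hij : ∀ i j, Matrix.single i j (1 : F) ∈ env (R0 F) := by
    intro i j
    obtain ⟨a, ha, hai⟩ := V4_trans i
    obtain ⟨b, hb, hbj⟩ := V4_trans j
    have haa' : ∀ i, a (a i) = i := fun i => by
      have := congrArg (fun p : Equiv.Perm (Fin 4) => p i) ha.1
      simpa using this
    have : Matrix.single i j (1 : F) = M a (fun _ => 1) * Matrix.single 0 0 1 * M b (fun _ => 1) := by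
      ext k l
      rw [Matrix.mul_apply, Finset.sum_eq_single 0]
      · rw [Matrix.mul_apply, Finset.sum_eq_single 0]
        · simp only [M, Matrix.single_apply, hbj]
          have e1 : (0 = a k) ↔ (i = k) := by
            rw [← hai]
            constructor
            · intro h; rw [h, haa']
            · intro h; rw [← h, haa']
          simp only [e1, eq_comm (a := l)]
          by_cases h1 : i = k <;> by_cases h2 : j = l <;> simp [h1, h2]
        · intro m _ hm
          simp [Matrix.single_apply, Ne.symm hm]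
        · intro h; exact absurd (Finset.mem_univ _) h
      · intro m _ hm
        rw [Matrix.mul_apply, Finset.sum_eq_zero, zero_mul]
        intro n _
        simp [Matrix.single_apply, Ne.symm hm]
      · intro h; exact absurd (Finset.mem_univ _) h
    rw [this]
    exact (env _).mul_mem ((env _).mul_mem (hmem _ _ ha hone) h00) (hmem _ _ hb hone)
  intro X _
  rw [Matrix.matrix_eq_sum_single X]
  refine (env _).sum_mem fun i _ => (env _).sum_mem fun j _ => ?_
  have : Matrix.single i j (X i j) = X i j • Matrix.single i j (1 : F) := by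
    rw [Matrix.smul_single, smul_eq_mul, mul_one]
  rw [this]
  exact (env _).smul_mem (hij i j) _

/-- monomial matrices with determinant `±1` normalise `R0` -/
lemma conj_mem (hq : Fintype.card F = 5) (h : GL (Fin 4) F) (σ : Equiv.Perm (Fin 4)) (c : Fin 4 → F)
    (hc : ∀ i, c i ≠ 0) (hh : (h : Matrix (Fin 4) (Fin 4) F) = M σ c) (hprod : (∏ i, c i) * (∏ i, c i) = 1) :
    ∀ x ∈ R0 F, h * x * h⁻¹ ∈ R0 F := by
  rintro x ⟨a, ha, ε, hε, hx⟩
  have hhmk : h = mk σ c hc := Units.ext hh
  have hinv : ((h⁻¹ : GL (Fin 4) F) : Matrix (Fin 4) (Fin 4) F) = M σ⁻¹ (fun i => (c (σ⁻¹ i))⁻¹) := by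
    rw [hhmk]; rfl
  have hb := V4_conj ha σ
  set b := σ⁻¹ * a * σ with hbdef
  have hbb' : ∀ i, b (b i) = i := fun i => by
    have := congrArg (fun p : Equiv.Perm (Fin 4) => p i) hb.1
    simpa using this
  refine ⟨b, hb, fun i => c i * ε (σ i) * (c (b i))⁻¹, ⟨?_, ?_, ?_⟩, ?_⟩
  · intro i
    exact mul_ne_zero (mul_ne_zero (hc i) (hε.ne _)) (inv_ne_zero (hc _))
  · -- squares
    let s : Fin 4 → F := fun i => c i * c i
    have hss : ∀ i, s i * s i = 1 := fun i => by
      have := pow_four hq (hc i)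
      change c i * c i * (c i * c i) = 1
      rw [← this]; ring
    have hsprod : ∏ i, s i = 1 := by
      change ∏ i, c i * c i = 1
      rw [Finset.prod_mul_distrib, hprod]
    have hpair : ∀ i j, s i * s (b i) = s j * s (b j) := by
      intro i j
      by_cases h1 : b = 1
      · rw [h1]; change s i * s i = s j * s j; rw [hss, hss]
      by_cases hj : j = i
      · rw [hj]
      by_cases hj2 : j = b i
      · rw [hj2, hbb', mul_comm]
      have h3 := prod_pairs hb h1 hj hj2 s
      rw [hsprod] at h3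
      have h4 : (s j * s (b j)) * (s j * s (b j)) = 1 := by
        calc _ = (s j * s j) * (s (b j) * s (b j)) := by ring
          _ = 1 := by rw [hss, hss, one_mul]
      calc s i * s (b i) = (s i * s (b i)) * ((s j * s (b j)) * (s j * s (b j))) := by rw [h4, mul_one]
        _ = ((s i * s (b i)) * (s j * s (b j))) * (s j * s (b j)) := by ring
        _ = _ := by rw [← h3, one_mul]
    have hinvs : ∀ i, (s i)⁻¹ = s i := fun i => (eq_inv_of_mul_eq_one_left (hss i)).symm
    intro i j
    have e1 : ∀ i, c i * ε (σ i) * (c (b i))⁻¹ * (c i * ε (σ i) * (c (b i))⁻¹) = (s i * s (b i)) * (ε (σ i) * ε (σ i)) := by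
      intro i
      have : s (b i) = (c (b i))⁻¹ * (c (b i))⁻¹ := by
        rw [← hinvs (b i), ← mul_inv]
      rw [this]
      change _ = (c i * c i * _) * _
      ring
    change c i * ε (σ i) * (c (b i))⁻¹ * (c i * ε (σ i) * (c (b i))⁻¹) = c j * ε (σ j) * (c (b j))⁻¹ * (c j * ε (σ j) * (c (b j))⁻¹)
    rw [e1, e1, hpair i j, hε.sq (σ i) (σ j)]
  · rw [Finset.prod_mul_distrib, Finset.prod_mul_distrib, Equiv.prod_comp σ ε, hε.prod, mul_one, Finset.prod_inv_distrib,
      Equiv.prod_comp b c, mul_inv_cancel₀]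
    exact Finset.prod_ne_zero_iff.2 fun i _ => hc i
  · rw [Units.val_mul, Units.val_mul, hinv, hx, hh, M_mul, M_mul, ← mul_assoc]
    congr 1

/-- the frame stabiliser in `SL₄(5)` -/
theorem frame_le (hq : Fintype.card F = 5) {D : Fin 4 → Submodule F (Fin 4 → F)} (hD : IsMDecomposition 1 D) :
    ∃ R : Subgroup (GL (Fin 4) F), IsLinearSymplecticTypeData 2 R ∧
      decompositionStabilizer D ⊓ specialLinear (Fin 4) F ≤ subgroupNormalizer R ∧
      ¬ specialLinear (Fin 4) F ≤ subgroupNormalizer R := by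
  classical
  obtain ⟨L, hL⟩ := H97.AschBlock.line_coords hD
  have hfinM : Finite (Matrix (Fin 4) (Fin 4) F) := by unfold Matrix; infer_instance
  have hfinG : Finite (GL (Fin 4) F) := inferInstance
  -- the matrix of L
  have hL1 : LinearMap.toMatrix' (L : (Fin 4 → F) →ₗ[F] (Fin 4 → F)) * LinearMap.toMatrix' (L.symm : (Fin 4 → F) →ₗ[F] (Fin 4 → F)) = 1 := by
    rw [← LinearMap.toMatrix'_comp]
    simp
  have hL2 : LinearMap.toMatrix' (L.symm : (Fin 4 → F) →ₗ[F] (Fin 4 → F)) * LinearMap.toMatrix' (L : (Fin 4 → F) →ₗ[F] (Fin 4 → F)) = 1 := by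
    rw [← LinearMap.toMatrix'_comp]
    simp
  let P : GL (Fin 4) F := ⟨_, _, hL1, hL2⟩
  have hP : ∀ u, (P : Matrix (Fin 4) (Fin 4) F) *ᵥ u = L u := by
    intro u
    change LinearMap.toMatrix' (L : (Fin 4 → F) →ₗ[F] (Fin 4 → F)) *ᵥ u = L u
    rw [← Matrix.toLin'_apply, Matrix.toLin'_toMatrix']
    rfl
  let R : Subgroup (GL (Fin 4) F) := cj P⁻¹ (R0 F)
  have hmem : ∀ x, x ∈ R ↔ P * x * P⁻¹ ∈ R0 F := by
    intro x
    rw [mem_cj, inv_inv]
  have hval : ∀ x : GL (Fin 4) F, (x : Matrix (Fin 4) (Fin 4) F) = ((P⁻¹ : GL (Fin 4) F) : Matrix (Fin 4) (Fin 4) F) *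
      ((P * x * P⁻¹ : GL (Fin 4) F) : Matrix (Fin 4) (Fin 4) F) * (P : Matrix (Fin 4) (Fin 4) F) := by
    intro x
    rw [← Units.val_mul, ← Units.val_mul]
    congr 1
    group
  have hPP : (P : Matrix (Fin 4) (Fin 4) F) * ((P⁻¹ : GL (Fin 4) F) : Matrix (Fin 4) (Fin 4) F) = 1 := by
    rw [← Units.val_mul, mul_inv_cancel, Units.val_one]
  have hPP' : ((P⁻¹ : GL (Fin 4) F) : Matrix (Fin 4) (Fin 4) F) * (P : Matrix (Fin 4) (Fin 4) F) = 1 := by
    rw [← Units.val_mul, inv_mul_cancel, Units.val_one]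
  have hmulval : ∀ x y : GL (Fin 4) F, (x : Matrix (Fin 4) (Fin 4) F) * y = ((P⁻¹ : GL (Fin 4) F) : Matrix (Fin 4) (Fin 4) F) *
      (((P * x * P⁻¹ : GL (Fin 4) F) : Matrix (Fin 4) (Fin 4) F) * ((P * y * P⁻¹ : GL (Fin 4) F) : Matrix (Fin 4) (Fin 4) F)) * (P : Matrix (Fin 4) (Fin 4) F) := by
    intro x y
    rw [← Units.val_mul, ← Units.val_mul, ← Units.val_mul, ← Units.val_mul]
    congr 1
    group
  have hFull : Full R := by
    unfold Full
    rw [eq_top_iff]
    intro X _
    rw [env_cj]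
    rw [show env (R0 F) = ⊤ from R0_full hq]
    trivial
  have hSc : scalars (Fin 4) F ≤ R := by
    intro z hz
    rw [hmem]
    apply scalars_le_R0 hq
    exact scalars_normal.conj_mem z hz P
  have hCm : ∀ x ∈ R, ∀ y ∈ R, (x : Matrix (Fin 4) (Fin 4) F) * y = y * x ∨
      (x : Matrix (Fin 4) (Fin 4) F) * y = -(y * x) := by
    intro x hx y hy
    rw [hmem] at hx hy
    rw [hmulval x y, hmulval y x]
    rcases R0_comm hq _ hx _ hy with h | h
    · left; rw [h]
    · right; rw [h, mul_neg, neg_mul]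
  refine ⟨R, data_of hq (Fintype.card_fin 4) hFull hSc hCm ?_, ?_, ?_⟩
  · intro x hx
    rw [hmem] at hx
    rw [hmulval x x]
    rcases R0_sq hq _ hx with h | h
    · left; rw [h, mul_one, hPP']
    · right; rw [h, mul_neg, neg_mul, mul_one, hPP']
  · rintro g ⟨hg1, hg2⟩
    obtain ⟨σ, c, hc, h⟩ := hL g hg1
    have hfin : Finite (R : Set (GL (Fin 4) F)) := Subtype.finite
    refine Subgroup.mem_normalizer_fintype (fun x hx => ?_)
    change x ∈ R at hx
    change g * x * g⁻¹ ∈ R
    rw [hmem] at hx ⊢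
    -- the coordinate matrix of g
    set h' : GL (Fin 4) F := P * g * P⁻¹ with hh'
    have hM : (h' : Matrix (Fin 4) (Fin 4) F) = M σ⁻¹ (fun i => c (σ⁻¹ i)) := by
      have h1 : ∀ w j, ((h' : Matrix (Fin 4) (Fin 4) F) *ᵥ w) j = c (σ⁻¹ j) * w (σ⁻¹ j) := by
        intro w j
        have h2 := h ((((P⁻¹ : GL (Fin 4) F) : Matrix (Fin 4) (Fin 4) F)) *ᵥ w) (σ⁻¹ j)
        rw [← hP, ← hP, Equiv.Perm.inv_def, Equiv.apply_symm_apply, Matrix.mulVec_mulVec, Matrix.mulVec_mulVec,
          Matrix.mulVec_mulVec, hPP, Matrix.one_mulVec] at h2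
        rw [hh', Units.val_mul, Units.val_mul]
        exact h2
      ext i j
      have h2 := h1 (Pi.single j 1) i
      rw [Matrix.mulVec_single_one] at h2
      change (h' : Matrix (Fin 4) (Fin 4) F) i j = _ at h2
      rw [h2]
      simp only [M, Pi.single_apply, mul_ite, mul_one, mul_zero, eq_comm]
    have hdet : (M σ⁻¹ (fun i => c (σ⁻¹ i)) : Matrix (Fin 4) (Fin 4) F).det = 1 := by
      rw [← hM, hh', Units.val_mul, Units.val_mul, Matrix.det_mul, Matrix.det_mul, mul_right_comm, ← Matrix.det_mul, hPP,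
        Matrix.det_one, one_mul]
      have h3 := hg2
      change Matrix.GeneralLinearGroup.det g = 1 at h3
      exact congrArg Units.val h3
    have hprod : (∏ i, c (σ⁻¹ i)) * (∏ i, c (σ⁻¹ i)) = 1 := by
      have h4 : (M σ⁻¹ (fun i => c (σ⁻¹ i)) : Matrix (Fin 4) (Fin 4) F) = Matrix.diagonal (fun i => c (σ⁻¹ i)) * (M σ⁻¹ (fun _ => 1)) := by
        ext i j
        rw [Matrix.diagonal_mul]
        simp only [M, mul_ite, mul_one, mul_zero]
      have h5 : (M σ⁻¹ (fun _ => 1) : Matrix (Fin 4) (Fin 4) F) = Equiv.Perm.permMatrix F (σ⁻¹) := by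
        ext i j
        simp only [M, Equiv.Perm.permMatrix, PEquiv.toMatrix_apply, Equiv.toPEquiv_apply, Option.mem_def, Option.some.injEq]
        simp only [Equiv.Perm.inv_def, eq_comm]
      rw [h4, Matrix.det_mul, Matrix.det_diagonal, h5, Matrix.det_permutation] at hdet
      rcases Int.units_eq_one_or (Equiv.Perm.sign σ⁻¹) with h6 | h6
      · rw [h6] at hdet
        simp only [Units.val_one, Int.cast_one, mul_one] at hdet
        rw [hdet, one_mul]
      · rw [h6] at hdet
        simp only [Units.val_neg, Units.val_one, Int.cast_neg, Int.cast_one, mul_neg, mul_one] at hdet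
        have h7 : ∏ i, c (σ⁻¹ i) = -1 := by rw [← hdet, neg_neg]
        rw [h7]; ring
    have h8 := conj_mem hq h' σ⁻¹ _ (fun i => hc _) hM hprod _ hx
    have h9 : P * (g * x * g⁻¹) * P⁻¹ = h' * (P * x * P⁻¹) * h'⁻¹ := by
      rw [hh']; group
    rw [h9]
    exact h8
  · intro hle'
    have hns : ∃ x ∈ R, x ∉ scalars (Fin 4) F := by
      by_contra hcon
      push Not at hcon
      exact not_full_of_le_scalars (by rw [Fintype.card_fin]; norm_num) hcon hFull
    obtain ⟨x, hx, hxs⟩ := hns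
    have h5 := H97.AschSL3.card_le_of_normalizes (by rw [Fintype.card_fin]; norm_num) hle' hx hxs
    rw [Fintype.card_fin, hq, card_of hq (Fintype.card_fin 4) hFull hSc hCm] at h5
    norm_num at h5

end five

end H61.AschE6
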