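import Mathlib
import Cfsg.Agent.Lib.H97.AschCases

set_option autoImplicit false
set_option linter.unusedSectionVars false

/-! `q = 4`, `n = 3`: the normaliser of a cubic field inside `SL₃(4)` lies in a subfield group. -/

namespace H61.AschE8

open Cfsg Cfsg.Geo Matrix

abbrev K4 := QuadraticAlgebra (ZMod 2) 1 1

theorem unitK4 : ∀ x y : ZMod 2, ((⟨x, y⟩ : K4) = 0 ∨ ∃ u v : ZMod 2, (⟨x, y⟩ : K4) * ⟨u, v⟩ = 1) := by decide

section checks

def mk3 {R : Type*} (a b c a' b' c' a'' b'' c'' : R) : Matrix (Fin 3) (Fin 3) R := !![a,a',a'';b,b',b'';c,c',c'']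

def in01 (l : K4) (a b c a' b' c' a'' b'' c'' : K4) : Prop :=
  (a = 0 ∨ a = l) ∧ (b = 0 ∨ b = l) ∧ (c = 0 ∨ c = l) ∧ (a' = 0 ∨ a' = l) ∧ (b' = 0 ∨ b' = l) ∧ (c' = 0 ∨ c' = l) ∧
  (a'' = 0 ∨ a'' = l) ∧ (b'' = 0 ∨ b'' = l) ∧ (c'' = 0 ∨ c'' = l)

def det3 {R : Type*} [CommRing R] (a b c a' b' c' a'' b'' c'' : R) : R :=
  a * (b' * c'' + b'' * c') + a' * (b * c'' + b'' * c) + a'' * (b * c' + b' * c)

instance (l a b c a' b' c' a'' b'' c'' : K4) : Decidable (in01 l a b c a' b' c' a'' b'' c'') := by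
  unfold in01; infer_instance

def good1 (a b c : K4) : Prop := det3 a b c c (a+c) b b (b+c) (a+c) = 1 →
  ∃ l0 l1 : ZMod 2, in01 ⟨l0,l1⟩ a b c c (a+c) b b (b+c) (a+c)
def good2 (a b c : K4) : Prop := det3 a b c b (b+c) (a+c) (b+c) (a+b) (a+b+c) = 1 →
  ∃ l0 l1 : ZMod 2, in01 ⟨l0,l1⟩ a b c b (b+c) (a+c) (b+c) (a+b) (a+b+c)
def good3 (a b c : K4) : Prop := det3 a b c (b+c) (a+b) (a+b+c) c (a+c) b = 1 →
  ∃ l0 l1 : ZMod 2, in01 ⟨l0,l1⟩ a b c (b+c) (a+b) (a+b+c) c (a+c) b
instance (a b c : K4) : Decidable (good1 a b c) := by unfold good1; infer_instance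
instance (a b c : K4) : Decidable (good2 a b c) := by unfold good2; infer_instance
instance (a b c : K4) : Decidable (good3 a b c) := by unfold good3; infer_instance

set_option maxRecDepth 20000 in
theorem good1_all : ∀ a0 a1 b0 b1 c0 c1 : ZMod 2, good1 ⟨a0,a1⟩ ⟨b0,b1⟩ ⟨c0,c1⟩ := by decide +kernel
set_option maxRecDepth 20000 in
theorem good2_all : ∀ a0 a1 b0 b1 c0 c1 : ZMod 2, good2 ⟨a0,a1⟩ ⟨b0,b1⟩ ⟨c0,c1⟩ := by decide +kernel
set_option maxRecDepth 20000 in
theorem good3_all : ∀ a0 a1 b0 b1 c0 c1 : ZMod 2, good3 ⟨a0,a1⟩ ⟨b0,b1⟩ ⟨c0,c1⟩ := by decide +kernel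

end checks

section four

variable {F : Type*} [Field F] [Fintype F]

theorem char_two (hq : Fintype.card F = 4) : CharP F 2 := by
  obtain ⟨p, hp⟩ := CharP.exists F
  obtain ⟨m, hpp, hcard⟩ := FiniteField.card F p
  have h1 : p ∣ 2 ^ 2 := by
    have : p ∣ p ^ (m : ℕ) := dvd_pow_self p m.pos.ne'
    rw [← hcard, hq] at this
    exact this
  have h2 : p = 2 := (Nat.prime_dvd_prime_iff_eq hpp Nat.prime_two).mp (hpp.dvd_of_dvd_pow h1)
  rwa [h2] at hp

theorem two_zero (hq : Fintype.card F = 4) : (2 : F) = 0 := by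
  have hC := char_two hq
  exact_mod_cast CharP.cast_eq_zero F 2

theorem exists_model (hq : Fintype.card F = 4) :
    ∃ f : K4 →+* F, Function.Injective f ∧ ∀ a : F, ∃ x y : ZMod 2, a = f ⟨x, y⟩ := by
  have hC := char_two hq
  have : Fact (Nat.Prime 2) := ⟨Nat.prime_two⟩
  have h2 : (2 : F) = 0 := by exact_mod_cast CharP.cast_eq_zero F 2
  -- an element outside {0, 1}
  have hex : ∃ w : F, w ≠ 0 ∧ w ≠ 1 := by
    by_contra hcon
    push Not at hcon
    have h3 : Fintype.card F ≤ 2 := by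
      classical
      rw [← Finset.card_univ]
      calc (Finset.univ : Finset F).card ≤ ({0, 1} : Finset F).card := by
            apply Finset.card_le_card
            intro a _
            by_cases ha : a = 0
            · simp [ha]
            · simp [hcon a ha]
        _ ≤ 2 := Finset.card_le_two
    omega
  obtain ⟨w, hw0, hw1⟩ := hex
  have hw3 : w ^ 3 = 1 := by
    have := FiniteField.pow_card_sub_one_eq_one w hw0
    rwa [hq] at this
  have hw : w * w = w + 1 := by
    have h3 : (w - 1) * (w * w + w + 1) = 0 := by linear_combination hw3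
    rcases mul_eq_zero.1 h3 with h | h
    · exact absurd (sub_eq_zero.1 h) hw1
    · linear_combination h - (w + 1) * h2
  let alg : Algebra (ZMod 2) F := ZMod.algebra F 2
  let f : K4 →ₐ[ZMod 2] F := QuadraticAlgebra.lift ⟨w, by rw [hw]; simp [add_comm]⟩
  have hunit := unitK4
  refine ⟨f.toRingHom, ?_, ?_⟩
  · rw [injective_iff_map_eq_zero]
    rintro ⟨x, y⟩ ha
    rcases hunit x y with h | ⟨u, v, h⟩
    · exact h
    · have := congrArg f.toRingHom h
      rw [map_mul, ha, zero_mul, map_one] at this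
      exact absurd this zero_ne_one
  · have hf : ∀ x y : ZMod 2, f.toRingHom ⟨x, y⟩ = algebraMap (ZMod 2) F x + algebraMap (ZMod 2) F y * w := by
      intro x y
      have : f ⟨x, y⟩ = x • (1 : F) + y • w := rfl
      change f ⟨x, y⟩ = _
      rw [this, Algebra.smul_def, Algebra.smul_def, mul_one]
    intro a
    have ha4 : a ^ 4 = a := by
      have := FiniteField.pow_card a
      rwa [hq] at this
    have h4 : a * (a - 1) * ((a - w) * (a - (w + 1))) = 0 := by
      linear_combination ha4 + (-w * a ^ 3 + 2 * w * a ^ 2 + a ^ 2 - a * w - a ^ 3) * h2 + (a ^ 2 - a) * hw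
    rcases mul_eq_zero.1 h4 with h | h
    · rcases mul_eq_zero.1 h with h | h
      · exact ⟨0, 0, by rw [hf, h]; simp⟩
      · exact ⟨1, 0, by rw [hf, sub_eq_zero.1 h]; simp⟩
    · rcases mul_eq_zero.1 h with h | h
      · exact ⟨0, 1, by rw [hf, sub_eq_zero.1 h]; simp⟩
      · exact ⟨1, 1, by rw [hf, sub_eq_zero.1 h]; simp [add_comm]⟩

lemma det3_eq (h2 : (2 : F) = 0) (a b c a' b' c' a'' b'' c'' : F) :
    (mk3 a b c a' b' c' a'' b'' c'').det = det3 a b c a' b' c' a'' b'' c'' := by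
  rw [Matrix.det_fin_three]
  change a * b' * c'' - a * b'' * c' - a' * b * c'' + a' * b'' * c + a'' * b * c' - a'' * b' * c = _
  unfold det3
  linear_combination (-(a * c' * b'') - b * a' * c'' - c * b' * a'') * h2

lemma det3_map (f : K4 →+* F) (hf : Function.Injective f) (a b c a' b' c' a'' b'' c'' : K4)
    (h : det3 (f a) (f b) (f c) (f a') (f b') (f c') (f a'') (f b'') (f c'') = 1) :
    det3 a b c a' b' c' a'' b'' c'' = 1 := by
  apply hf
  rw [map_one, ← h]
  simp only [det3, map_add, map_mul]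

lemma in01_map (f : K4 →+* F) (l a b c a' b' c' a'' b'' c'' : K4) (h : in01 l a b c a' b' c' a'' b'' c'') :
    ∀ i j, mk3 (f a) (f b) (f c) (f a') (f b') (f c') (f a'') (f b'') (f c'') i j = 0 ∨
      mk3 (f a) (f b) (f c) (f a') (f b') (f c') (f a'') (f b'') (f c'') i j = f l := by
  have key : ∀ x : K4, (x = 0 ∨ x = l) → (f x = 0 ∨ f x = f l) := by
    intro x hx
    rcases hx with rfl | rfl
    · left; exact map_zero f
    · right; rfl
  obtain ⟨h1, h2, h3, h4, h5, h6, h7, h8, h9⟩ := h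
  intro i j
  fin_cases i <;> fin_cases j
  · exact key _ h1
  · exact key _ h4
  · exact key _ h7
  · exact key _ h2
  · exact key _ h5
  · exact key _ h8
  · exact key _ h3
  · exact key _ h6
  · exact key _ h9

theorem entries (hq : Fintype.card F = 4) (a b c : F) (G : Matrix (Fin 3) (Fin 3) F)
    (hG : G = mk3 a b c c (a+c) b b (b+c) (a+c) ∨ G = mk3 a b c b (b+c) (a+c) (b+c) (a+b) (a+b+c) ∨
      G = mk3 a b c (b+c) (a+b) (a+b+c) c (a+c) b) (hdet : G.det = 1) :
    ∃ l : F, ∀ i j, G i j = 0 ∨ G i j = l := by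
  obtain ⟨f, hf, hsurj⟩ := exists_model hq
  have h2 := two_zero hq
  obtain ⟨a0, a1, rfl⟩ := hsurj a
  obtain ⟨b0, b1, rfl⟩ := hsurj b
  obtain ⟨c0, c1, rfl⟩ := hsurj c
  rcases hG with rfl | rfl | rfl
  · rw [det3_eq h2] at hdet
    simp only [← map_add] at hdet ⊢
    obtain ⟨l0, l1, h⟩ := good1_all a0 a1 b0 b1 c0 c1 (det3_map f hf _ _ _ _ _ _ _ _ _ hdet)
    exact ⟨_, in01_map f _ _ _ _ _ _ _ _ _ _ h⟩
  · rw [det3_eq h2] at hdet
    simp only [← map_add] at hdet ⊢
    obtain ⟨l0, l1, h⟩ := good2_all a0 a1 b0 b1 c0 c1 (det3_map f hf _ _ _ _ _ _ _ _ _ hdet)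
    exact ⟨_, in01_map f _ _ _ _ _ _ _ _ _ _ h⟩
  · rw [det3_eq h2] at hdet
    simp only [← map_add] at hdet ⊢
    obtain ⟨l0, l1, h⟩ := good3_all a0 a1 b0 b1 c0 c1 (det3_map f hf _ _ _ _ _ _ _ _ _ hdet)
    exact ⟨_, in01_map f _ _ _ _ _ _ _ _ _ _ h⟩

lemma no_root (hq : Fintype.card F = 4) (β : F) : β * β * β ≠ β + 1 := by
  intro h
  by_cases h0 : β = 0
  · rw [h0] at h
    simp at h
  · have h3 := FiniteField.pow_card_sub_one_eq_one β h0
    rw [hq] at h3
    apply h0
    linear_combination h3 - h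

theorem exists_x (hq : Fintype.card F = 4) {K : Subalgebra F (Matrix (Fin 3) (Fin 3) F)} (hK : IsFieldSubalgebra 3 K) :
    ∃ x ∈ K, x * x * x = x + 1 := by
  classical
  have hKf : IsField K := by
    refine ⟨⟨0, 1, fun h => ?_⟩, ?_, ?_⟩
    · have h1 : (0 : Matrix (Fin 3) (Fin 3) F) = 1 := congrArg Subtype.val h
      exact zero_ne_one h1
    · intro a b
      exact Subtype.ext (hK.comm a a.2 b b.2)
    · intro a ha
      obtain ⟨y, hy, hxy⟩ := hK.inv a a.2 (fun h => ha (Subtype.ext h))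
      exact ⟨⟨y, hy⟩, Subtype.ext hxy⟩
  let instF : Field K := hKf.toField
  have hfinM : Finite (Matrix (Fin 3) (Fin 3) F) := by unfold Matrix; infer_instance
  have hfinK : Finite K := Subtype.finite
  have hcardK : Nat.card K = 64 := by
    have h1 := Module.natCard_eq_pow_finrank (K := F) (V := K)
    rw [hK.finrank_eq, Nat.card_eq_fintype_card (α := F), hq] at h1
    exact h1
  have hcardU : Nat.card Kˣ = 63 := by
    rw [Nat.card_units, hcardK]
  have : Fact (Nat.Prime 7) := ⟨by norm_num⟩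
  obtain ⟨u, hu⟩ := exists_prime_orderOf_dvd_card' (G := Kˣ) 7 (by rw [hcardU]; norm_num)
  have h2F := two_zero hq
  have h2 : (2 : K) = 0 := by
    rw [← one_add_one_eq_two]
    apply Subtype.ext
    change (1 : Matrix (Fin 3) (Fin 3) F) + 1 = 0
    rw [← two_smul F (1 : Matrix (Fin 3) (Fin 3) F), h2F, zero_smul]
  have h7 : (u : K) ^ 7 = 1 := by
    rw [← Units.val_pow_eq_pow_val, ← hu, pow_orderOf_eq_one, Units.val_one]
  have hne : (u : K) ≠ 1 := by
    intro h
    have : u = 1 := Units.ext h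
    rw [this, orderOf_one] at hu
    norm_num at hu
  have h3 : ((u : K) - 1) * (((u : K) ^ 3 + u + 1) * ((u : K) ^ 3 + u ^ 2 + 1)) = 0 := by
    linear_combination h7 + ((u : K) ^ 3 * (u - 1)) * h2
  rcases mul_eq_zero.1 h3 with h | h
  · exact absurd (sub_eq_zero.1 h) hne
  rcases mul_eq_zero.1 h with h | h
  · refine ⟨(u : K).1, (u : K).2, ?_⟩
    have h4 : (u : K) * u * u = u + 1 := by linear_combination h - (u + 1) * h2
    exact congrArg Subtype.val h4
  · refine ⟨((u⁻¹ : Kˣ) : K).1, ((u⁻¹ : Kˣ) : K).2, ?_⟩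
    have h5 : (u : K) * ((u⁻¹ : Kˣ) : K) = 1 := Units.mul_inv u
    have h4 : ((u⁻¹ : Kˣ) : K) * ((u⁻¹ : Kˣ) : K) * ((u⁻¹ : Kˣ) : K) = ((u⁻¹ : Kˣ) : K) + 1 := by
      set w := ((u⁻¹ : Kˣ) : K)
      have hw3 : (u : K) ^ 3 * w ^ 3 = 1 := by rw [← mul_pow, h5, one_pow]
      have : w * w * w - (w + 1) = w ^ 3 * ((u : K) ^ 3 + u ^ 2 + 1) - (w + 1) * 2 := by
        have e1 : w ^ 3 * (u : K) ^ 3 = 1 := by rw [mul_comm]; exact hw3
        have e2 : w ^ 3 * (u : K) ^ 2 = w := by
          calc w ^ 3 * (u : K) ^ 2 = w * ((u : K) * w) ^ 2 := by ring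
            _ = w := by rw [h5]; ring
        rw [mul_add, mul_add, e1, e2]
        ring
      rw [← sub_eq_zero, this, h, h2]
      ring
    exact congrArg Subtype.val h4

/-- the three conjugates of the root -/
theorem roots {K : Subalgebra F (Matrix (Fin 3) (Fin 3) F)} (hq : Fintype.card F = 4) (hK : IsFieldSubalgebra 3 K)
    {x y : Matrix (Fin 3) (Fin 3) F} (hx : x ∈ K) (hy : y ∈ K) (hx3 : x * x * x = x + 1) (hy3 : y * y * y = y + 1) :
    y = x ∨ y = x * x ∨ y = x * x + x := by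
  have h2F := two_zero hq
  have hzd : ∀ a ∈ K, ∀ b ∈ K, a * b = 0 → a = 0 ∨ b = 0 := by
    intro a ha b hb hab
    by_cases h : a = 0
    · left; exact h
    · right
      obtain ⟨c, hc, hac⟩ := hK.inv a ha h
      have hca : c * a = 1 := by rw [hK.comm c hc a ha]; exact hac
      calc b = (c * a) * b := by rw [hca, one_mul]
        _ = c * (a * b) := by rw [mul_assoc]
        _ = 0 := by rw [hab, mul_zero]
  have hxy : x * y = y * x := hK.comm x hx y hy
  -- characteristic two
  have hdd : ∀ z : Matrix (Fin 3) (Fin 3) F, z + z = 0 := by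
    intro z
    rw [← two_smul F z, h2F, zero_smul]
  have hneg : ∀ z w : Matrix (Fin 3) (Fin 3) F, z - w = 0 → z = w := fun z w h => sub_eq_zero.1 h
  have hsubadd : ∀ z w : Matrix (Fin 3) (Fin 3) F, z - w = z + w := by
    intro z w
    rw [sub_eq_iff_eq_add, add_assoc, hdd, add_zero]
  have hprod : (y - x) * ((y - x * x) * (y - (x * x + x))) = 0 := by
    -- compute in the commutative subalgebra generated
    let cr : CommRing K := { (inferInstance : Ring K) with mul_comm := fun a b => Subtype.ext (hK.comm a a.2 b b.2) }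
    let X : K := ⟨x, hx⟩
    let Y : K := ⟨y, hy⟩
    have hX : X * X * X = X + 1 := Subtype.ext hx3
    have hY : Y * Y * Y = Y + 1 := Subtype.ext hy3
    have h2 : (2 : K) = 0 := by
      rw [← one_add_one_eq_two]
      exact Subtype.ext (hdd 1)
    have : (Y - X) * ((Y - X * X) * (Y - (X * X + X))) = 0 := by
      have e4 : X * X * X * X = X * X + X := by rw [hX]; ring
      have e5 : X * X * X * X * X = X * X + X + 1 := by rw [e4]; linear_combination hX
      linear_combination hY + Y * e4 + 3 * Y * hX - e5 - e4 +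
        (-(X + X * X) * Y * Y + (X * X + 2 * X + 2) * Y - X * X - X) * h2
    exact congrArg Subtype.val this
  have m1 : y - x ∈ K := K.sub_mem hy hx
  have m2 : y - x * x ∈ K := K.sub_mem hy (K.mul_mem hx hx)
  have m3 : y - (x * x + x) ∈ K := K.sub_mem hy (K.add_mem (K.mul_mem hx hx) hx)
  rcases hzd _ m1 _ (K.mul_mem m2 m3) hprod with h | h
  · left; exact hneg _ _ h
  · rcases hzd _ m2 _ m3 h with h | h
    · right; left; exact hneg _ _ h
    · right; right; exact hneg _ _ h

/-- the companion matrix of the root -/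
def CC (F : Type*) [Field F] : Matrix (Fin 3) (Fin 3) F := !![0,0,1;1,0,1;0,1,0]

/-- normaliser elements in the basis `v, xv, x²v` -/
theorem normal_form (hq : Fintype.card F = 4) {G C' : Matrix (Fin 3) (Fin 3) F}
    (hC' : C' = CC F ∨ C' = CC F * CC F ∨
      C' = CC F * CC F + CC F)
    (hG : G * CC F = C' * G) :
    G = mk3 (G 0 0) (G 1 0) (G 2 0) (G 2 0) (G 0 0 + G 2 0) (G 1 0) (G 1 0) (G 1 0 + G 2 0) (G 0 0 + G 2 0) ∨
    G = mk3 (G 0 0) (G 1 0) (G 2 0) (G 1 0) (G 1 0 + G 2 0) (G 0 0 + G 2 0) (G 1 0 + G 2 0) (G 0 0 + G 1 0) (G 0 0 + G 1 0 + G 2 0) ∨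
    G = mk3 (G 0 0) (G 1 0) (G 2 0) (G 1 0 + G 2 0) (G 0 0 + G 1 0) (G 0 0 + G 1 0 + G 2 0) (G 2 0) (G 0 0 + G 2 0) (G 1 0) := by
  have h2 := two_zero hq
  have ent : ∀ i j, (G * CC F) i j = (C' * G) i j := fun i j => by rw [hG]
  rcases hC' with rfl | rfl | rfl
  · left
    have e00 := ent 0 0
    have e10 := ent 1 0
    have e20 := ent 2 0
    have e01 := ent 0 1
    have e11 := ent 1 1
    have e21 := ent 2 1
    simp [CC, Matrix.mul_apply, Fin.sum_univ_three] at e00 e10 e20 e01 e11 e21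
    ext i j
    fin_cases i <;> fin_cases j
    · rfl
    · exact e00
    · change G 0 2 = G 1 0
      linear_combination e01 + e20
    · rfl
    · exact e10
    · change G 1 2 = G 1 0 + G 2 0
      linear_combination e11 + e00 + e20
    · rfl
    · exact e20
    · change G 2 2 = G 0 0 + G 2 0
      linear_combination e21 + e10
  · right; left
    have e00 := ent 0 0
    have e10 := ent 1 0
    have e20 := ent 2 0
    have e01 := ent 0 1
    have e11 := ent 1 1
    have e21 := ent 2 1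
    simp [CC, Matrix.mul_apply, Fin.sum_univ_three] at e00 e10 e20 e01 e11 e21
    ext i j
    fin_cases i <;> fin_cases j
    · rfl
    · exact e00
    · change G 0 2 = G 1 0 + G 2 0
      linear_combination e01 + e10
    · rfl
    · exact e10
    · change G 1 2 = G 0 0 + G 1 0
      linear_combination e11 + e10 + e20 + (G 2 0) * h2
    · rfl
    · change G 2 1 = G 0 0 + G 2 0
      linear_combination e20
    · change G 2 2 = G 0 0 + G 1 0 + G 2 0
      linear_combination e21 + e00 + e20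
  · right; right
    have e00 := ent 0 0
    have e10 := ent 1 0
    have e20 := ent 2 0
    have e01 := ent 0 1
    have e11 := ent 1 1
    have e21 := ent 2 1
    simp [CC, Matrix.mul_apply, Fin.sum_univ_three] at e00 e10 e20 e01 e11 e21
    ext i j
    fin_cases i <;> fin_cases j
    · rfl
    · change G 0 1 = G 1 0 + G 2 0
      linear_combination e00
    · change G 0 2 = G 2 0
      linear_combination e01 + e10 + e20 + (G 0 0 + G 1 0 + G 2 0) * h2
    · rfl
    · change G 1 1 = G 0 0 + G 1 0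
      linear_combination e10 + (G 2 0) * h2
    · change G 1 2 = G 0 0 + G 2 0
      linear_combination e11 + e10 + e00 + (G 1 0 + G 2 0 + G 2 1) * h2
    · rfl
    · change G 2 1 = G 0 0 + G 1 0 + G 2 0
      linear_combination e20
    · change G 2 2 = G 1 0
      linear_combination e21 + e10 + e00 + e20 + (G 0 0 + G 1 0 + 2 * G 2 0) * h2

/-- the normaliser of a cubic field in `SL₃(4)` lies in a subfield group over the prime field -/
theorem field_le_subfield (hq : Fintype.card F = 4) {K : Subalgebra F (Matrix (Fin 3) (Fin 3) F)}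
    (hK : IsFieldSubalgebra 3 K) :
    ∃ (F₀ : Subfield F) (P : GL (Fin 3) F), F₀ ≠ ⊤ ∧ Fintype.card F = Nat.card F₀ ^ 2 ∧
      subalgebraNormalizer K ⊓ specialLinear (Fin 3) F ≤ subfieldSubgroup F₀ P := by
  classical
  obtain ⟨x, hxK, hx3⟩ := exists_x hq hK
  have hC := char_two hq
  have : Fact (Nat.Prime 2) := ⟨Nat.prime_two⟩
  have h2 := two_zero hq
  -- the prime field
  let alg : Algebra (ZMod 2) F := ZMod.algebra F 2
  let F₀ : Subfield F := (algebraMap (ZMod 2) F).fieldRange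
  have hcard : Nat.card F₀ = 2 := by
    have e : ZMod 2 ≃ F₀ := (RingEquiv.ofBijective (algebraMap (ZMod 2) F).rangeRestrictField
      (algebraMap (ZMod 2) F).rangeRestrictField_bijective).toEquiv
    rw [← Nat.card_congr e, Nat.card_eq_fintype_card, ZMod.card]
  -- the basis
  let v : Fin 3 → F := Pi.single 0 1
  have hv : v ≠ 0 := by
    intro h
    have := congrFun h 0
    simp [v] at this
  let Pm : Matrix (Fin 3) (Fin 3) F := Matrix.of fun i j => (![v, x *ᵥ v, x *ᵥ (x *ᵥ v)] : Fin 3 → Fin 3 → F) j i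
  have hP0 : ∀ i, Pm i 0 = v i := fun i => rfl
  have hP1 : ∀ i, Pm i 1 = (x *ᵥ v) i := fun i => rfl
  have hP2 : ∀ i, Pm i 2 = (x *ᵥ (x *ᵥ v)) i := fun i => rfl
  have hroot : ∀ β : F, x ≠ β • (1 : Matrix (Fin 3) (Fin 3) F) := by
    intro β hβ
    rw [hβ] at hx3
    have h5 := congrFun (congrFun hx3 0) 0
    simp [Matrix.smul_apply, Matrix.mul_apply, Fin.sum_univ_three, Matrix.one_apply] at h5
    exact no_root hq β (by rw [h5])
  have hindep : ∀ a b c : F, a • (1 : Matrix (Fin 3) (Fin 3) F) + b • x + c • (x * x) = 0 → a = 0 ∧ b = 0 ∧ c = 0 := by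
    intro a b c h
    have hlin : ∀ a b : F, a • (1 : Matrix (Fin 3) (Fin 3) F) + b • x = 0 → a = 0 ∧ b = 0 := by
      intro a b h
      by_cases hb : b = 0
      · rw [hb, zero_smul, add_zero] at h
        refine ⟨?_, hb⟩
        have h5 := congrFun (congrFun h 0) 0
        simpa using h5
      · exfalso
        apply hroot (-(b⁻¹ * a))
        have h5 : b⁻¹ • (a • (1 : Matrix (Fin 3) (Fin 3) F) + b • x) = 0 := by rw [h, smul_zero]
        rw [smul_add, smul_smul, smul_smul, inv_mul_cancel₀ hb, one_smul] at h5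
        rw [neg_smul]
        exact eq_neg_of_add_eq_zero_right h5
    by_cases hc : c = 0
    · rw [hc, zero_smul, add_zero] at h
      obtain ⟨h5, h6⟩ := hlin a b h
      exact ⟨h5, h6, hc⟩
    · exfalso
      -- x² = s x + t
      obtain ⟨s, t, hst⟩ : ∃ s t : F, x * x = s • x + t • (1 : Matrix (Fin 3) (Fin 3) F) := by
        refine ⟨-(c⁻¹ * b), -(c⁻¹ * a), ?_⟩
        have h5 : c⁻¹ • (a • (1 : Matrix (Fin 3) (Fin 3) F) + b • x + c • (x * x)) = 0 := by rw [h, smul_zero]
        rw [smul_add, smul_add, smul_smul, smul_smul, smul_smul, inv_mul_cancel₀ hc, one_smul] at h5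
        rw [neg_smul, neg_smul, ← neg_add, add_comm ((c⁻¹ * b) • x)]
        exact eq_neg_of_add_eq_zero_right h5
      have h6 : x * x * x = (s * s + t) • x + (s * t) • (1 : Matrix (Fin 3) (Fin 3) F) := by
        rw [hst, add_mul, smul_mul_assoc, smul_mul_assoc, one_mul, hst, smul_add, smul_smul, smul_smul, add_smul]
        abel
      rw [h6] at hx3
      have h7 : (s * t - 1) • (1 : Matrix (Fin 3) (Fin 3) F) + (s * s + t - 1) • x = 0 := by
        rw [sub_smul, sub_smul, one_smul, one_smul]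
        have := sub_eq_zero.2 hx3
        rw [← this]
        abel
      obtain ⟨h8, h9⟩ := hlin _ _ h7
      apply no_root hq s
      linear_combination s * h9 - h8 - h2
  have hdet : Pm.det ≠ 0 := by
    intro h0
    obtain ⟨w, hw0, hw⟩ := Matrix.exists_mulVec_eq_zero_iff.2 h0
    set y := w 0 • (1 : Matrix (Fin 3) (Fin 3) F) + w 1 • x + w 2 • (x * x) with hy
    have hyK : y ∈ K := K.add_mem (K.add_mem (K.smul_mem K.one_mem _) (K.smul_mem hxK _)) (K.smul_mem (K.mul_mem hxK hxK) _)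
    have hyv : y *ᵥ v = 0 := by
      rw [← hw]
      ext i
      rw [hy, Matrix.add_mulVec, Matrix.add_mulVec, Matrix.smul_mulVec, Matrix.smul_mulVec, Matrix.smul_mulVec,
        Matrix.one_mulVec, ← Matrix.mulVec_mulVec]
      simp only [Pi.add_apply, Pi.smul_apply, smul_eq_mul]
      change _ = Pm i ⬝ᵥ w
      rw [dotProduct, Fin.sum_univ_three, hP0, hP1, hP2]
      ring
    by_cases hy0 : y = 0
    · obtain ⟨h5, h6, h7⟩ := hindep _ _ _ hy0
      apply hw0
      ext i
      fin_cases i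
      · exact h5
      · exact h6
      · exact h7
    · obtain ⟨z, hz, hyz⟩ := hK.inv y hyK hy0
      apply hv
      have : z * y = 1 := by rw [hK.comm z hz y hyK]; exact hyz
      calc v = (z * y) *ᵥ v := by rw [this, Matrix.one_mulVec]
        _ = z *ᵥ (y *ᵥ v) := by rw [Matrix.mulVec_mulVec]
        _ = 0 := by rw [hyv, Matrix.mulVec_zero]
  let P : GL (Fin 3) F := Matrix.GeneralLinearGroup.mkOfDetNeZero Pm hdet
  have hPm : (P : Matrix (Fin 3) (Fin 3) F) = Pm := rfl
  have hxP : x * Pm = Pm * CC F := by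
    ext i j
    have hcol : ∀ (u : Fin 3 → F) (j : Fin 3), (∀ i, Pm i j = u i) → ∀ i, (x * Pm) i j = (x *ᵥ u) i := by
      intro u j h i
      rw [Matrix.mul_apply]
      change _ = x i ⬝ᵥ u
      rw [dotProduct]
      exact Finset.sum_congr rfl fun k _ => by rw [h]
    fin_cases j
    · change (x * Pm) i 0 = (Pm * CC F) i 0
      rw [hcol v 0 hP0 i, ← hP1 i, Matrix.mul_apply, Fin.sum_univ_three]
      simp [CC]
    · change (x * Pm) i 1 = (Pm * CC F) i 1
      rw [hcol _ 1 hP1 i, ← hP2 i, Matrix.mul_apply, Fin.sum_univ_three]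
      simp [CC]
    · change (x * Pm) i 2 = (Pm * CC F) i 2
      rw [hcol _ 2 hP2 i, Matrix.mulVec_mulVec, Matrix.mulVec_mulVec, hx3, Matrix.add_mulVec,
        Matrix.one_mulVec, Pi.add_apply, ← hP1 i, ← hP0 i, Matrix.mul_apply, Fin.sum_univ_three]
      simp [CC, add_comm]
  refine ⟨F₀, P, ?_, ?_, ?_⟩
  · intro htop
    have h5 : Nat.card F₀ = Nat.card F := by
      rw [htop]
      exact Nat.card_congr (Equiv.Set.univ F)
    rw [hcard, Nat.card_eq_fintype_card, hq] at h5
    omega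
  · rw [hcard, hq]; norm_num
  · rintro g ⟨hgN, hgS⟩
    set gm := (g : Matrix (Fin 3) (Fin 3) F) with hgm
    have hdetg : gm.det = 1 := by
      have h3 := hgS
      change Matrix.GeneralLinearGroup.det g = 1 at h3
      exact congrArg Units.val h3
    -- the conjugate of the root
    set y := gm * x * ((g⁻¹ : GL (Fin 3) F) : Matrix (Fin 3) (Fin 3) F) with hy
    have hyK : y ∈ K := (hgN x).1 hxK
    have hgi : ((g⁻¹ : GL (Fin 3) F) : Matrix (Fin 3) (Fin 3) F) * gm = 1 := by
      rw [hgm, ← Units.val_mul, inv_mul_cancel, Units.val_one]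
    have hig : gm * ((g⁻¹ : GL (Fin 3) F) : Matrix (Fin 3) (Fin 3) F) = 1 := by
      rw [hgm, ← Units.val_mul, mul_inv_cancel, Units.val_one]
    have hyg : y * gm = gm * x := by
      rw [hy, mul_assoc, hgi, mul_one]
    have hy3 : y * y * y = y + 1 := by
      have e1 : y * y * y = gm * (x * x * x) * ((g⁻¹ : GL (Fin 3) F) : Matrix (Fin 3) (Fin 3) F) := by
        rw [hy]
        calc gm * x * (g⁻¹ : GL (Fin 3) F).1 * (gm * x * (g⁻¹ : GL (Fin 3) F).1) * (gm * x * (g⁻¹ : GL (Fin 3) F).1)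
            = gm * x * ((g⁻¹ : GL (Fin 3) F).1 * gm) * x * ((g⁻¹ : GL (Fin 3) F).1 * gm) * x * (g⁻¹ : GL (Fin 3) F).1 := by
              simp only [mul_assoc]
          _ = _ := by rw [hgi, mul_one, mul_one]; simp only [mul_assoc]
      rw [e1, hx3, mul_add, add_mul, mul_one, hig]
    have hyP : ∃ C' : Matrix (Fin 3) (Fin 3) F, (C' = CC F ∨ C' = CC F * CC F ∨ C' = CC F * CC F + CC F) ∧ y * Pm = Pm * C' := by
      have hxxP : x * x * Pm = Pm * (CC F * CC F) := by
        rw [mul_assoc, hxP, ← mul_assoc, hxP, mul_assoc]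
      rcases roots hq hK hxK hyK hx3 hy3 with h | h | h
      · exact ⟨_, Or.inl rfl, by rw [h, hxP]⟩
      · exact ⟨_, Or.inr (Or.inl rfl), by rw [h, hxxP]⟩
      · exact ⟨_, Or.inr (Or.inr rfl), by rw [h, add_mul, hxxP, hxP, mul_add]⟩
    obtain ⟨C', hC', hyP⟩ := hyP
    set Pi := ((P⁻¹ : GL (Fin 3) F) : Matrix (Fin 3) (Fin 3) F) with hPi
    have hPiP : Pi * Pm = 1 := by rw [hPi, ← hPm, ← Units.val_mul, inv_mul_cancel, Units.val_one]
    have hPPi : Pm * Pi = 1 := by rw [hPi, ← hPm, ← Units.val_mul, mul_inv_cancel, Units.val_one]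
    set G : Matrix (Fin 3) (Fin 3) F := Pi * gm * Pm with hG
    have hGC : G * CC F = C' * G := by
      calc G * CC F = Pi * gm * (Pm * CC F) := by rw [hG]; simp only [mul_assoc]
        _ = Pi * (gm * x) * Pm := by rw [← hxP]; simp only [mul_assoc]
        _ = Pi * (y * (Pm * Pi)) * gm * Pm := by rw [← hyg, hPPi, mul_one]; simp only [mul_assoc]
        _ = Pi * (y * Pm) * (Pi * gm * Pm) := by simp only [mul_assoc]
        _ = C' * G := by rw [hyP, ← mul_assoc Pi, hPiP, one_mul]
    have hGdet : G.det = 1 := by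
      rw [hG, Matrix.det_mul, Matrix.det_mul, hdetg, mul_one, ← Matrix.det_mul, hPiP, Matrix.det_one]
    obtain ⟨l, hl⟩ := entries hq (G 0 0) (G 1 0) (G 2 0) G (normal_form hq hC' hGC) hGdet
    have hl0 : l ≠ 0 := by
      intro h0
      have hG0 : G = 0 := by
        ext i j
        rcases hl i j with h | h
        · exact h
        · rw [h, h0]; rfl
      rw [hG0, Matrix.det_zero] at hGdet
      exact zero_ne_one hGdet
    -- the rational matrix
    let N : Matrix (Fin 3) (Fin 3) F₀ := fun i j => if G i j = 0 then 0 else 1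
    have hGN : G = l • N.map F₀.subtype := by
      ext i j
      rw [Matrix.smul_apply, Matrix.map_apply, smul_eq_mul]
      change _ = l * F₀.subtype (if G i j = 0 then 0 else 1)
      by_cases h : G i j = 0
      · rw [if_pos h, map_zero, mul_zero, h]
      · rw [if_neg h, map_one, mul_one]
        exact (hl i j).resolve_left h
    have hNdet : N.det ≠ 0 := by
      intro h0
      have h5 : (N.map F₀.subtype).det = 0 := by
        have := (RingHom.map_det F₀.subtype N).symm
        rw [RingHom.mapMatrix_apply] at this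
        rw [this, h0, map_zero]
      rw [hGN, Matrix.det_smul, h5, mul_zero] at hGdet
      exact zero_ne_one hGdet
    let N' : GL (Fin 3) F₀ := Matrix.GeneralLinearGroup.mkOfDetNeZero N hNdet
    refine ⟨P⁻¹ * g * P, ?_, ?_⟩
    · have hfac : P⁻¹ * g * P = Matrix.GeneralLinearGroup.map (F₀.subtype : F₀ →+* F) N' *
          Units.map (Matrix.scalar (Fin 3) : F →+* Matrix (Fin 3) (Fin 3) F).toMonoidHom (Units.mk0 l hl0) := by
        apply Units.ext
        rw [Units.val_mul, Units.val_mul, Units.val_mul]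
        change G = N.map F₀.subtype * Matrix.scalar (Fin 3) l
        rw [hGN, Matrix.scalar_apply, ← Matrix.smul_one_eq_diagonal, Matrix.mul_smul, mul_one]
      rw [hfac]
      exact Subgroup.mul_mem_sup ⟨N', rfl⟩ ⟨Units.mk0 l hl0, rfl⟩
    · change P * (P⁻¹ * g * P) * P⁻¹ = g
      group

end four

end H61.AschE8
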