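import Mathlib
import Cfsg.Agent.Lib.H97.AschSL2
import Cfsg.Agent.Lib.H97.AschSL3
import Cfsg.Agent.Lib.H97.AschCases
import Cfsg.Agent.Lib.H95.OBridge

set_option autoImplicit false
set_option linter.unusedSectionVars false

/-!
Root elements of orthogonal groups and the geometric classes: `Ω(Q)` is contained in no member.
-/

namespace H61.AschNCO

open Module Cfsg Cfsg.Geo Matrix QuadraticMap H48.QuadSplit H95.OGeo H95.OSie H95.Bridge H95.OBridge H17.OrthAbs
open scoped commutatorElement

variable {ι : Type} [Fintype ι] [DecidableEq ι] {F : Type*} [Field F] {Q : QuadraticForm F (ι → F)}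

/-- `g` is the root element attached to the singular pair `u, y`. -/
structure IsRt (Q : QuadraticForm F (ι → F)) (g : GL ι F) (u y : ι → F) : Prop where
  hu : Q u = 0
  hy : Q y = 0
  huy : polar Q u y = 0
  val : ∀ x, (g : Matrix ι ι F) *ᵥ x = x + polar Q x u • y - polar Q x y • u

lemma exists_rt (Q : QuadraticForm F (ι → F)) {u y : ι → F} (hu : Q u = 0) (hy : Q y = 0) (huy : polar Q u y = 0) :
    ∃ g : GL ι F, IsRt Q g u y ∧ toEq ι F g = sie Q u y := by
  refine ⟨(toEq ι F).symm (sie Q u y), ⟨hu, hy, huy, fun x => ?_⟩, MulEquiv.apply_symm_apply _ _⟩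
  rw [toEq_symm_mulVec, sie_apply hu huy, hy, zero_mul, zero_smul, sub_zero]

lemma IsRt.toEq_eq {g : GL ι F} {u y : ι → F} (h : IsRt Q g u y) : toEq ι F g = sie Q u y := by
  ext1 x
  rw [toEq_apply, h.val, sie_apply h.hu h.huy, h.hy, zero_mul, zero_smul, sub_zero]

section mem

variable [Finite F]

/-- root elements are commutators of isometries -/
theorem sie_root_mem (hQ : ND Q) (hn : 5 ≤ Fintype.card ι) {u y : ι → F} (hu : Q u = 0) (hy : Q y = 0)
    (huy : polar Q u y = 0) : sie Q u y ∈ ⁅O Q, O Q⁆ := by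
  have hfr0 : finrank F (ι → F) = Fintype.card ι := Module.finrank_fintype_fun_eq_card F
  by_cases hli : LinearIndependent F ![u, y]
  · have hfr : finrank F (Submodule.span F (Set.range ![u, y])) ≤ 2 := by
      have := finrank_range_le_card (R := F) ![u, y]
      rw [Fintype.card_fin] at this
      exact this
    have hdo := finrank_orth hQ (Submodule.span F (Set.range ![u, y]))
    obtain ⟨b, hbo, hbT⟩ : ∃ b ∈ orth Q (Submodule.span F (Set.range ![u, y])),
        b ∉ Submodule.span F (Set.range ![u, y]) := by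
      apply SetLike.not_le_iff_exists.1
      intro hle
      have := Submodule.finrank_mono hle
      omega
    have e1 : polar Q b u = 0 := by
      rw [p_comm]; exact mem_orth.1 hbo u (Submodule.subset_span ⟨0, rfl⟩)
    have e2 : polar Q b y = 0 := by
      rw [p_comm]; exact mem_orth.1 hbo y (Submodule.subset_span ⟨1, rfl⟩)
    have l3 : LinearIndependent F ![b, u, y] := linearIndependent_finCons.2 ⟨hli, hbT⟩
    obtain ⟨z, hz'⟩ := dual hQ l3 ![-1, 0, 0]
    have e3 : polar Q z b = -1 := hz' 0
    have e4 : polar Q z u = 0 := hz' 1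
    have e5 : polar Q z y = 0 := hz' 2
    have e6 : polar Q u z = 0 := by rw [p_comm, e4]
    have e7 : polar Q y b = 0 := by rw [p_comm, e2]
    have hfix : sie Q y b u = u := by
      rw [sie_apply hy e7, huy, p_comm Q u b, e1]; simp
    have hmv : sie Q y b z = z + y := by
      rw [sie_apply hy e7, e5, e3]; simp
    have h1 : ⁅sie Q y b, sie Q u z⁆ = sie Q u y := by
      rw [commutatorElement_def, sie_conj hu e6 (sie_mem_O _ _ _), hfix, hmv, sie_inv hu e6,
        sie_mul hu (by rw [p_add', e6, huy, add_zero]) (by rw [p_neg', e6, neg_zero])]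
      congr 1; abel
    rw [← h1]
    exact Subgroup.commutator_mem_commutator (sie_mem_O _ _ _) (sie_mem_O _ _ _)
  · by_cases hu0 : u = 0
    · subst hu0
      have : sie Q 0 y = 1 := by
        ext x
        rw [sie_apply (map_zero Q) (p_zero _ _), p_zero']
        simp
      rw [this]; exact Subgroup.one_mem _
    · have hw : ∃ c : F, y = c • u := by
        by_contra hcon
        push Not at hcon
        exact hli (H95.UBasic.pair_indep hu0 hcon)
      obtain ⟨c, rfl⟩ := hw
      have h1 := sie_add_u hu (p_zero' Q u) c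
      rw [zero_add, sie_zero hu] at h1
      rw [h1]; exact Subgroup.one_mem _

theorem IsRt.mem (hQ : ND Q) (hn : 5 ≤ Fintype.card ι) {g : GL ι F} {u y : ι → F} (h : IsRt Q g u y) :
    g ∈ omegaGL (⇑Q) := by
  rw [mem_omegaGL, h.toEq_eq]
  exact sie_root_mem hQ hn h.hu h.hy h.huy

/-- a subspace invariant under all root elements is trivial -/
theorem root_irr (hQ : ND Q) (hn : 7 ≤ Fintype.card ι) {W : Submodule F (ι → F)} (h0 : W ≠ ⊥)
    (hW : ∀ u y, Q u = 0 → Q y = 0 → polar Q u y = 0 → ∀ w ∈ W, polar Q w u • y - polar Q w y • u ∈ W) : W = ⊤ := by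
  have hfr0 : finrank F (ι → F) = Fintype.card ι := Module.finrank_fintype_fun_eq_card F
  have hn' : 7 ≤ finrank F (ι → F) := by rw [hfr0]; exact hn
  obtain ⟨w, hw, hw0⟩ := Submodule.exists_mem_ne_zero_of_ne_bot h0
  -- a singular vector in W
  obtain ⟨y0, hy0W, hy00, hy0Q⟩ : ∃ y ∈ W, y ≠ 0 ∧ Q y = 0 := by
    obtain ⟨u, hu, hwu, -⟩ := conn hQ hn' hw0 hw0 0
    have hfr : finrank F (Submodule.span F (Set.range ![u, w])) ≤ 2 := by
      have := finrank_range_le_card (R := F) ![u, w]
      rw [Fintype.card_fin] at this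
      exact this
    have hdo := finrank_orth hQ (Submodule.span F (Set.range ![u, w]))
    obtain ⟨y, hyo, hy0, hyQ⟩ := exists_sing Q (U := orth Q (Submodule.span F (Set.range ![u, w]))) (by omega)
    have e1 : polar Q u y = 0 := mem_orth.1 hyo u (Submodule.subset_span ⟨0, rfl⟩)
    have e2 : polar Q w y = 0 := mem_orth.1 hyo w (Submodule.subset_span ⟨1, rfl⟩)
    have h1 := hW u y hu hyQ e1 w hw
    rw [e2, zero_smul, sub_zero] at h1
    have hne : polar Q w u ≠ 0 := by rw [p_comm]; exact hwu
    have h2 := W.smul_mem (polar Q w u)⁻¹ h1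
    rw [smul_smul, inv_mul_cancel₀ hne, one_smul] at h2
    exact ⟨y, h2, hy0, hyQ⟩
  -- the orthogonal of a singular vector of W
  have key : ∀ y ∈ W, y ≠ 0 → Q y = 0 → ∀ z, polar Q z y = 0 → z ∈ W := by
    intro y hy hyne hyQ z hz
    refine span_val hQ hn' y W 0 ?_ hz
    intro z hzQ hzy
    by_cases hc : ∃ c : F, z = c • y
    · obtain ⟨c, rfl⟩ := hc
      exact W.smul_mem c hy
    · push Not at hc
      have hli : LinearIndependent F ![y, z] := H95.UBasic.pair_indep hyne hc
      obtain ⟨u, hu, hu'⟩ := dual_val hQ (k := 2) (by omega) hli ![1, 0] 0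
      have e1 : polar Q u y = 1 := hu' 0
      have e2 : polar Q u z = 0 := hu' 1
      have h1 := hW u z hu hzQ e2 y hy
      rw [p_comm Q y u, e1, p_comm Q y z, hzy, zero_smul, one_smul, sub_zero] at h1
      exact h1
  rw [eq_top_iff]
  intro z _
  have hfr : finrank F (Submodule.span F (Set.range ![y0, z])) ≤ 2 := by
    have := finrank_range_le_card (R := F) ![y0, z]
    rw [Fintype.card_fin] at this
    exact this
  have hdo := finrank_orth hQ (Submodule.span F (Set.range ![y0, z]))
  obtain ⟨y1, hyo, hy10, hyQ⟩ := exists_sing Q (U := orth Q (Submodule.span F (Set.range ![y0, z]))) (by omega)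
  have e1 : polar Q y0 y1 = 0 := mem_orth.1 hyo y0 (Submodule.subset_span ⟨0, rfl⟩)
  have e2 : polar Q z y1 = 0 := mem_orth.1 hyo z (Submodule.subset_span ⟨1, rfl⟩)
  have h1 := key y0 hy0W hy00 hy0Q y1 (by rw [p_comm]; exact e1)
  exact key y1 h1 hy10 hyQ z e2

end mem

/-- an independent singular orthogonal pair -/
lemma exists_pair [Finite F] (hQ : ND Q) (hn : 7 ≤ Fintype.card ι) :
    ∃ u y : ι → F, Q u = 0 ∧ Q y = 0 ∧ polar Q u y = 0 ∧ LinearIndependent F ![u, y] := by
  have hfr0 : finrank F (ι → F) = Fintype.card ι := Module.finrank_fintype_fun_eq_card F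
  have hn' : 7 ≤ finrank F (ι → F) := by rw [hfr0]; exact hn
  obtain ⟨u, -, hu0, hu⟩ := exists_sing Q (U := ⊤) (by rw [finrank_top]; omega)
  obtain ⟨y, hy, hyu, hyT⟩ := perp_val hQ (k := 1) (by omega) ![u] (T := Submodule.span F {u})
    (by have := finrank_span_le_card (R := F) ({u} : Set (ι → F)); simp at this; omega) 0
  refine ⟨u, y, hu, hy, by rw [p_comm]; exact hyu 0, H95.UBasic.pair_indep hu0 fun c hc => hyT ?_⟩
  rw [hc]
  exact Submodule.smul_mem _ _ (Submodule.mem_span_singleton_self u)

/-- another partner -/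
lemma exists_third [Finite F] (hQ : ND Q) (hn : 7 ≤ Fintype.card ι) (u y : ι → F) :
    ∃ z, Q z = 0 ∧ polar Q u z = 0 ∧ z ∉ Submodule.span F (Set.range ![u, y]) := by
  have hfr0 : finrank F (ι → F) = Fintype.card ι := Module.finrank_fintype_fun_eq_card F
  have hn' : 7 ≤ finrank F (ι → F) := by rw [hfr0]; exact hn
  have hfr : finrank F (Submodule.span F (Set.range ![u, y])) ≤ 2 := by
    have := finrank_range_le_card (R := F) ![u, y]
    rw [Fintype.card_fin] at this
    exact this
  obtain ⟨z, hz, hzu, hzT⟩ := perp_val hQ (k := 1) (by omega) ![u] (T := Submodule.span F (Set.range ![u, y])) (by omega) 0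
  exact ⟨z, hz, by rw [p_comm]; exact hzu 0, hzT⟩

/-! ### properties of a root element -/

section props

variable {g : GL ι F} {u y : ι → F}

lemma IsRt.fix (h : IsRt Q g u y) {x : ι → F} (h1 : polar Q x u = 0) (h2 : polar Q x y = 0) :
    (g : Matrix ι ι F) *ᵥ x = x := by
  rw [h.val, h1, h2, zero_smul, zero_smul, add_zero, sub_zero]

lemma IsRt.sq (h : IsRt Q g u y) (x : ι → F) :
    (g : Matrix ι ι F) *ᵥ ((g : Matrix ι ι F) *ᵥ x) = x + (2 : F) • ((g : Matrix ι ι F) *ᵥ x - x) := by
  have e1 : polar Q u u = 0 := by rw [p_self, h.hu, mul_zero]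
  have e2 : polar Q y y = 0 := by rw [p_self, h.hy, mul_zero]
  have e3 : polar Q y u = 0 := by rw [p_comm, h.huy]
  rw [h.val x, h.val]
  simp only [p_add, p_sub, p_smul, e1, e2, e3, h.huy]
  module

lemma IsRt.pow (h : IsRt Q g u y) (n : ℕ) (x : ι → F) :
    ((g ^ n : GL ι F) : Matrix ι ι F) *ᵥ x = x + (n : F) • (polar Q x u • y - polar Q x y • u) := by
  induction n with
  | zero => simp
  | succ n ih =>
    have e1 : polar Q u u = 0 := by rw [p_self, h.hu, mul_zero]
    have e2 : polar Q y y = 0 := by rw [p_self, h.hy, mul_zero]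
    have e3 : polar Q y u = 0 := by rw [p_comm, h.huy]
    rw [pow_succ', Units.val_mul, ← Matrix.mulVec_mulVec, ih, h.val]
    simp only [p_add, p_sub, p_smul, e1, e2, e3, h.huy, Nat.cast_succ]
    module

lemma IsRt.pow_char (h : IsRt Q g u y) {p : ℕ} [CharP F p] : g ^ p = 1 := by
  ext1
  apply H97.AschForm.matrix_ext_vec
  intro v
  rw [h.pow, CharP.cast_eq_zero, zero_smul, add_zero, Units.val_one, Matrix.one_mulVec]

/-- the image of every vector not orthogonal to `u` or not to `y` moves -/
lemma IsRt.moves (h : IsRt Q g u y) (hli : LinearIndependent F ![u, y]) {x : ι → F}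
    (hx : (g : Matrix ι ι F) *ᵥ x = x) : polar Q x u = 0 ∧ polar Q x y = 0 := by
  rw [h.val] at hx
  have h1 : (-polar Q x y) • u + polar Q x u • y = 0 := by
    have : x + polar Q x u • y - polar Q x y • u - x = 0 := sub_eq_zero.2 hx
    rw [← this]; module
  have h2 := LinearIndependent.pair_iff.1 hli _ _ h1
  exact ⟨h2.2, by rw [← neg_eq_zero]; exact h2.1⟩

end props

end H61.AschNCO
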