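import Mathlib
import Cfsg.Agent.Lib.H61.AschNCO

set_option autoImplicit false
set_option linter.unusedSectionVars false

/-!
`Ω(Q)` is contained in no member of the geometric classes.
-/

namespace H61.AschNCO

open Module Cfsg Cfsg.Geo Matrix QuadraticMap H48.QuadSplit H95.OGeo H95.OSie H95.Bridge H95.OBridge H17.OrthAbs
open H97.AschTensor H97.AschWreath H97.AschWreathNorm H97.AschSL H97.AschUnits
open scoped commutatorElement Kronecker

variable {ι : Type} [Fintype ι] [DecidableEq ι] {F : Type*} [Field F] [Fintype F] {Q : QuadraticForm F (ι → F)}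

theorem not_le_subspace (hQ : ND Q) (hn : 7 ≤ Fintype.card ι) {W : Submodule F (ι → F)} (h0 : W ≠ ⊥) (h1 : W ≠ ⊤) :
    ¬ omegaGL (⇑Q) ≤ subspaceStabilizer W := by
  intro hle
  apply h1
  apply root_irr hQ hn h0
  intro u y hu hy huy w hw
  obtain ⟨g, hg, -⟩ := exists_rt Q hu hy huy
  have h2 : (g : Matrix ι ι F) *ᵥ w ∈ W := by
    have := (mem_subspaceStabilizer.1 (hle (hg.mem hQ (by omega))) w).1 hw
    rwa [toEq_apply] at this
  rw [hg.val] at h2
  have h3 := W.sub_mem h2 hw
  have e : w + polar Q w u • y - polar Q w y • u - w = polar Q w u • y - polar Q w y • u := by abel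
  rwa [e] at h3

theorem not_le_decomposition (hQ : ND Q) (hn : 7 ≤ Fintype.card ι) (h2 : (2 : F) ≠ 0) {t m : ℕ}
    {D : Fin t → Submodule F (ι → F)} (hD : IsMDecomposition m D) :
    ¬ omegaGL (⇑Q) ≤ decompositionStabilizer D := by
  intro hle
  have ht := hD.two_le
  have hm := hD.pos
  let i0 : Fin t := ⟨0, by omega⟩
  let i1 : Fin t := ⟨1, by omega⟩
  have h01 : i1 ≠ i0 := by
    intro h; have := congrArg Fin.val h; simp [i0, i1] at this
  have hne : ∀ i, D i ≠ ⊥ := by
    intro i h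
    have := hD.finrank_eq i
    rw [h, finrank_bot] at this
    omega
  have hnt : D i0 ≠ ⊤ := by
    intro h
    have h3 := hD.indep i0
    rw [h] at h3
    have h4 : D i1 ≤ ⨆ j ≠ i0, D j := le_iSup₂_of_le i1 h01 le_rfl
    have h5 := (disjoint_top.1 h3.symm)
    rw [h5] at h4
    exact hne i1 (le_bot_iff.1 h4)
  apply hnt
  apply root_irr hQ hn (hne i0)
  intro u y hu hy huy w hw
  obtain ⟨g, hg, -⟩ := exists_rt Q hu hy huy
  obtain ⟨σ, hσ⟩ := mem_decompositionStabilizer.1 (hle (hg.mem hQ (by omega)))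
  have hmap : ∀ i v, v ∈ D i → (g : Matrix ι ι F) *ᵥ v ∈ D (σ i) := by
    intro i v hv
    rw [← hσ i]
    exact ⟨v, hv, toEq_apply g v⟩
  have hfix : σ i0 = i0 := by
    by_contra hne0
    obtain ⟨v, hv, hv0⟩ := Submodule.exists_mem_ne_zero_of_ne_bot (hne i0)
    have ha := hmap i0 v hv
    have hb := hmap _ _ ha
    have hsq := hg.sq v
    set a := (g : Matrix ι ι F) *ᵥ v with hadef
    set b := (g : Matrix ι ι F) *ᵥ a with hbdef
    have hdisj := hD.indep i0
    have haS : a ∈ ⨆ j ≠ i0, D j := Submodule.mem_iSup_of_mem (σ i0) (Submodule.mem_iSup_of_mem hne0 ha)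
    have ha0 : a ≠ 0 := by
      intro h
      apply hv0
      have h5 : (((g⁻¹ : GL ι F) : Matrix ι ι F)) *ᵥ a = v := by
        rw [hadef, Matrix.mulVec_mulVec, ← Units.val_mul, inv_mul_cancel, Units.val_one, Matrix.one_mulVec]
      rw [← h5, h, Matrix.mulVec_zero]
    by_cases hb0 : σ (σ i0) = i0
    · rw [hb0] at hb
      apply ha0
      have h5 : (2 : F) • a ∈ D i0 := by
        have : (2 : F) • a = v + b := by rw [hsq]; module
        rw [this]
        exact (D i0).add_mem hv hb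
      have h6 : a ∈ D i0 := by
        have := (D i0).smul_mem (2 : F)⁻¹ h5
        rwa [smul_smul, inv_mul_cancel₀ h2, one_smul] at this
      exact (Submodule.disjoint_def.1 hdisj) a h6 haS
    · apply hv0
      have hbS : b ∈ ⨆ j ≠ i0, D j := Submodule.mem_iSup_of_mem (σ (σ i0)) (Submodule.mem_iSup_of_mem hb0 hb)
      have h5 : v ∈ ⨆ j ≠ i0, D j := by
        have : v = (2 : F) • a - b := by rw [hsq]; module
        rw [this]
        exact Submodule.sub_mem _ (Submodule.smul_mem _ _ haS) hbS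
      exact (Submodule.disjoint_def.1 hdisj) v hv h5
  have h3 := hmap i0 w hw
  rw [hfix, hg.val] at h3
  have h4 := (D i0).sub_mem h3 hw
  have e : w + polar Q w u • y - polar Q w y • u - w = polar Q w u • y - polar Q w y • u := by abel
  rwa [e] at h4

/-- common zeros of functionals -/
lemma exists_zero {V : Type*} [AddCommGroup V] [Module F V] [FiniteDimensional F V] {k : ℕ} (hk : k < finrank F V)
    (φ : Fin k → (V →ₗ[F] F)) : ∃ x, x ≠ 0 ∧ ∀ i, φ i x = 0 := by
  have h1 : LinearMap.ker (LinearMap.pi φ) ≠ ⊥ := by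
    apply LinearMap.ker_ne_bot_of_finrank_lt
    rw [Module.finrank_fintype_fun_eq_card, Fintype.card_fin]
    exact hk
  obtain ⟨w, hw, hw0⟩ := Submodule.exists_mem_ne_zero_of_ne_bot h1
  rw [LinearMap.mem_ker] at hw
  exact ⟨w, hw0, fun i => congrFun hw i⟩

/-- the functional `x ↦ polar Q x u` -/
noncomputable def fn (Q : QuadraticForm F (ι → F)) (u : ι → F) : (ι → F) →ₗ[F] F where
  toFun x := polar Q x u
  map_add' x y := p_add Q x y u
  map_smul' c x := p_smul Q c x u

theorem not_le_field (hQ : ND Q) (hn : 7 ≤ Fintype.card ι) {r : ℕ} (hr : r ≠ 1) {K : Subalgebra F (Matrix ι ι F)}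
    (hK : IsFieldSubalgebra r K) : ¬ omegaGL (⇑Q) ≤ subalgebraNormalizer K := by
  intro h
  have hne : Nonempty ι := Fintype.card_pos_iff.mp (by omega)
  have hfr0 : finrank F (ι → F) = Fintype.card ι := Module.finrank_fintype_fun_eq_card F
  have hcancel : ∀ X ∈ K, ∀ x : ι → F, x ≠ 0 → X *ᵥ x = 0 → X = 0 := by
    intro X hX x hx0 hXx
    by_contra hX0
    obtain ⟨z, hz, hz1⟩ := hK.inv X hX hX0
    rw [hK.comm _ hX _ hz] at hz1
    apply hx0
    calc x = (z * X) *ᵥ x := by rw [hz1, Matrix.one_mulVec]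
      _ = 0 := by rw [← Matrix.mulVec_mulVec, hXx, Matrix.mulVec_zero]
  -- root elements centralise K
  have hcomm : ∀ X ∈ K, ∀ (g : GL ι F) (u y : ι → F), IsRt Q g u y → (g : Matrix ι ι F) * X = X * g := by
    intro X hX g u y hg
    set Y := (g : Matrix ι ι F) * X * ((g⁻¹ : GL ι F) : Matrix ι ι F) with hY
    have hYK : Y ∈ K := (h (hg.mem hQ (by omega)) X).1 hX
    have hYg : Y * (g : Matrix ι ι F) = g * X := by
      rw [hY, mul_assoc, ← Units.val_mul, inv_mul_cancel, Units.val_one, mul_one]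
    obtain ⟨x, hx0, hx⟩ := exists_zero (F := F) (V := ι → F) (k := 4) (by omega)
      ![fn Q u, fn Q y, (fn Q u).comp (Matrix.toLin' X), (fn Q y).comp (Matrix.toLin' X)]
    have e1 : polar Q x u = 0 := hx 0
    have e2 : polar Q x y = 0 := hx 1
    have e3 : polar Q (X *ᵥ x) u = 0 := by
      have := hx 2
      change polar Q (Matrix.toLin' X x) u = 0 at this
      rwa [Matrix.toLin'_apply] at this
    have e4 : polar Q (X *ᵥ x) y = 0 := by
      have := hx 3
      change polar Q (Matrix.toLin' X x) y = 0 at this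
      rwa [Matrix.toLin'_apply] at this
    have h1 : (Y - X) *ᵥ x = 0 := by
      rw [Matrix.sub_mulVec]
      have h2 : Y *ᵥ x = X *ᵥ x := by
        calc Y *ᵥ x = Y *ᵥ ((g : Matrix ι ι F) *ᵥ x) := by rw [hg.fix e1 e2]
          _ = (Y * (g : Matrix ι ι F)) *ᵥ x := by rw [Matrix.mulVec_mulVec]
          _ = (g : Matrix ι ι F) *ᵥ (X *ᵥ x) := by rw [hYg, Matrix.mulVec_mulVec]
          _ = X *ᵥ x := hg.fix e3 e4
      rw [h2, sub_self]
    have h2 := hcancel _ (K.sub_mem hYK hX) x hx0 h1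
    rw [← hYg, sub_eq_zero.1 h2]
  obtain ⟨u, y, hu, hy, huy, hli⟩ := exists_pair hQ hn
  have hu0 : u ≠ 0 := hli.ne_zero 0
  obtain ⟨z, hz, huz, hzT⟩ := exists_third hQ hn u y
  have hliz : LinearIndependent F ![u, z] := by
    apply H95.UBasic.pair_indep hu0
    intro c hc
    apply hzT
    rw [hc]
    exact Submodule.smul_mem _ _ (Submodule.subset_span ⟨0, rfl⟩)
  -- X u in the span of u and each partner
  have hin : ∀ X ∈ K, ∀ y : ι → F, Q y = 0 → polar Q u y = 0 → LinearIndependent F ![u, y] →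
      ∃ a b : F, X *ᵥ u = a • u + b • y := by
    intro X hX y hy huy hli
    obtain ⟨g, hg, -⟩ := exists_rt Q hu hy huy
    obtain ⟨x, hx⟩ := dual hQ hli ![0, -1]
    have e1 : polar Q x u = 0 := hx 0
    have e2 : polar Q x y = -1 := hx 1
    have h1 : (g : Matrix ι ι F) *ᵥ x = x + u := by
      rw [hg.val, e1, e2]; module
    have h2 : (g : Matrix ι ι F) *ᵥ (X *ᵥ x) = X *ᵥ x + X *ᵥ u := by
      rw [Matrix.mulVec_mulVec, hcomm X hX g u y hg, ← Matrix.mulVec_mulVec, h1, Matrix.mulVec_add]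
    rw [hg.val] at h2
    refine ⟨-polar Q (X *ᵥ x) y, polar Q (X *ᵥ x) u, ?_⟩
    have h3 : X *ᵥ u = X *ᵥ x + polar Q (X *ᵥ x) u • y - polar Q (X *ᵥ x) y • u - X *ᵥ x := by
      rw [h2, add_sub_cancel_left]
    rw [h3]; module
  have key : ∀ X ∈ K, ∃ c : F, X = algebraMap F _ c := by
    intro X hX
    obtain ⟨a, b, h1⟩ := hin X hX y hy huy hli
    obtain ⟨a', b', h2⟩ := hin X hX z hz huz hliz
    have hb' : b' = 0 := by
      by_contra hb'
      apply hzT
      have h3 : z = (b'⁻¹ * (a - a')) • u + (b'⁻¹ * b) • y := by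
        have h4 : b' • z = (a - a') • u + b • y := by
          have : a • u + b • y = a' • u + b' • z := by rw [← h1, h2]
          calc b' • z = (a' • u + b' • z) - a' • u := by abel
            _ = _ := by rw [← this]; module
        calc z = b'⁻¹ • (b' • z) := by rw [smul_smul, inv_mul_cancel₀ hb', one_smul]
          _ = _ := by rw [h4, smul_add, smul_smul, smul_smul]
      rw [h3]
      exact Submodule.add_mem _ (Submodule.smul_mem _ _ (Submodule.subset_span ⟨0, rfl⟩))
        (Submodule.smul_mem _ _ (Submodule.subset_span ⟨1, rfl⟩))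
    rw [hb', zero_smul, add_zero] at h2
    refine ⟨a', ?_⟩
    have h5 : X - algebraMap F _ a' ∈ K := K.sub_mem hX (K.algebraMap_mem _)
    have h6 := hcancel _ h5 u hu0 (by
      rw [Matrix.sub_mulVec, h2, Algebra.algebraMap_eq_smul_one, Matrix.smul_mulVec, Matrix.one_mulVec, sub_self])
    exact sub_eq_zero.1 h6
  apply hr
  rw [← hK.finrank_eq, Subalgebra.finrank_eq_one_iff, eq_bot_iff]
  intro x hx
  obtain ⟨c, hc⟩ := key x hx
  rw [Algebra.mem_bot]
  exact ⟨c, hc.symm⟩

/-- elements of order `p` in a subfield group lie over the subfield -/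
theorem over_of_pow [Nonempty ι] {g : GL ι F} {p : ℕ} [hp : CharP F p] (hgp : g ^ p = 1) {F₀ : Subfield F} {P : GL ι F}
    (hg : g ∈ subfieldSubgroup F₀ P) (i j : ι) : ((P⁻¹ * g * P : GL ι F) : Matrix ι ι F) i j ∈ F₀ := by
  have hpp : p.Prime := by
    rcases CharP.char_is_prime_or_zero F p with h | h
    · exact h
    · exfalso
      subst h
      have := CharP.charP_to_charZero F
      exact not_injective_infinite_finite (fun n : ℕ => (n : F)) Nat.cast_injective
  have : Fact p.Prime := ⟨hpp⟩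
  obtain ⟨y, hy, hyP⟩ := hg
  have hy' : P * y * P⁻¹ = g := hyP
  have hy2 : P⁻¹ * g * P = y := by rw [← hy']; group
  rw [hy2]
  obtain ⟨Q', hQ', z, hz, hQz⟩ := Subgroup.mem_sup_of_normal_right.mp hy
  obtain ⟨Q, hQ⟩ := MonoidHom.mem_range.mp hQ'
  obtain ⟨l, hl⟩ := (mem_scalars_iff z).mp hz
  have hval : (Q' : Matrix ι ι F) = (Q : Matrix ι ι F₀).map (F₀.subtype : F₀ →+* F) := by rw [← hQ]; rfl
  have hQv : ∀ a b, (Q' : Matrix ι ι F) a b ∈ F₀ := by
    intro a b
    rw [hval]
    exact ((Q : Matrix ι ι F₀) a b).2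
  have hyp : y ^ p = 1 := by
    rw [← hy2]
    have : (P⁻¹ * g * P) ^ p = P⁻¹ * g ^ p * P := by
      have := conj_pow (i := p) (a := P⁻¹) (b := g)
      rwa [inv_inv] at this
    rw [this, hgp, mul_one, inv_mul_cancel]
  have hyv : (y : Matrix ι ι F) = (l : F) • (Q' : Matrix ι ι F) := by
    rw [← hQz, Units.val_mul, hl, Matrix.mul_smul, mul_one]
  have hQp : ∀ a b, ((Q' : Matrix ι ι F) ^ p) a b ∈ F₀ := by
    intro a b
    rw [hval]
    have : ((Q : Matrix ι ι F₀).map (F₀.subtype : F₀ →+* F)) ^ p = ((Q : Matrix ι ι F₀) ^ p).map (F₀.subtype : F₀ →+* F) := by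
      exact (map_pow (F₀.subtype : F₀ →+* F).mapMatrix (Q : Matrix ι ι F₀) p).symm
    rw [this]
    exact (((Q : Matrix ι ι F₀) ^ p) a b).2
  have hlp : (l : F) ^ p ∈ F₀ := by
    obtain ⟨i0⟩ := ‹Nonempty ι›
    have h1 : ((y ^ p : GL ι F) : Matrix ι ι F) i0 i0 = 1 := by rw [hyp, Units.val_one, Matrix.one_apply_eq]
    rw [Units.val_pow_eq_pow_val, hyv, smul_pow, Matrix.smul_apply, smul_eq_mul] at h1
    have h2 : (l : F) ^ p = (((Q' : Matrix ι ι F) ^ p) i0 i0)⁻¹ := eq_inv_of_mul_eq_one_left h1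
    rw [h2]
    exact F₀.inv_mem (hQp _ _)
  have hlF : (l : F) ∈ F₀ := by
    have hinj : Function.Injective (fun x : F₀ => x ^ p) := by
      intro x y hxy
      exact frobenius_inj F₀ p hxy
    have hsurj := Finite.surjective_of_injective hinj
    obtain ⟨m, hm⟩ := hsurj ⟨(l : F) ^ p, hlp⟩
    have h3 : (m : F) ^ p = (l : F) ^ p := congrArg Subtype.val hm
    have h4 : (m : F) = l := frobenius_inj F p h3
    rw [← h4]; exact m.2
  rw [hyv, Matrix.smul_apply, smul_eq_mul]
  exact F₀.mul_mem hlF (hQv i j)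

theorem not_le_subfield (hQ : ND Q) (hn : 7 ≤ Fintype.card ι) {F₀ : Subfield F} (h0 : F₀ ≠ ⊤) (P : GL ι F) :
    ¬ omegaGL (⇑Q) ≤ subfieldSubgroup F₀ P := by
  intro hle
  have hne : Nonempty ι := Fintype.card_pos_iff.mp (by omega)
  obtain ⟨p, hp⟩ := CharP.exists F
  obtain ⟨u, y, hu, hy, huy, hli⟩ := exists_pair hQ hn
  -- the nilpotent part
  let N : (ι → F) → (ι → F) := fun x => polar Q x u • y - polar Q x y • u
  have hNadd : ∀ a b, N (a + b) = N a + N b := by
    intro a b
    change polar Q (a + b) u • y - polar Q (a + b) y • u = _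
    rw [p_add, p_add]
    change _ = (polar Q a u • y - polar Q a y • u) + (polar Q b u • y - polar Q b y • u)
    module
  have hNsmul : ∀ (c : F) a, N (c • a) = c • N a := by
    intro c a
    change polar Q (c • a) u • y - polar Q (c • a) y • u = c • (polar Q a u • y - polar Q a y • u)
    rw [p_smul, p_smul]
    module
  let Nl : (ι → F) →ₗ[F] (ι → F) := { toFun := N, map_add' := hNadd, map_smul' := hNsmul }
  -- a nonzero column
  obtain ⟨j, hj⟩ : ∃ j, N ((P : Matrix ι ι F) *ᵥ Pi.single j 1) ≠ 0 := by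
    by_contra hcon
    push Not at hcon
    obtain ⟨x, hx⟩ := dual hQ hli ![1, 0]
    have e1 : polar Q x u = 1 := hx 0
    have e2 : polar Q x y = 0 := hx 1
    have hNx : N x = y := by
      change polar Q x u • y - polar Q x y • u = y
      rw [e1, e2]; module
    have h2 : x = (P : Matrix ι ι F) *ᵥ (((P⁻¹ : GL ι F) : Matrix ι ι F) *ᵥ x) := by
      rw [Matrix.mulVec_mulVec, ← Units.val_mul, mul_inv_cancel, Units.val_one, Matrix.one_mulVec]
    have h3 : Nl.comp (Matrix.toLin' (P : Matrix ι ι F)) = 0 := by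
      apply (Pi.basisFun F ι).ext
      intro j
      rw [Pi.basisFun_apply, LinearMap.comp_apply, Matrix.toLin'_apply, LinearMap.zero_apply]
      exact hcon j
    have h4 : N x = 0 := by
      rw [h2]
      have := congrArg (fun f => f (((P⁻¹ : GL ι F) : Matrix ι ι F) *ᵥ x)) h3
      simp only [LinearMap.comp_apply, Matrix.toLin'_apply, LinearMap.zero_apply] at this
      exact this
    rw [hNx] at h4
    exact hli.ne_zero 1 h4
  set w := N ((P : Matrix ι ι F) *ᵥ Pi.single j 1) with hw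
  have hPw : ((P⁻¹ : GL ι F) : Matrix ι ι F) *ᵥ w ≠ 0 := by
    intro h0
    apply hj
    have h2 := congrArg (fun w => (P : Matrix ι ι F) *ᵥ w) h0
    simpa [Matrix.mulVec_mulVec, ← Units.val_mul] using h2
  obtain ⟨i, hi⟩ := Function.ne_iff.mp hPw
  set c := (((P⁻¹ : GL ι F) : Matrix ι ι F) *ᵥ w) i with hc
  have hc0 : c ≠ 0 := hi
  have hent : ∀ a : F, a * c ∈ F₀ := by
    intro a
    obtain ⟨g, hg, -⟩ := exists_rt Q hu (y := a • y) (by rw [Q_smul, hy, mul_zero]) (by rw [p_smul', huy, mul_zero])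
    have h2 := over_of_pow hg.pow_char (hle (hg.mem hQ (by omega))) i j
    have h3 : ((P⁻¹ * g * P : GL ι F) : Matrix ι ι F) i j = (Pi.single j (1 : F) : ι → F) i + a * c := by
      have h4 : ((P⁻¹ * g * P : GL ι F) : Matrix ι ι F) *ᵥ Pi.single j 1 = Pi.single j 1 + a • (((P⁻¹ : GL ι F) : Matrix ι ι F) *ᵥ w) := by
        rw [Units.val_mul, Units.val_mul, ← Matrix.mulVec_mulVec, ← Matrix.mulVec_mulVec, hg.val]
        have h5 : (P : Matrix ι ι F) *ᵥ Pi.single j 1 + polar Q ((P : Matrix ι ι F) *ᵥ Pi.single j 1) u • a • y -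
            polar Q ((P : Matrix ι ι F) *ᵥ Pi.single j 1) (a • y) • u = (P : Matrix ι ι F) *ᵥ Pi.single j 1 + a • w := by
          rw [p_smul', hw]
          change _ = _ + a • (polar Q ((P : Matrix ι ι F) *ᵥ Pi.single j 1) u • y - polar Q ((P : Matrix ι ι F) *ᵥ Pi.single j 1) y • u)
          module
        rw [h5, Matrix.mulVec_add, Matrix.mulVec_smul, Matrix.mulVec_mulVec, ← Units.val_mul, inv_mul_cancel,
          Units.val_one, Matrix.one_mulVec]
      rw [Matrix.mulVec_single_one] at h4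
      have h5 := congrFun h4 i
      exact h5
    rw [h3] at h2
    have h4 : (Pi.single j (1 : F) : ι → F) i ∈ F₀ := by
      by_cases hij : i = j
      · rw [hij, Pi.single_eq_same]; exact F₀.one_mem
      · rw [Pi.single_eq_of_ne hij]; exact F₀.zero_mem
    have h5 := F₀.sub_mem h2 h4
    rwa [add_sub_cancel_left] at h5
  have hcF : c ∈ F₀ := by
    have := hent 1
    rwa [one_mul] at this
  apply h0
  rw [eq_top_iff]
  intro a _
  have h2 := F₀.mul_mem (hent a) (F₀.inv_mem hcF)
  rwa [mul_assoc, mul_inv_cancel₀ hc0, mul_one] at h2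

end H61.AschNCO
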