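import Mathlib
import Cfsg.Agent.Lib.H61.AschNCO2

set_option autoImplicit false
set_option linter.unusedSectionVars false

/-!
`Ω(Q)` is contained in no tensor product group and in no tensor wreath group with two factors.
-/

namespace H61.AschNCO

open Module Cfsg Cfsg.Geo Matrix QuadraticMap H48.QuadSplit H95.OGeo H95.OSie H95.Bridge H95.OBridge H17.OrthAbs
open H97.AschTensor H97.AschWreath H97.AschWreathNorm H97.AschSL H97.AschUnits H97.AschTwo
open scoped commutatorElement Kronecker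

variable {ι : Type} [Fintype ι] [DecidableEq ι] {F : Type*} [Field F] [Fintype F] {Q : QuadraticForm F (ι → F)}

/-- the decomposable vector -/
def tv {n₁ n₂ : ℕ} (v : Fin n₁ → F) (w : Fin n₂ → F) : Fin n₁ × Fin n₂ → F := fun p => v p.1 * w p.2

lemma kron_tv {n₁ n₂ : ℕ} (a : Matrix (Fin n₁) (Fin n₁) F) (b : Matrix (Fin n₂) (Fin n₂) F) (v : Fin n₁ → F)
    (w : Fin n₂ → F) : (a ⊗ₖ b) *ᵥ (tv v w) = tv (a *ᵥ v) (b *ᵥ w) := by
  ext ⟨i, j⟩
  simp only [Matrix.mulVec, dotProduct, tv, Matrix.kroneckerMap_apply, Fintype.sum_prod_type]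
  rw [Finset.sum_mul_sum]
  exact Finset.sum_congr rfl fun x _ => Finset.sum_congr rfl fun y _ => by ring

/-- the second factor as a linear map -/
noncomputable def tl {n₁ n₂ : ℕ} (e : ι ≃ Fin n₁ × Fin n₂) (P : GL ι F) (v : Fin n₁ → F) : (Fin n₂ → F) →ₗ[F] (ι → F) where
  toFun w := (P : Matrix ι ι F) *ᵥ ((tv v w) ∘ e)
  map_add' w w' := by
    rw [← Matrix.mulVec_add]
    congr 1
    ext i
    simp only [tv, Function.comp, Pi.add_apply]
    ring
  map_smul' c w := by
    rw [RingHom.id_apply, ← Matrix.mulVec_smul]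
    congr 1
    ext i
    simp only [tv, Function.comp, Pi.smul_apply, smul_eq_mul]
    ring

theorem roots_not_tensor (hQ : ND Q) (hn : 7 ≤ Fintype.card ι) {n₁ n₂ : ℕ} (e : ι ≃ Fin n₁ × Fin n₂) (P : GL ι F)
    (h1 : 2 ≤ n₁) (h2 : 3 ≤ n₂)
    (h : ∀ (g : GL ι F) (u y : ι → F), IsRt Q g u y → g ∈ tensorProductSubgroup n₁ n₂ e P) : False := by
  let i0 : Fin n₁ := ⟨0, by omega⟩
  let i1 : Fin n₁ := ⟨1, by omega⟩
  have h01 : i1 ≠ i0 := by
    intro h; have := congrArg Fin.val h; simp [i0, i1] at this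
  let j0 : Fin n₂ := ⟨0, by omega⟩
  let v0 : Fin n₁ → F := Pi.single i0 1
  have hv0 : v0 i0 = 1 := Pi.single_eq_same _ _
  let W : Submodule F (ι → F) := LinearMap.range (tl e P v0)
  have hW : W = ⊤ := by
    apply root_irr hQ hn
    · intro hbot
      have hmem : tl e P v0 (Pi.single j0 1) ∈ W := ⟨_, rfl⟩
      rw [hbot, Submodule.mem_bot] at hmem
      have h3 : (P : Matrix ι ι F) *ᵥ ((tv v0 (Pi.single j0 1)) ∘ e) = (P : Matrix ι ι F) *ᵥ ((0 : Fin n₁ × Fin n₂ → F) ∘ e) := by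
        change tl e P v0 (Pi.single j0 1) = _
        rw [hmem]
        have : ((0 : Fin n₁ × Fin n₂ → F) ∘ e) = 0 := rfl
        rw [this, Matrix.mulVec_zero]
      have h4 := congrFun (P_injective e P h3) (i0, j0)
      simp [tv, v0] at h4
    · intro u y hu hy huy w hw
      obtain ⟨g, hg, -⟩ := exists_rt Q hu hy huy
      obtain ⟨a, b, hab⟩ := (mem_tensorProductSubgroup_iff e P g).mp (h g u y hg)
      have hact : ∀ v w, (g : Matrix ι ι F) *ᵥ ((P : Matrix ι ι F) *ᵥ ((tv v w) ∘ e)) =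
          (P : Matrix ι ι F) *ᵥ ((tv ((a : Matrix _ _ F) *ᵥ v) ((b : Matrix _ _ F) *ᵥ w)) ∘ e) := by
        intro v w
        rw [hab, cr_mulVec, kron_tv]
      -- a has v0 as eigenvector
      obtain ⟨c, hc⟩ : ∃ c : F, (a : Matrix _ _ F) *ᵥ v0 = c • v0 := by
        obtain ⟨x, hx0, hx⟩ := exists_zero (F := F) (V := Fin n₂ → F) (k := 2)
          (by rw [Module.finrank_fintype_fun_eq_card, Fintype.card_fin]; omega)
          ![(fn Q u).comp (tl e P v0), (fn Q y).comp (tl e P v0)]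
        have e1 : polar Q (tl e P v0 x) u = 0 := hx 0
        have e2 : polar Q (tl e P v0 x) y = 0 := hx 1
        have h3 := hg.fix e1 e2
        change (g : Matrix ι ι F) *ᵥ ((P : Matrix ι ι F) *ᵥ ((tv v0 x) ∘ e)) = (P : Matrix ι ι F) *ᵥ ((tv v0 x) ∘ e) at h3
        rw [hact] at h3
        have h4 := P_injective e P h3
        obtain ⟨j, hj⟩ := Function.ne_iff.mp hx0
        have hj' : x j ≠ 0 := hj
        have h5 := congrFun h4 (i0, j)
        simp only [tv, hv0, one_mul] at h5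
        have hbj : ((b : Matrix _ _ F) *ᵥ x) j ≠ 0 := by
          intro h0; rw [h0, mul_zero] at h5; exact hj' h5.symm
        refine ⟨x j * (((b : Matrix _ _ F) *ᵥ x) j)⁻¹, ?_⟩
        ext i
        have h6 := congrFun h4 (i, j)
        simp only [tv] at h6
        rw [Pi.smul_apply, smul_eq_mul, mul_right_comm, mul_comm (x j), ← h6, mul_assoc, mul_inv_cancel₀ hbj, mul_one]
      obtain ⟨x, rfl⟩ := hw
      have h3 : (g : Matrix ι ι F) *ᵥ (tl e P v0 x) ∈ W := by
        refine ⟨c • ((b : Matrix _ _ F) *ᵥ x), ?_⟩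
        change _ = (g : Matrix ι ι F) *ᵥ ((P : Matrix ι ι F) *ᵥ ((tv v0 x) ∘ e))
        rw [hact, hc]
        change (P : Matrix ι ι F) *ᵥ _ = _
        congr 1
        ext i
        simp only [tv, Function.comp, Pi.smul_apply, smul_eq_mul]
        ring
      rw [hg.val] at h3
      have h4 := W.sub_mem h3 (⟨x, rfl⟩ : tl e P v0 x ∈ W)
      have e5 : tl e P v0 x + polar Q (tl e P v0 x) u • y - polar Q (tl e P v0 x) y • u - tl e P v0 x =
          polar Q (tl e P v0 x) u • y - polar Q (tl e P v0 x) y • u := by abel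
      rwa [e5] at h4
  -- the image of another decomposable vector
  have hmem : (P : Matrix ι ι F) *ᵥ ((tv (Pi.single i1 1) (Pi.single j0 1)) ∘ e) ∈ W := by rw [hW]; trivial
  obtain ⟨x, hx⟩ := hmem
  have h3 := congrFun (P_injective e P hx) (i1, j0)
  simp [tv, v0, h01] at h3

theorem not_le_tensor (hQ : ND Q) (hn : 7 ≤ Fintype.card ι) {n₁ n₂ : ℕ} (e : ι ≃ Fin n₁ × Fin n₂) (P : GL ι F)
    (h1 : 2 ≤ n₁) (h2 : 3 ≤ n₂) : ¬ omegaGL (⇑Q) ≤ tensorProductSubgroup n₁ n₂ e P := fun h =>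
  roots_not_tensor hQ hn e P h1 h2 fun _ _ _ hg => h (hg.mem hQ (by omega))

/-! ### wreath -/

omit [Fintype F] in
lemma factorPerm_mul {d t : ℕ} (σ τ : Equiv.Perm (Fin t)) :
    (factorPerm d t F σ : Matrix (Fin t → Fin d) (Fin t → Fin d) F) *
      (factorPerm d t F τ : Matrix (Fin t → Fin d) (Fin t → Fin d) F) =
      (factorPerm d t F (σ * τ) : Matrix (Fin t → Fin d) (Fin t → Fin d) F) := by
  ext x z
  rw [Matrix.mul_apply, Finset.sum_eq_single (x ∘ σ)]
  · simp only [factorPerm_apply, if_true, one_mul]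
    rfl
  · intro y _ hy
    rw [factorPerm_apply, if_neg hy, zero_mul]
  · intro h; exact absurd (Finset.mem_univ _) h

omit [Fintype F] in
lemma factorPerm_one {d t : ℕ} : (factorPerm d t F 1 : Matrix (Fin t → Fin d) (Fin t → Fin d) F) = 1 := by
  ext x z
  rw [factorPerm_apply, Matrix.one_apply]
  have : x ∘ ((1 : Equiv.Perm (Fin t)) : Fin t → Fin t) = x := rfl
  rw [this]
  simp only [eq_comm]

/-- the explicit form of the wreath group -/
def formSub (d t : ℕ) (F : Type*) [Field F] : Subgroup (GL (Fin t → Fin d) F) where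
  carrier := {s | ∃ (σ : Equiv.Perm (Fin t)) (a : Fin t → GL (Fin d) F), (s : Matrix _ _ F) =
    (factorPerm d t F σ : Matrix _ _ F) * pureT t d F (fun i => (a i : Matrix (Fin d) (Fin d) F))}
  one_mem' := ⟨1, fun _ => 1, by
    rw [factorPerm_one, one_mul]
    simp only [Units.val_one]
    exact pureT_one.symm⟩
  mul_mem' := by
    rintro x y ⟨σ, a, hx⟩ ⟨τ, b, hy⟩
    refine ⟨σ * τ, fun i => a (τ i) * b i, ?_⟩
    rw [Units.val_mul, hx, hy]
    have h1 := factorPerm_conj (F := F) τ (fun i => (a (τ i) : Matrix (Fin d) (Fin d) F))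
    simp only [Equiv.apply_symm_apply] at h1
    calc (factorPerm d t F σ : Matrix _ _ F) * pureT t d F (fun i => (a i : Matrix (Fin d) (Fin d) F)) *
          ((factorPerm d t F τ : Matrix _ _ F) * pureT t d F (fun i => (b i : Matrix (Fin d) (Fin d) F)))
        = (factorPerm d t F σ : Matrix _ _ F) * (pureT t d F (fun i => (a i : Matrix (Fin d) (Fin d) F)) *
          (factorPerm d t F τ : Matrix _ _ F)) * pureT t d F (fun i => (b i : Matrix (Fin d) (Fin d) F)) := by
          simp only [mul_assoc]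
      _ = _ := by
          rw [← h1, ← mul_assoc, factorPerm_mul, mul_assoc, pureT_mul]
          rfl
  inv_mem' := by
    rintro x ⟨σ, a, hx⟩
    refine ⟨σ⁻¹, fun i => (a (σ.symm i))⁻¹, ?_⟩
    have h1 := factorPerm_conj (F := F) σ⁻¹ (fun i => (((a (σ.symm i))⁻¹ : GL (Fin d) F) : Matrix (Fin d) (Fin d) F))
    have h2 : (x : Matrix _ _ F) * ((factorPerm d t F σ⁻¹ : Matrix _ _ F) *
        pureT t d F (fun i => (((a (σ.symm i))⁻¹ : GL (Fin d) F) : Matrix (Fin d) (Fin d) F))) = 1 := by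
      rw [h1, hx]
      have e1 : (fun i => (((a (σ.symm ((σ⁻¹ : Equiv.Perm (Fin t)).symm i)))⁻¹ : GL (Fin d) F) : Matrix (Fin d) (Fin d) F)) =
          fun i => (((a i)⁻¹ : GL (Fin d) F) : Matrix (Fin d) (Fin d) F) := by
        funext i
        have : σ.symm ((σ⁻¹ : Equiv.Perm (Fin t)).symm i) = i := by
          change σ.symm (σ i) = i
          simp
        rw [this]
      rw [e1]
      calc (factorPerm d t F σ : Matrix _ _ F) * pureT t d F (fun i => (a i : Matrix (Fin d) (Fin d) F)) *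
          (pureT t d F (fun i => (((a i)⁻¹ : GL (Fin d) F) : Matrix (Fin d) (Fin d) F)) * (factorPerm d t F σ⁻¹ : Matrix _ _ F))
          = (factorPerm d t F σ : Matrix _ _ F) * (pureT t d F (fun i => (a i : Matrix (Fin d) (Fin d) F)) *
          pureT t d F (fun i => (((a i)⁻¹ : GL (Fin d) F) : Matrix (Fin d) (Fin d) F))) * (factorPerm d t F σ⁻¹ : Matrix _ _ F) := by
            simp only [mul_assoc]
        _ = (factorPerm d t F σ : Matrix _ _ F) * (factorPerm d t F σ⁻¹ : Matrix _ _ F) := by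
            rw [pureT_mul]
            have : (fun i => (a i : Matrix (Fin d) (Fin d) F) * (((a i)⁻¹ : GL (Fin d) F) : Matrix (Fin d) (Fin d) F)) = fun _ => 1 := by
              funext i
              rw [← Units.val_mul, mul_inv_cancel, Units.val_one]
            rw [this, pureT_one, mul_one]
        _ = 1 := by rw [factorPerm_mul, mul_inv_cancel, factorPerm_one]
    calc ((x⁻¹ : GL (Fin t → Fin d) F) : Matrix _ _ F) = ((x⁻¹ : GL (Fin t → Fin d) F) : Matrix _ _ F) * ((x : Matrix _ _ F) *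
        ((factorPerm d t F σ⁻¹ : Matrix _ _ F) *
        pureT t d F (fun i => (((a (σ.symm i))⁻¹ : GL (Fin d) F) : Matrix (Fin d) (Fin d) F)))) := by rw [h2, mul_one]
      _ = _ := by rw [← mul_assoc, ← Units.val_mul, inv_mul_cancel, Units.val_one, one_mul]

omit [Fintype F] in
lemma wreath_le_formSub (d t : ℕ) : tensorWreathStandard d t F ≤ formSub d t F := by
  rw [tensorWreathStandard, Subgroup.closure_le]
  rintro g (⟨gs, hg⟩ | ⟨σ, hg⟩)
  · refine ⟨1, gs, ?_⟩
    rw [factorPerm_one, one_mul]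
    ext x y; rw [hg, pureT_apply]
  · refine ⟨σ, fun _ => 1, ?_⟩
    simp only [Units.val_one]
    rw [pureT_one, mul_one]
    ext x y; rw [hg, factorPerm_apply]

theorem not_le_wreath_two (hQ : ND Q) (hn : 7 ≤ Fintype.card ι) (h2 : (2 : F) ≠ 0) {k : ℕ} (e : ι ≃ (Fin 2 → Fin k))
    (P : GL ι F) (hk : 3 ≤ k) : ¬ omegaGL (⇑Q) ≤ tensorWreathSubgroup k 2 e P := by
  intro hle
  apply roots_not_tensor hQ hn (e.trans (finTwoArrowEquiv (Fin k))) P (by omega) hk
  intro g u y hg
  -- the square root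
  obtain ⟨h, hh, -⟩ := exists_rt Q hg.hu (y := (2 : F)⁻¹ • y) (by rw [Q_smul, hg.hy, mul_zero])
    (by rw [p_smul', hg.huy, mul_zero])
  have hgh : g = h * h := by
    ext1
    apply H97.AschForm.matrix_ext_vec
    intro x
    rw [Units.val_mul, ← Matrix.mulVec_mulVec, hh.sq, hh.val, hg.val, p_smul']
    have : (2 : F) * (2 : F)⁻¹ = 1 := mul_inv_cancel₀ h2
    have e1 : x + (2 : F) • (x + polar Q x u • (2 : F)⁻¹ • y - ((2 : F)⁻¹ * polar Q x y) • u - x) =
        x + ((2 : F) * (2 : F)⁻¹ * polar Q x u) • y - ((2 : F) * (2 : F)⁻¹ * polar Q x y) • u := by module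
    rw [e1, this, one_mul, one_mul]
  obtain ⟨s, hs, hgs⟩ := (mem_transport _ e P _).mp (hle (hh.mem hQ (by omega)))
  obtain ⟨σ, a, hσ⟩ := wreath_le_formSub k 2 hs
  have hσσ : σ * σ = 1 := by
    have : ∀ σ : Equiv.Perm (Fin 2), σ * σ = 1 := by decide
    exact this σ
  have hss : ((s * s : GL (Fin 2 → Fin k) F) : Matrix _ _ F) =
      pureT 2 k F (fun i => ((a (σ i) * a i : GL (Fin k) F) : Matrix (Fin k) (Fin k) F)) := by
    have h1 := factorPerm_conj (F := F) σ (fun i => (a (σ i) : Matrix (Fin k) (Fin k) F))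
    simp only [Equiv.apply_symm_apply] at h1
    rw [Units.val_mul, hσ]
    calc (factorPerm k 2 F σ : Matrix _ _ F) * pureT 2 k F (fun i => (a i : Matrix (Fin k) (Fin k) F)) *
          ((factorPerm k 2 F σ : Matrix _ _ F) * pureT 2 k F (fun i => (a i : Matrix (Fin k) (Fin k) F)))
        = (factorPerm k 2 F σ : Matrix _ _ F) * (pureT 2 k F (fun i => (a i : Matrix (Fin k) (Fin k) F)) *
          (factorPerm k 2 F σ : Matrix _ _ F)) * pureT 2 k F (fun i => (a i : Matrix (Fin k) (Fin k) F)) := by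
          simp only [mul_assoc]
      _ = _ := by
          rw [← h1, ← mul_assoc, factorPerm_mul, hσσ, factorPerm_one, one_mul, pureT_mul]
          rfl
  rw [mem_tensorProductSubgroup_iff]
  refine ⟨a (σ 0) * a 0, a (σ 1) * a 1, ?_⟩
  have h3 : (g : Matrix ι ι F) = cr e P ((s * s : GL (Fin 2 → Fin k) F) : Matrix _ _ F) := by
    rw [hgh, hgs]
    have : P * glReindex e.symm s * P⁻¹ * (P * glReindex e.symm s * P⁻¹) = P * glReindex e.symm (s * s) * P⁻¹ := by
      rw [map_mul]; group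
    rw [this]; rfl
  rw [h3, hss, cr_apply, cr_apply]
  congr 2
  ext i j
  rw [Matrix.submatrix_apply, Matrix.submatrix_apply, pureT_apply, Fin.prod_univ_two, Matrix.kroneckerMap_apply]
  rfl

end H61.AschNCO
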