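import Mathlib
import Cfsg.Agent.Lib.H61.AschNCO3
import Cfsg.Agent.Lib.H97.AschFin

set_option autoImplicit false
set_option linter.unusedSectionVars false

/-!
Maximal subgroups of `Ω_{2m+1}(q)`: the general list.
-/

namespace H61.AschNCO

open Module Cfsg Cfsg.Geo Matrix QuadraticMap H48.QuadSplit H95.OGeo H95.OSie H95.Bridge H95.OBridge H17.OrthAbs
open H97.AschTensor H97.AschWreath H97.AschWreathNorm H97.AschSL H97.AschUnits H97.AschTwo H97.AschCases
open scoped commutatorElement Kronecker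

variable {ι : Type} [Fintype ι] [DecidableEq ι] {F : Type*} [Field F] [Fintype F] {Q : QuadraticForm F (ι → F)}

/-- the stabiliser of a subspace in the isometry group stabilises the orthogonal complement -/
lemma stab_orth (hQ : ND Q) (W : Submodule F (ι → F)) :
    subspaceStabilizer W ⊓ isometryGroup F (⇑Q) ≤ subspaceStabilizer (orth Q W) := by
  rintro g ⟨hg1, hg2'⟩
  have hg2 : toEq ι F g ∈ O Q := (mem_iso Q g).1 hg2'
  apply mem_subspaceStabilizer_of
  intro v hv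
  rw [mem_orth] at hv ⊢
  intro u hu
  -- u = g u'
  have h1 : (toEq ι F g)⁻¹ u ∈ W := by
    have h2 := (mem_subspaceStabilizer.1 hg1 ((toEq ι F g)⁻¹ u))
    rw [h2]
    have : toEq ι F g ((toEq ι F g)⁻¹ u) = u := (toEq ι F g).apply_symm_apply u
    rwa [this]
  have h3 := hv _ h1
  rw [← polar_map hg2] at h3
  have : toEq ι F g ((toEq ι F g)⁻¹ u) = u := (toEq ι F g).apply_symm_apply u
  rwa [this] at h3

lemma ndOn_iff (W : Submodule F (ι → F)) : IsNondegenerateOn (QuadraticMap.polar (⇑Q)) W ↔ ND (Q.restrict W) := by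
  constructor
  · intro h x hx
    by_contra hx0
    obtain ⟨-, y, hy, hy'⟩ := h x x.2 (fun h => hx0 (Subtype.ext h))
    exact hy' (hx ⟨y, hy⟩)
  · intro h w hw hw0
    have : ∃ x : W, polar (Q.restrict W) ⟨w, hw⟩ x ≠ 0 := by
      by_contra hcon
      push Not at hcon
      exact hw0 (congrArg Subtype.val (h ⟨w, hw⟩ hcon))
    obtain ⟨x, hx⟩ := this
    exact ⟨⟨x, x.2, by rw [polar_comm]; exact hx⟩, ⟨x, x.2, hx⟩⟩

/-- plus-type planes over the field with three elements -/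
lemma plane_three (hq : Fintype.card F = 3) {W : Submodule F (ι → F)}
    (hW : IsNondegenerateOn (QuadraticMap.polar (⇑Q)) W) (h2 : finrank F W = 2) (hp : IsPlusTypeOn (⇑Q) W) :
    ∃ v ∈ W, Q v = 1 ∧ ∀ w ∈ W, Q w = 1 → w = v ∨ w = -v := by
  have hsq : ∀ x : F, x ≠ 0 → x * x = 1 := by
    intro x hx
    have := FiniteField.pow_card_sub_one_eq_one x hx
    rw [hq] at this
    rw [← this]; ring
  obtain ⟨U, hUW, hU, hU2⟩ := hp
  rw [h2] at hU2
  have hU1 : finrank F U = 1 := by omega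
  have hUb : U ≠ ⊥ := by intro h; rw [h, finrank_bot] at hU1; omega
  obtain ⟨e, heU, he0⟩ := Submodule.exists_mem_ne_zero_of_ne_bot hUb
  have heQ : Q e = 0 := hU e heU
  obtain ⟨-, x, hx, hex⟩ := hW e (hUW heU) he0
  -- normalise
  obtain ⟨x', hx', hex'⟩ : ∃ x' ∈ W, polar Q e x' = 1 :=
    ⟨(polar Q e x)⁻¹ • x, W.smul_mem _ hx, by rw [p_smul', inv_mul_cancel₀ hex]⟩
  set f := x' - Q x' • e with hf
  have hfW : f ∈ W := W.sub_mem hx' (W.smul_mem _ (hUW heU))
  have hef : polar Q e f = 1 := by rw [hf, p_sub', p_smul', p_self, heQ, hex']; ring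
  have hfQ : Q f = 0 := by
    rw [hf, Q_sub, Q_smul, p_smul', p_comm Q x', hex', heQ]; ring
  have hli : LinearIndependent F ![(⟨e, hUW heU⟩ : W), ⟨f, hfW⟩] := by
    rw [LinearIndependent.pair_iff]
    intro a b hab
    have h3 : a • e + b • f = 0 := congrArg Subtype.val hab
    have h4 : polar Q (a • e + b • f) f = 0 := by rw [h3, p_zero]
    have h5 : polar Q (a • e + b • f) e = 0 := by rw [h3, p_zero]
    rw [p_add, p_smul, p_smul, hef, p_self, hfQ] at h4
    rw [p_add, p_smul, p_smul, p_comm Q f e, hef, p_self, heQ] at h5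
    exact ⟨by linear_combination h4, by linear_combination h5⟩
  have hspan : ∀ w ∈ W, ∃ a b : F, w = a • e + b • f := by
    intro w hw
    have htop : Submodule.span F (Set.range ![(⟨e, hUW heU⟩ : W), ⟨f, hfW⟩]) = ⊤ :=
      hli.span_eq_top_of_card_eq_finrank (by rw [Fintype.card_fin, h2])
    have hmem : (⟨w, hw⟩ : W) ∈ Submodule.span F (Set.range ![(⟨e, hUW heU⟩ : W), ⟨f, hfW⟩]) := by
      rw [htop]; trivial
    rw [Submodule.mem_span_range_iff_exists_fun] at hmem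
    obtain ⟨c, hc⟩ := hmem
    rw [Fin.sum_univ_two] at hc
    exact ⟨c 0, c 1, (congrArg Subtype.val hc).symm⟩
  have hQab : ∀ a b : F, Q (a • e + b • f) = a * b := by
    intro a b
    rw [Q_add, Q_smul, Q_smul, p_smul, p_smul', hef, heQ, hfQ]; ring
  refine ⟨e + f, W.add_mem (hUW heU) hfW, ?_, ?_⟩
  · have := hQab 1 1
    rwa [one_smul, one_smul, mul_one] at this
  · intro w hw hw1
    obtain ⟨a, b, rfl⟩ := hspan w hw
    rw [hQab] at hw1
    have ha : a ≠ 0 := by rintro rfl; rw [zero_mul] at hw1; exact zero_ne_one hw1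
    have hab : b = a := by
      have := hsq a ha
      calc b = (a * a) * b := by rw [this, one_mul]
        _ = a * (a * b) := by ring
        _ = a := by rw [hw1, mul_one]
    rcases mul_self_eq_one_iff.1 (hsq a ha) with h | h
    · left; rw [hab, h, one_smul, one_smul]
    · right; rw [hab, h]; module

/-- non-degenerate subspaces -/
lemma nondeg_case (hQ : ND Q) (hn : 7 ≤ Fintype.card ι) (hoddn : Odd (Fintype.card ι)) (h2 : (2 : F) ≠ 0)
    {H : Subgroup (GL ι F)} (hH : IsMaximalIn (omegaGL (⇑Q)) H) (hHI : H ≤ isometryGroup F (⇑Q))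
    {W : Submodule F (ι → F)} (h0 : W ≠ ⊥) (h1 : W ≠ ⊤) (hW : IsNondegenerateOn (QuadraticMap.polar (⇑Q)) W)
    (hle : H ≤ subspaceStabilizer W) :
    ∃ W : Submodule F (ι → F), W ≠ ⊥ ∧ Even (finrank F W) ∧ IsNondegenerateOn (QuadraticMap.polar (⇑Q)) W ∧
      ¬ (Fintype.card F = 3 ∧ finrank F W = 2 ∧ IsPlusTypeOn (⇑Q) W) ∧
      H = subspaceStabilizer W ⊓ omegaGL (⇑Q) := by
  have hfr0 : finrank F (ι → F) = Fintype.card ι := Module.finrank_fintype_fun_eq_card F
  -- reduction to even dimension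
  obtain ⟨W', h0', hev, hnd, hle'⟩ : ∃ W : Submodule F (ι → F), W ≠ ⊥ ∧ Even (finrank F W) ∧
      IsNondegenerateOn (QuadraticMap.polar (⇑Q)) W ∧ H ≤ subspaceStabilizer W := by
    rcases Nat.even_or_odd (finrank F W) with h | h
    · exact ⟨W, h0, h, hW, hle⟩
    · have h3 := finrank_orth hQ W
      rw [hfr0] at h3
      have hlt : finrank F W < finrank F (ι → F) := Submodule.finrank_lt h1
      refine ⟨orth Q W, ?_, ?_, (ndOn_iff _).2 (nd_orth hQ ((ndOn_iff _).1 hW)), fun g hg => stab_orth hQ W ⟨hle hg, hHI hg⟩⟩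
      · intro hb
        rw [hb, finrank_bot] at h3
        omega
      · have h4 : finrank F (orth Q W) = Fintype.card ι - finrank F W := by omega
        rw [h4]
        exact Nat.Odd.sub_odd hoddn h
  by_cases hex : Fintype.card F = 3 ∧ finrank F W' = 2 ∧ IsPlusTypeOn (⇑Q) W'
  · obtain ⟨hq, hd, hp⟩ := hex
    obtain ⟨v, hv, hv1, huniq⟩ := plane_three hq hnd hd hp
    have hv0 : v ≠ 0 := by rintro rfl; rw [map_zero] at hv1; exact zero_ne_one hv1
    -- the line of v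
    set L : Submodule F (ι → F) := Submodule.span F {v} with hL
    have hLnd : IsNondegenerateOn (QuadraticMap.polar (⇑Q)) L := by
      intro w hw hw0
      obtain ⟨c, rfl⟩ := Submodule.mem_span_singleton.1 hw
      have hc : c ≠ 0 := by rintro rfl; exact hw0 (zero_smul _ _)
      have hne : polar Q (c • v) v ≠ 0 := by
        rw [p_smul, p_self, hv1, mul_one]; exact mul_ne_zero hc h2
      exact ⟨⟨v, Submodule.mem_span_singleton_self v, by rw [polar_comm]; exact hne⟩,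
        ⟨v, Submodule.mem_span_singleton_self v, hne⟩⟩
    have hHL : H ≤ subspaceStabilizer L := by
      intro g hg
      apply mem_subspaceStabilizer_of
      intro w hw
      obtain ⟨c, rfl⟩ := Submodule.mem_span_singleton.1 hw
      rw [map_smul]
      apply L.smul_mem
      have hgI := hHI hg
      rw [mem_iso] at hgI
      have h3 : toEq ι F g v ∈ W' := (mem_subspaceStabilizer.1 (hle' hg) v).1 hv
      have h4 : Q (toEq ι F g v) = 1 := by rw [hgI, hv1]
      rcases huniq _ h3 h4 with h | h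
      · rw [h]; exact Submodule.mem_span_singleton_self v
      · rw [h]; exact L.neg_mem (Submodule.mem_span_singleton_self v)
    have hLd : finrank F L = 1 := finrank_span_singleton hv0
    have h3 := finrank_orth hQ L
    rw [hfr0, hLd] at h3
    have hLb : orth Q L ≠ ⊥ := by
      intro hb
      rw [hb, finrank_bot] at h3
      omega
    have hLt : orth Q L ≠ ⊤ := by
      intro hb
      rw [hb, finrank_top, hfr0] at h3
      omega
    refine ⟨orth Q L, hLb, ?_, (ndOn_iff _).2 (nd_orth hQ ((ndOn_iff _).1 hLnd)), ?_, ?_⟩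
    · have h4 : finrank F (orth Q L) = Fintype.card ι - 1 := by omega
      rw [h4]
      exact Nat.Odd.sub_odd hoddn (by decide)
    · rintro ⟨-, h4, -⟩
      omega
    · exact eq_of_max hH (fun g hg => stab_orth hQ L ⟨hHL hg, hHI hg⟩) (not_le_subspace hQ hn hLb hLt)
  · have h1' : W' ≠ ⊤ := by
      rintro rfl
      rw [finrank_top, hfr0] at hev
      exact (Nat.not_even_iff_odd.2 hoddn) hev
    exact ⟨W', h0', hev, hnd, hex, eq_of_max hH hle' (not_le_subspace hQ hn h0' h1')⟩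

/-- the general list -/
theorem om_cases (hodd : Odd (Fintype.card F)) {m : ℕ} (hm : 3 ≤ m) (hm' : m ≤ 12)
    {H : Subgroup (GL (Unit ⊕ (Fin m ⊕ Fin m)) F)} (hH : IsMaximalIn (omegaGL (quadFormOdd m F)) H) :
    (∃ W : Submodule F (Unit ⊕ (Fin m ⊕ Fin m) → F), W ≠ ⊥ ∧ IsTotallySingularQuad (quadFormOdd m F) W ∧
      H = subspaceStabilizer W ⊓ omegaGL (quadFormOdd m F)) ∨
    (∃ W : Submodule F (Unit ⊕ (Fin m ⊕ Fin m) → F), W ≠ ⊥ ∧ Even (Module.finrank F W) ∧
      IsNondegenerateOn (QuadraticMap.polar (quadFormOdd m F)) W ∧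
      ¬ (Fintype.card F = 3 ∧ Module.finrank F W = 2 ∧ IsPlusTypeOn (quadFormOdd m F) W) ∧
      H = subspaceStabilizer W ⊓ omegaGL (quadFormOdd m F)) ∨
    (∃ (t k : ℕ) (D : Fin t → Submodule F (Unit ⊕ (Fin m ⊕ Fin m) → F)), 2 ≤ t ∧ 2 ≤ k ∧ 2 * m + 1 = t * k ∧
      IsOrthogonalMDecomposition (quadFormOdd m F) k D ∧ H = decompositionStabilizer D ⊓ omegaGL (quadFormOdd m F)) ∨
    (∃ (t : ℕ) (D : Fin t → Submodule F (Unit ⊕ (Fin m ⊕ Fin m) → F)), t = 2 * m + 1 ∧ (Fintype.card F).Prime ∧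
      IsOrthogonalMDecomposition (quadFormOdd m F) 1 D ∧ H = decompositionStabilizer D ⊓ omegaGL (quadFormOdd m F)) ∨
    (∃ (r : ℕ) (K : Subalgebra F (Matrix (Unit ⊕ (Fin m ⊕ Fin m)) (Unit ⊕ (Fin m ⊕ Fin m)) F)), r.Prime ∧
      2 * m + 1 ≠ r ∧ r ∣ 2 * m + 1 ∧ IsFieldSubalgebra r K ∧ IsSelfAdjointFor (QuadraticMap.polar (quadFormOdd m F)) K ∧
      H = subalgebraNormalizer K ⊓ omegaGL (quadFormOdd m F)) ∨
    (∃ (n₁ n₂ : ℕ) (e : (Unit ⊕ (Fin m ⊕ Fin m)) ≃ Fin n₁ × Fin n₂) (P : GL (Unit ⊕ (Fin m ⊕ Fin m)) F)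
      (f₁ : (Fin n₁ → F) → (Fin n₁ → F) → F) (f₂ : (Fin n₂ → F) → (Fin n₂ → F) → F),
      3 ≤ n₁ ∧ n₁ < n₂ ∧ 2 * m + 1 = n₁ * n₂ ∧ IsSymmetricForm f₁ ∧ IsSymmetricForm f₂ ∧
      IsTensorFormStructure id (QuadraticMap.polar (quadFormOdd m F)) f₁ f₂ e P ∧
      H = tensorProductSubgroup n₁ n₂ e P ⊓ omegaGL (quadFormOdd m F)) ∨
    (∃ (F₀ : Subfield F) (r : ℕ) (P : GL (Unit ⊕ (Fin m ⊕ Fin m)) F), r.Prime ∧ Fintype.card F = Nat.card F₀ ^ r ∧
      IsQuadFormRationalStructure (quadFormOdd m F) F₀ P ∧ H = subfieldSubgroup F₀ P ⊓ omegaGL (quadFormOdd m F)) ∨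
    (∃ (k : ℕ) (e : (Unit ⊕ (Fin m ⊕ Fin m)) ≃ (Fin 2 → Fin k)) (P : GL (Unit ⊕ (Fin m ⊕ Fin m)) F)
      (f₁ : (Fin k → F) → (Fin k → F) → F), 3 ≤ k ∧ 2 * m + 1 = k ^ 2 ∧ ¬ (Fintype.card F = 3 ∧ k = 3) ∧
      IsSymmetricForm f₁ ∧ IsTensorPowerFormStructure id (QuadraticMap.polar (quadFormOdd m F)) f₁ e P ∧
      H = tensorWreathSubgroup k 2 e P ⊓ omegaGL (quadFormOdd m F)) ∨
    InOrthogonalResidualClass H := by
  have h2 : (2 : F) ≠ 0 := two_ne hodd
  obtain ⟨Q, hQeq, hQ⟩ := quad_odd (F := F) m h2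
  have hcard : Fintype.card (Unit ⊕ (Fin m ⊕ Fin m)) = 2 * m + 1 := by
    simp [Fintype.card_sum]; ring
  have hn : 7 ≤ Fintype.card (Unit ⊕ (Fin m ⊕ Fin m)) := by omega
  have hne : Nonempty (Unit ⊕ (Fin m ⊕ Fin m)) := ⟨Sum.inl ()⟩
  rw [← hQeq] at hH ⊢
  have hΩI : omegaGL (⇑Q) ≤ isometryGroup F (⇑Q) := by
    intro g hg
    rw [mem_omegaGL] at hg
    rw [mem_iso]
    exact omega_le_O Q hg
  have hHI : H ≤ isometryGroup F (⇑Q) := hH.1.le.trans hΩI
  have hHI' := hHI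
  rw [hQeq] at hHI'
  rcases H97.AschFin.om_theorem hodd (by omega) hHI' with ⟨M, hM, hle⟩ | h
  swap
  · iterate 8 right
    exact h
  unfold InOrthogonalOddClass at hM
  rw [← hQeq] at hM
  rcases hM with ⟨W, h1, h3, rfl⟩ | ⟨W, h1, h3, h4, rfl⟩ | ⟨t, k, D, h1, h3, rfl⟩ | ⟨t, D, h1, h3, rfl⟩ |
    ⟨r, K, h1, h3, h4, h5, rfl⟩ | ⟨n₁, n₂, e, P, f₁, f₂, h1, h3, h4, h5, h6, rfl⟩ | ⟨F₀, r, P, h1, h3, h4, rfl⟩ |
    ⟨k, t, e, P, f₁, h1, h3, h4, h5, h6, rfl⟩
  · left
    have hWt : W ≠ ⊤ := by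
      rintro rfl
      obtain ⟨u, y, -, -, -, hli⟩ := exists_pair hQ hn
      obtain ⟨x, hx⟩ := dual hQ hli ![1, 0]
      have e1 : polar Q x u = 1 := hx 0
      have : polar Q x u = 0 := by
        rw [QuadraticMap.polar, h3 _ trivial, h3 _ trivial, h3 _ trivial]; ring
      rw [this] at e1
      exact zero_ne_one e1
    exact ⟨W, h1, h3, eq_of_max hH (hle.trans inf_le_left) (not_le_subspace hQ hn h1 hWt)⟩
  · right; left
    exact nondeg_case hQ hn (by rw [hcard]; exact ⟨m, rfl⟩) h2 hH hHI h1 h3 h4 (hle.trans inf_le_left)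
  · iterate 2 right
    left
    have hc := H97.AschBlock.card_decomposition h3.decomp.decomp
    rw [hcard] at hc
    exact ⟨t, k, D, h3.decomp.decomp.two_le, h1, hc, h3, eq_of_max hH (hle.trans inf_le_left)
      (not_le_decomposition hQ hn h2 h3.decomp.decomp)⟩
  · iterate 3 right
    left
    have hc := H97.AschBlock.card_decomposition h3.decomp.decomp
    rw [hcard] at hc
    exact ⟨t, D, by omega, h1, h3, eq_of_max hH (hle.trans inf_le_left)
      (not_le_decomposition hQ hn h2 h3.decomp.decomp)⟩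
  · iterate 4 right
    left
    have hd := dvd_of_field h4
    rw [hcard] at hd
    exact ⟨r, K, h1, h3, hd, h4, h5, eq_of_max hH (hle.trans inf_le_left) (not_le_field hQ hn h1.one_lt.ne' h4)⟩
  · iterate 5 right
    left
    have hc := H97.AschEnv.card_eq_of_equiv e
    rw [hcard] at hc
    exact ⟨n₁, n₂, e, P, f₁, f₂, h1, h3, hc, h4, h5, h6, eq_of_max hH (hle.trans inf_le_left)
      (not_le_tensor hQ hn e P (by omega) (by omega))⟩
  · iterate 6 right
    left
    refine ⟨F₀, r, P, h1, h3, h4, eq_of_max hH (hle.trans inf_le_left) (not_le_subfield hQ hn ?_ P)⟩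
    rintro rfl
    have h5 : Nat.card (⊤ : Subfield F) = Fintype.card F := by
      rw [← Nat.card_eq_fintype_card]
      exact Nat.card_congr (Equiv.Set.univ F)
    rw [h5] at h3
    have h6 : 1 < Fintype.card F := Fintype.one_lt_card
    have h7 : Fintype.card F ^ 1 < Fintype.card F ^ r := Nat.pow_lt_pow_right h6 h1.one_lt
    rw [pow_one] at h7
    omega
  · iterate 7 right
    left
    have hc : 2 * m + 1 = k ^ t := by
      have := Fintype.card_congr e
      rw [hcard] at this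
      simpa using this
    have ht : t = 2 := by
      by_contra hne
      have h7 : 3 ≤ t := by omega
      have h8 : 3 ^ 3 ≤ k ^ t := le_trans (Nat.pow_le_pow_left h1 3) (Nat.pow_le_pow_right (by omega) h7)
      omega
    subst ht
    exact ⟨k, e, P, f₁, h1, hc, h4, h5, h6, eq_of_max hH (hle.trans inf_le_left)
      (not_le_wreath_two hQ hn h2 e P h1)⟩

end H61.AschNCO
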