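import Mathlib
import Cfsg.Agent.Lib.H61.AschNCO4

set_option autoImplicit false
set_option linter.unusedSectionVars false

/-!
`q = 3`: decompositions into non-degenerate three-dimensional spaces refine to orthogonal frames.
-/

namespace H61.AschNCO

open Module Cfsg Cfsg.Geo Matrix QuadraticMap H48.QuadSplit H95.OGeo H95.OSie H95.Bridge H95.OBridge H17.OrthAbs

section three

variable {V : Type*} [AddCommGroup V] {F : Type*} [Field F] [Fintype F] [Module F V] {Q : QuadraticForm F V}

lemma sq_three (hq : Fintype.card F = 3) {x : F} (hx : x ≠ 0) : x * x = 1 := by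
  have := FiniteField.pow_card_sub_one_eq_one x hx
  rw [hq] at this
  rw [← this]; ring

lemma two_three (hq : Fintype.card F = 3) : (2 : F) = -1 := by
  have h3 : (Fintype.card F : F) = 0 := FiniteField.cast_card_eq_zero F
  rw [hq] at h3
  have : (3 : F) = 0 := by exact_mod_cast h3
  linear_combination this

/-- three orthogonal vectors can be replaced by three orthogonal vectors of the same norm -/
lemma triple_fix (hq : Fintype.card F = 3) {W : Submodule F V} {b : Fin 3 → V} (hb : ∀ i, b i ∈ W)
    (ho : ∀ i j, i ≠ j → polar Q (b i) (b j) = 0) (hn : ∀ i, Q (b i) ≠ 0) :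
    ∃ (b' : Fin 3 → V) (c : F), c ≠ 0 ∧ (∀ i, b' i ∈ W) ∧ (∀ i j, i ≠ j → polar Q (b' i) (b' j) = 0) ∧
      ∀ i, Q (b' i) = c := by
  have h2 := two_three hq
  -- the key replacement
  have key : ∀ x y z : V, x ∈ W → y ∈ W → z ∈ W → polar Q x y = 0 → polar Q x z = 0 → polar Q y z = 0 →
      Q y = Q z → Q x = - Q y → Q x ≠ 0 →
      ∃ (b' : Fin 3 → V) (c : F), c ≠ 0 ∧ (∀ i, b' i ∈ W) ∧ (∀ i j, i ≠ j → polar Q (b' i) (b' j) = 0) ∧
        ∀ i, Q (b' i) = c := by
    intro x y z hx hy hz hxy hxz hyz h1 h3 h4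
    have e1 : polar Q x (y + z) = 0 := by rw [p_add', hxy, hxz, add_zero]
    have e2 : polar Q x (y - z) = 0 := by rw [p_sub', hxy, hxz, sub_zero]
    have e3 : polar Q (y + z) (y - z) = 0 := by
      rw [p_add, p_sub', p_sub', p_self, p_self, hyz, p_comm Q z y, hyz, h1]; ring
    refine ⟨![x, y + z, y - z], Q x, h4, ?_, ?_, ?_⟩
    · intro i; fin_cases i
      · exact hx
      · exact W.add_mem hy hz
      · exact W.sub_mem hy hz
    · intro i j hij
      fin_cases i <;> fin_cases j
      · exact absurd rfl hij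
      · exact e1
      · exact e2
      · change polar Q (y + z) x = 0; rw [p_comm]; exact e1
      · exact absurd rfl hij
      · exact e3
      · change polar Q (y - z) x = 0; rw [p_comm]; exact e2
      · change polar Q (y - z) (y + z) = 0; rw [p_comm]; exact e3
      · exact absurd rfl hij
    · intro i; fin_cases i
      · rfl
      · change Q (y + z) = Q x
        rw [Q_add, hyz, h3, ← h1]; linear_combination (Q y) * h2
      · change Q (y - z) = Q x
        rw [Q_sub, hyz, h3, ← h1]; linear_combination (Q y) * h2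
  have hpm : ∀ i j, Q (b i) = Q (b j) ∨ Q (b i) = - Q (b j) := by
    intro i j
    have e1 := sq_three hq (hn i)
    have e2 := sq_three hq (hn j)
    exact mul_self_eq_mul_self_iff.1 (by rw [e1, e2])
  rcases hpm 0 1 with h01 | h01
  · rcases hpm 0 2 with h02 | h02
    · exact ⟨b, Q (b 0), hn 0, hb, ho, fun i => by
        fin_cases i
        · rfl
        · exact h01.symm
        · exact h02.symm⟩
    · exact key (b 2) (b 0) (b 1) (hb 2) (hb 0) (hb 1) (ho 2 0 (by decide)) (ho 2 1 (by decide)) (ho 0 1 (by decide))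
        h01 (by rw [h02, neg_neg]) (hn 2)
  · rcases hpm 0 2 with h02 | h02
    · exact key (b 1) (b 0) (b 2) (hb 1) (hb 0) (hb 2) (ho 1 0 (by decide)) (ho 1 2 (by decide)) (ho 0 2 (by decide))
        h02 (by rw [h01, neg_neg]) (hn 1)
    · exact key (b 0) (b 1) (b 2) (hb 0) (hb 1) (hb 2) (ho 0 1 (by decide)) (ho 0 2 (by decide)) (ho 1 2 (by decide))
        (by rw [h01] at h02; exact neg_injective h02) h01 (hn 0)

/-- orthogonal families of non-zero norm are independent -/
lemma indep_of_orth (h2 : (2 : F) ≠ 0) {κ : Type*} {b : κ → V}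
    (ho : ∀ i j, i ≠ j → polar Q (b i) (b j) = 0) (hn : ∀ i, Q (b i) ≠ 0) : LinearIndependent F b := by
  classical
  rw [linearIndependent_iff']
  intro s a hsum i hi
  have h3 : polarBilin Q (∑ j ∈ s, a j • b j) (b i) = 0 := by rw [hsum]; simp
  rw [map_sum, LinearMap.sum_apply, Finset.sum_eq_single i] at h3
  · rw [map_smul, LinearMap.smul_apply, smul_eq_mul] at h3
    change a i * polar Q (b i) (b i) = 0 at h3
    rw [p_self] at h3
    rcases mul_eq_zero.1 h3 with h | h
    · exact h
    · exact absurd h (mul_ne_zero h2 (hn i))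
  · intro j _ hj
    rw [map_smul, LinearMap.smul_apply, smul_eq_mul]
    change a j * polar Q (b j) (b i) = 0
    rw [ho j i hj, mul_zero]
  · intro h; exact absurd hi h

/-- vectors of the common norm in the span of an orthogonal triple -/
lemma norm_three (hq : Fintype.card F = 3) {W : Submodule F V} [FiniteDimensional F W] (hW : finrank F W = 3)
    {b : Fin 3 → V} {c : F} (hc : c ≠ 0)
    (hb : ∀ i, b i ∈ W) (ho : ∀ i j, i ≠ j → polar Q (b i) (b j) = 0) (hn : ∀ i, Q (b i) = c) {w : V} (hw : w ∈ W)
    (hwc : Q w = c) : ∃ i, w = b i ∨ w = - b i := by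
  have h2 := two_three hq
  have h2' : (2 : F) ≠ 0 := by rw [h2]; exact neg_ne_zero.2 one_ne_zero
  have hli : LinearIndependent F (fun i => (⟨b i, hb i⟩ : W)) := by
    have := indep_of_orth (Q := Q) h2' ho (fun i => by rw [hn]; exact hc)
    exact LinearIndependent.of_comp W.subtype this
  have htop := hli.span_eq_top_of_card_eq_finrank (by rw [Fintype.card_fin, hW])
  have hmem : (⟨w, hw⟩ : W) ∈ Submodule.span F (Set.range fun i => (⟨b i, hb i⟩ : W)) := by rw [htop]; trivial
  rw [Submodule.mem_span_range_iff_exists_fun] at hmem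
  obtain ⟨a, ha⟩ := hmem
  rw [Fin.sum_univ_three] at ha
  have hw' : w = a 0 • b 0 + a 1 • b 1 + a 2 • b 2 := (congrArg Subtype.val ha).symm
  have hQ : Q w = (a 0 * a 0 + a 1 * a 1 + a 2 * a 2) * c := by
    rw [hw', Q_add, Q_add, Q_smul, Q_smul, Q_smul, p_add, p_smul, p_smul, p_smul', p_smul', p_smul, p_smul', hn, hn, hn,
      ho 0 1 (by decide), ho 0 2 (by decide), ho 1 2 (by decide)]
    ring
  rw [hwc] at hQ
  have h1 : a 0 * a 0 + a 1 * a 1 + a 2 * a 2 = 1 := by
    have : (a 0 * a 0 + a 1 * a 1 + a 2 * a 2) * c = 1 * c := by rw [← hQ, one_mul]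
    exact mul_right_cancel₀ hc this
  have hz : ∀ x : F, x = 0 ∨ x * x = 1 := fun x => by
    by_cases h : x = 0
    · left; exact h
    · right; exact sq_three hq h
  have hpm : ∀ x : F, x * x = 1 → x = 1 ∨ x = -1 := fun x h => mul_self_eq_one_iff.1 h
  have h3 : (3 : F) = 0 := by linear_combination h2
  have h21 : (2 : F) ≠ 1 := by
    intro h
    have : (1 : F) = 0 := by linear_combination h
    exact one_ne_zero this
  rcases hz (a 0) with h0 | h0 <;> rcases hz (a 1) with h1' | h1' <;> rcases hz (a 2) with h2'' | h2''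
  · exfalso; rw [h0, h1', h2''] at h1; simp at h1
  · refine ⟨2, ?_⟩
    rcases hpm _ h2'' with h | h
    · left; rw [hw', h0, h1', h]; simp
    · right; rw [hw', h0, h1', h]; simp
  · refine ⟨1, ?_⟩
    rcases hpm _ h1' with h | h
    · left; rw [hw', h0, h2'', h]; simp
    · right; rw [hw', h0, h2'', h]; simp
  · exfalso
    apply h21
    rw [h0, h1', h2''] at h1
    rw [← h1]; ring
  · refine ⟨0, ?_⟩
    rcases hpm _ h0 with h | h
    · left; rw [hw', h1', h2'', h]; simp
    · right; rw [hw', h1', h2'', h]; simp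
  · exfalso
    apply h21
    rw [h0, h1', h2''] at h1
    rw [← h1]; ring
  · exfalso
    apply h21
    rw [h0, h1', h2''] at h1
    rw [← h1]; ring
  · exfalso
    rw [h0, h1', h2''] at h1
    apply h2'
    linear_combination h1

end three

variable {ι : Type} [Fintype ι] [DecidableEq ι] {F : Type*} [Field F] [Fintype F] {Q : QuadraticForm F (ι → F)}

/-- non-degenerate three-dimensional blocks over the field with three elements refine to a frame -/
theorem blocks_three (hq : Fintype.card F = 3) {t : ℕ} {D : Fin t → Submodule F (ι → F)}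
    (hD : IsOrthogonalMDecomposition (⇑Q) 3 D) :
    ∃ D' : Fin (t * 3) → Submodule F (ι → F), IsOrthogonalMDecomposition (⇑Q) 1 D' ∧
      decompositionStabilizer D ⊓ isometryGroup F (⇑Q) ≤ decompositionStabilizer D' := by
  classical
  have h2 := two_three hq
  have h2' : (2 : F) ≠ 0 := by rw [h2]; exact neg_ne_zero.2 one_ne_zero
  have ht := hD.decomp.decomp.two_le
  let i0 : Fin t := ⟨0, by omega⟩
  -- an orthogonal basis of the first block
  have hnd : ND (Q.restrict (D i0)) := (ndOn_iff _).1 (hD.decomp.nondegenerate i0)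
  have hfr := hD.decomp.decomp.finrank_eq
  have hinv : Invertible (2 : F) := invertibleOfNonzero h2'
  obtain ⟨v, hv⟩ := LinearMap.BilinForm.exists_orthogonal_basis (B := polarBilin (Q.restrict (D i0)))
    ⟨fun x y => by
      change polar (Q.restrict (D i0)) x y = polar (Q.restrict (D i0)) y x
      exact polar_comm _ _ _⟩
  let v' : Basis (Fin 3) F (D i0) := v.reindex (finCongr (hfr i0))
  have hvo : ∀ i j, i ≠ j → polar Q (v' i : ι → F) (v' j) = 0 := by
    intro i j hij
    have := hv (i := (finCongr (hfr i0)).symm i) (j := (finCongr (hfr i0)).symm j) (fun h => hij (by simpa using h))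
    change polarBilin (Q.restrict (D i0)) _ _ = 0 at this
    change polar (Q.restrict (D i0)) (v' i) (v' j) = 0
    rw [Basis.reindex_apply, Basis.reindex_apply]
    exact this
  have hvn : ∀ i, Q (v' i : ι → F) ≠ 0 := by
    intro i h0
    have h3 : v' i = 0 := by
      apply hnd
      intro y
      have h4 : (polarBilin (Q.restrict (D i0)) (v' i)) = 0 := by
        apply v'.ext
        intro j
        change polar Q (v' i : ι → F) (v' j) = 0
        by_cases hij : i = j
        · rw [hij] at h0 ⊢
          rw [p_self, h0, mul_zero]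
        · exact hvo i j hij
      have := congrArg (fun f => f y) h4
      exact this
    exact v'.ne_zero i h3
  obtain ⟨b0, c, hc, hb0, hb0o, hb0n⟩ := triple_fix (Q := Q) hq (W := D i0) (b := fun i => (v' i : ι → F))
    (fun i => (v' i).2) hvo hvn
  -- transport to the other blocks
  choose e he using fun i => hD.isometric i0 i
  have hep : ∀ i (x y : D i0), polar Q (e i x : ι → F) (e i y) = polar Q (x : ι → F) y := by
    intro i x y
    have h3 := he i (x + y)
    rw [map_add] at h3
    have h4 := he i x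
    have h5 := he i y
    simp only [Submodule.coe_add] at h3
    rw [QuadraticMap.polar, QuadraticMap.polar, h3, h4, h5]
  let b : Fin t → Fin 3 → (ι → F) := fun i j => (e i ⟨b0 j, hb0 j⟩ : ι → F)
  have hbD : ∀ i j, b i j ∈ D i := fun i j => (e i _).2
  have hbn : ∀ i j, Q (b i j) = c := fun i j => by
    change Q (e i ⟨b0 j, hb0 j⟩ : ι → F) = c
    rw [he]; exact hb0n j
  have hbo : ∀ i j j', j ≠ j' → polar Q (b i j) (b i j') = 0 := fun i j j' hjj => by
    change polar Q (e i ⟨b0 j, hb0 j⟩ : ι → F) (e i ⟨b0 j', hb0 j'⟩) = 0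
    rw [hep]; exact hb0o j j' hjj
  have hbo' : ∀ i i' j j', i ≠ i' → polar Q (b i j) (b i' j') = 0 := fun i i' j j' hii =>
    hD.decomp.orthogonal i i' hii _ (hbD i j) _ (hbD i' j')
  let p : Fin (t * 3) ≃ Fin t × Fin 3 := finProdFinEquiv.symm
  let B : Fin (t * 3) → (ι → F) := fun k => b (p k).1 (p k).2
  have hBo : ∀ k k', k ≠ k' → polar Q (B k) (B k') = 0 := by
    intro k k' hkk
    by_cases h1 : (p k).1 = (p k').1
    · have h3 : (p k).2 ≠ (p k').2 := fun h => hkk (p.injective (Prod.ext h1 h))
      change polar Q (b (p k).1 (p k).2) (b (p k').1 (p k').2) = 0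
      rw [← h1]
      exact hbo _ _ _ h3
    · exact hbo' _ _ _ _ h1
  have hBn : ∀ k, Q (B k) = c := fun k => hbn _ _
  have hB0 : ∀ k, B k ≠ 0 := by
    intro k h
    have := hBn k
    rw [h, map_zero] at this
    exact hc this.symm
  have hli : LinearIndependent F B := indep_of_orth (Q := Q) h2' hBo (fun k => by rw [hBn]; exact hc)
  have hcard := H97.AschBlock.card_decomposition hD.decomp.decomp
  have hind : iSupIndep (fun k => Submodule.span F {B k}) := hli.iSupIndep_span_singleton
  refine ⟨fun k => Submodule.span F {B k}, ⟨⟨⟨by omega, Nat.one_pos, fun k => finrank_span_singleton (hB0 k), hind, ?_⟩,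
    ?_, ?_⟩, ?_⟩, ?_⟩
  · have hne : Nonempty (Fin (t * 3)) := ⟨⟨0, by omega⟩⟩
    have h3 := hli.span_eq_top_of_card_eq_finrank (by
      rw [Fintype.card_fin, Module.finrank_fintype_fun_eq_card, hcard])
    rw [← h3, Submodule.span_range_eq_iSup]
  · intro k w hw hw0
    obtain ⟨a, rfl⟩ := Submodule.mem_span_singleton.1 hw
    have ha : a ≠ 0 := by rintro rfl; exact hw0 (zero_smul _ _)
    have hne : polar Q (a • B k) (B k) ≠ 0 := by
      rw [p_smul, p_self, hBn]; exact mul_ne_zero ha (mul_ne_zero h2' hc)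
    exact ⟨⟨B k, Submodule.mem_span_singleton_self _, by rw [polar_comm]; exact hne⟩,
      ⟨B k, Submodule.mem_span_singleton_self _, hne⟩⟩
  · intro k k' hkk x hx y hy
    obtain ⟨a, rfl⟩ := Submodule.mem_span_singleton.1 hx
    obtain ⟨a', rfl⟩ := Submodule.mem_span_singleton.1 hy
    change polar Q (a • B k) (a' • B k') = 0
    rw [p_smul, p_smul', hBo k k' hkk, mul_zero, mul_zero]
  · intro k k'
    refine ⟨(LinearEquiv.toSpanNonzeroSingleton F _ (B k) (hB0 k)).symm.trans
      (LinearEquiv.toSpanNonzeroSingleton F _ (B k') (hB0 k')), fun w => ?_⟩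
    obtain ⟨a, rfl⟩ := (LinearEquiv.toSpanNonzeroSingleton F _ (B k) (hB0 k)).surjective w
    rw [LinearEquiv.trans_apply, LinearEquiv.symm_apply_apply]
    change Q (a • B k') = Q (a • B k)
    rw [Q_smul, Q_smul, hBn, hBn]
  · rintro g ⟨hg1, hg2'⟩
    have hg2 : toEq ι F g ∈ O Q := (mem_iso Q g).1 hg2'
    obtain ⟨σ, hσ⟩ := mem_decompositionStabilizer.1 hg1
    rw [mem_decompositionStabilizer]
    have hline : ∀ k, ∃ k', (Submodule.span F {B k}).map (toEq ι F g : (ι → F) →ₗ[F] (ι → F)) = Submodule.span F {B k'} := by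
      intro k
      have h3 : toEq ι F g (B k) ∈ D (σ (p k).1) := by
        rw [← hσ]
        exact ⟨B k, hbD _ _, rfl⟩
      obtain ⟨j, hj⟩ := norm_three (Q := Q) hq (hfr (σ (p k).1)) hc (hbD (σ (p k).1)) (hbo _) (hbn _) h3
        (by rw [hg2, hBn])
      refine ⟨p.symm (σ (p k).1, j), ?_⟩
      have hBj : B (p.symm (σ (p k).1, j)) = b (σ (p k).1) j := by
        change b (p (p.symm (σ (p k).1, j))).1 (p (p.symm (σ (p k).1, j))).2 = _
        rw [Equiv.apply_symm_apply]
      rw [hBj, Submodule.map_span, Set.image_singleton]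
      change Submodule.span F {toEq ι F g (B k)} = _
      rcases hj with h | h
      · rw [h]
      · rw [h]
        have := Submodule.span_singleton_smul_eq (R := F) (isUnit_neg_one) (b (σ (p k).1) j)
        rw [← this, neg_one_smul]
    choose τ hτ using hline
    have hτinj : Function.Injective τ := by
      intro k k' hkk
      have h3 : (Submodule.span F {B k}).map (toEq ι F g : (ι → F) →ₗ[F] (ι → F)) =
          (Submodule.span F {B k'}).map (toEq ι F g : (ι → F) →ₗ[F] (ι → F)) := by
        rw [hτ, hτ, hkk]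
      have h4 := Submodule.map_injective_of_injective (toEq ι F g).injective h3
      exact hind.injective (fun k h => hB0 k (Submodule.span_singleton_eq_bot.1 h)) h4
    exact ⟨Equiv.ofBijective τ (Finite.injective_iff_bijective.1 hτinj), hτ⟩

end H61.AschNCO
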