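import Mathlib

/-!
Similitudes of the determinant form on 2 x 2 matrices permute the two tensor factors.
-/

set_option autoImplicit false
set_option linter.unusedSectionVars false

namespace H61.Sp8a

open Matrix
open scoped Kronecker

variable {F : Type*} [Field F]

abbrev K2 := Fin 2 × Fin 2

def om (F : Type*) [Field F] : Matrix (Fin 2) (Fin 2) F := !![0, 1; -1, 0]
def WW (F : Type*) [Field F] : Matrix K2 K2 F := om F ⊗ₖ om F

/-- the two factors -/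
def ph0 (X : Matrix (Fin 2) (Fin 2) F) : Matrix K2 K2 F := X ⊗ₖ (1 : Matrix (Fin 2) (Fin 2) F)
def ph1 (X : Matrix (Fin 2) (Fin 2) F) : Matrix K2 K2 F := (1 : Matrix (Fin 2) (Fin 2) F) ⊗ₖ X

lemma ph0_mul (X Y : Matrix (Fin 2) (Fin 2) F) : ph0 (X * Y) = ph0 X * ph0 Y := by
  rw [ph0, ph0, ph0, ← Matrix.mul_kronecker_mul, mul_one]

lemma ph1_mul (X Y : Matrix (Fin 2) (Fin 2) F) : ph1 (X * Y) = ph1 X * ph1 Y := by
  rw [ph1, ph1, ph1, ← Matrix.mul_kronecker_mul, mul_one]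

lemma ph0_one : ph0 (1 : Matrix (Fin 2) (Fin 2) F) = 1 := Matrix.one_kronecker_one
lemma ph1_one : ph1 (1 : Matrix (Fin 2) (Fin 2) F) = 1 := Matrix.one_kronecker_one

lemma ph0_add (X Y : Matrix (Fin 2) (Fin 2) F) : ph0 (X + Y) = ph0 X + ph0 Y := by
  rw [ph0, ph0, ph0, Matrix.add_kronecker]

lemma ph1_add (X Y : Matrix (Fin 2) (Fin 2) F) : ph1 (X + Y) = ph1 X + ph1 Y := by
  rw [ph1, ph1, ph1, Matrix.kronecker_add]

lemma ph0_smul (c : F) (X : Matrix (Fin 2) (Fin 2) F) : ph0 (c • X) = c • ph0 X := by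
  rw [ph0, ph0, Matrix.smul_kronecker]

lemma ph1_smul (c : F) (X : Matrix (Fin 2) (Fin 2) F) : ph1 (c • X) = c • ph1 X := by
  rw [ph1, ph1, Matrix.kronecker_smul]

lemma ph01 (X Y : Matrix (Fin 2) (Fin 2) F) : ph0 X * ph1 Y = X ⊗ₖ Y := by
  rw [ph0, ph1, ← Matrix.mul_kronecker_mul, mul_one, one_mul]

lemma ph10 (X Y : Matrix (Fin 2) (Fin 2) F) : ph1 Y * ph0 X = X ⊗ₖ Y := by
  rw [ph0, ph1, ← Matrix.mul_kronecker_mul, mul_one, one_mul]

lemma ph0_inj {X Y : Matrix (Fin 2) (Fin 2) F} (h : ph0 X = ph0 Y) : X = Y := by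
  ext i j
  have := congrFun (congrFun h (i, 0)) (j, 0)
  simpa [ph0, Matrix.kroneckerMap_apply] using this

lemma ph1_inj {X Y : Matrix (Fin 2) (Fin 2) F} (h : ph1 X = ph1 Y) : X = Y := by
  ext i j
  have := congrFun (congrFun h (0, i)) (0, j)
  simpa [ph1, Matrix.kroneckerMap_apply] using this

/-- trace zero -/
def T0 (A : Matrix (Fin 2) (Fin 2) F) : Prop := A 0 0 + A 1 1 = 0

lemma skew0 {A : Matrix (Fin 2) (Fin 2) F} (h : T0 A) : (ph0 A)ᵀ * WW F + WW F * ph0 A = 0 := by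
  have h1 : A 1 1 = -A 0 0 := by unfold T0 at h; linear_combination h
  ext ⟨i, j⟩ ⟨k, l⟩
  fin_cases i <;> fin_cases j <;> fin_cases k <;> fin_cases l <;>
    simp [ph0, WW, om, Matrix.mul_apply, Fintype.sum_prod_type, Fin.sum_univ_two, Matrix.kroneckerMap_apply, h1]

lemma skew1 {A : Matrix (Fin 2) (Fin 2) F} (h : T0 A) : (ph1 A)ᵀ * WW F + WW F * ph1 A = 0 := by
  have h1 : A 1 1 = -A 0 0 := by unfold T0 at h; linear_combination h
  ext ⟨i, j⟩ ⟨k, l⟩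
  fin_cases i <;> fin_cases j <;> fin_cases k <;> fin_cases l <;>
    simp [ph1, WW, om, Matrix.mul_apply, Fintype.sum_prod_type, Fin.sum_univ_two, Matrix.kroneckerMap_apply, h1]

theorem skew_split (h2 : (2 : F) ≠ 0) {S : Matrix K2 K2 F} (h : Sᵀ * WW F + WW F * S = 0) :
    ∃ A B, T0 A ∧ T0 B ∧ S = ph0 A + ph1 B := by
  have e : ∀ p q : K2, (Sᵀ * WW F + WW F * S) p q = 0 := fun p q => by rw [h]; rfl
  have e1 := e (0, 0) (0, 0)
  have e2 := e (0, 1) (0, 1)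
  have e3 := e (1, 0) (1, 0)
  have e4 := e (1, 1) (1, 1)
  have e5 := e (0, 0) (0, 1)
  have e6 := e (0, 0) (1, 0)
  have e7 := e (0, 0) (1, 1)
  have e8 := e (0, 1) (1, 0)
  have e9 := e (0, 1) (1, 1)
  have e10 := e (1, 0) (1, 1)
  simp [WW, om, Matrix.mul_apply, Fintype.sum_prod_type, Fin.sum_univ_two, Matrix.kroneckerMap_apply] at e1 e2 e3 e4 e5 e6 e7 e8 e9 e10
  have z1 : S (1, 1) (0, 0) = 0 := (mul_eq_zero.mp (by linear_combination e1 : (2 : F) * S (1, 1) (0, 0) = 0)).resolve_left h2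
  have z2 : S (1, 0) (0, 1) = 0 := (mul_eq_zero.mp (by linear_combination -e2 : (2 : F) * S (1, 0) (0, 1) = 0)).resolve_left h2
  have z3 : S (0, 1) (1, 0) = 0 := (mul_eq_zero.mp (by linear_combination -e3 : (2 : F) * S (0, 1) (1, 0) = 0)).resolve_left h2
  have z4 : S (0, 0) (1, 1) = 0 := (mul_eq_zero.mp (by linear_combination e4 : (2 : F) * S (0, 0) (1, 1) = 0)).resolve_left h2
  have y5 : S (1, 1) (0, 1) = S (1, 0) (0, 0) := by linear_combination e5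
  have y6 : S (1, 1) (1, 0) = S (0, 1) (0, 0) := by linear_combination e6
  have y7 : S (1, 1) (1, 1) = -S (0, 0) (0, 0) := by linear_combination e7
  have y8 : S (1, 0) (1, 0) = -S (0, 1) (0, 1) := by linear_combination -e8
  have y9 : S (1, 0) (1, 1) = S (0, 0) (0, 1) := by linear_combination -e9
  have y10 : S (0, 1) (1, 1) = S (0, 0) (1, 0) := by linear_combination -e10
  refine ⟨!![(S (0, 0) (0, 0) + S (0, 1) (0, 1)) / 2, S (0, 0) (1, 0); S (1, 0) (0, 0), -((S (0, 0) (0, 0) + S (0, 1) (0, 1)) / 2)],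
    !![(S (0, 0) (0, 0) - S (0, 1) (0, 1)) / 2, S (0, 0) (0, 1); S (0, 1) (0, 0), -((S (0, 0) (0, 0) - S (0, 1) (0, 1)) / 2)],
    ?_, ?_, ?_⟩
  · simp [T0]
  · simp [T0]
  · ext ⟨i, j⟩ ⟨k, l⟩
    fin_cases i <;> fin_cases j <;> fin_cases k <;> fin_cases l <;>
      simp [ph0, ph1, Matrix.kroneckerMap_apply, z1, z2, z3, z4, y5, y6, y7, y8, y9, y10] <;> field_simp <;> ring

lemma T0.smul {A : Matrix (Fin 2) (Fin 2) F} (h : T0 A) (c : F) : T0 (c • A) := by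
  unfold T0 at *
  simp only [Matrix.smul_apply, smul_eq_mul]
  linear_combination c * h

lemma T0.add {A B : Matrix (Fin 2) (Fin 2) F} (h : T0 A) (h' : T0 B) : T0 (A + B) := by
  unfold T0 at *
  simp only [Matrix.add_apply]
  linear_combination h + h'

lemma T0.anti {A B : Matrix (Fin 2) (Fin 2) F} (h : T0 A) (h' : T0 B) : A * B + B * A =
    (2 * (A 0 0 * B 0 0) + A 0 1 * B 1 0 + A 1 0 * B 0 1) • (1 : Matrix (Fin 2) (Fin 2) F) := by
  have h1 : A 1 1 = -A 0 0 := by unfold T0 at h; linear_combination h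
  have h2 : B 1 1 = -B 0 0 := by unfold T0 at h'; linear_combination h'
  ext i j
  fin_cases i <;> fin_cases j <;> simp [Matrix.mul_apply, Fin.sum_univ_two, h1, h2] <;> ring

lemma T0.sq (h2 : (2 : F) ≠ 0) {A : Matrix (Fin 2) (Fin 2) F} (h : T0 A) : ∃ c : F, A * A = c • (1 : Matrix (Fin 2) (Fin 2) F) := by
  have e := h.anti h
  refine ⟨(2 : F)⁻¹ * (2 * (A 0 0 * A 0 0) + A 0 1 * A 1 0 + A 1 0 * A 0 1), ?_⟩
  rw [← smul_smul, ← e, ← two_smul F (A * A), smul_smul, inv_mul_cancel₀ h2, one_smul]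

theorem sq_scalar (h2 : (2 : F) ≠ 0) {A B : Matrix (Fin 2) (Fin 2) F} (hA : T0 A) (hB : T0 B) {c : F}
    (h : (ph0 A + ph1 B) * (ph0 A + ph1 B) = c • (1 : Matrix K2 K2 F)) : A = 0 ∨ B = 0 := by
  obtain ⟨a, ha⟩ := hA.sq h2
  obtain ⟨b, hb⟩ := hB.sq h2
  have e : (2 : F) • (A ⊗ₖ B) = (c - a - b) • (1 : Matrix K2 K2 F) := by
    have e1 : (ph0 A + ph1 B) * (ph0 A + ph1 B) = ph0 (A * A) + ph1 (B * B) + (2 : F) • (A ⊗ₖ B) := by
      rw [add_mul, mul_add, mul_add, ← ph0_mul, ← ph1_mul, ph01, ph10, two_smul]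
      abel
    rw [e1, ha, hb, ph0_smul, ph1_smul, ph0_one, ph1_one] at h
    rw [sub_smul, sub_smul, ← h]
    abel
  have hent : ∀ i j k l, 2 * (A i k * B j l) = (c - a - b) * (if i = k ∧ j = l then 1 else 0) := by
    intro i j k l
    have := congrFun (congrFun e (i, j)) (k, l)
    rw [Matrix.smul_apply, Matrix.smul_apply, Matrix.kroneckerMap_apply, Matrix.one_apply, smul_eq_mul, smul_eq_mul] at this
    rw [this]
    simp only [Prod.mk.injEq]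
  have hz : ∀ i j k l, ¬ (i = k ∧ j = l) → A i k * B j l = 0 := by
    intro i j k l hne
    have := hent i j k l
    rw [if_neg hne, mul_zero] at this
    exact (mul_eq_zero.mp this).resolve_left h2
  have hA1 : A 1 1 = -A 0 0 := by unfold T0 at hA; linear_combination hA
  have hB1 : B 1 1 = -B 0 0 := by unfold T0 at hB; linear_combination hB
  have hd : A 0 0 * B 0 0 = 0 := by
    have e1 := hent 0 0 0 0
    have e2 := hent 0 1 0 1
    rw [if_pos ⟨rfl, rfl⟩] at e1 e2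
    rw [hB1] at e2
    have : (2 : F) * (2 * (A 0 0 * B 0 0)) = 0 := by linear_combination e1 - e2
    exact (mul_eq_zero.mp ((mul_eq_zero.mp this).resolve_left h2)).resolve_left h2
  by_cases hA0 : A = 0
  · exact Or.inl hA0
  · right
    have key : A 0 0 ≠ 0 ∨ A 0 1 ≠ 0 ∨ A 1 0 ≠ 0 := by
      by_contra hcon
      push Not at hcon
      apply hA0
      ext i j
      fin_cases i <;> fin_cases j <;> simp [hcon.1, hcon.2.1, hcon.2.2, hA1]
    rcases key with k | k | k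
    · have b00 := (mul_eq_zero.mp hd).resolve_left k
      have b01 := (mul_eq_zero.mp (hz 0 0 0 1 (by simp))).resolve_left k
      have b10 := (mul_eq_zero.mp (hz 0 1 0 0 (by simp))).resolve_left k
      ext i j
      fin_cases i <;> fin_cases j <;> simp [b00, b01, b10, hB1]
    · ext i j
      exact (mul_eq_zero.mp (hz 0 i 1 j (by simp))).resolve_left k
    · ext i j
      exact (mul_eq_zero.mp (hz 1 i 0 j (by simp))).resolve_left k

section conj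

variable {b : GL K2 F}

def cb (b : GL K2 F) (S : Matrix K2 K2 F) : Matrix K2 K2 F := (b : Matrix K2 K2 F) * S * ((b⁻¹ : GL K2 F) : Matrix K2 K2 F)

lemma cb_mul (S S' : Matrix K2 K2 F) : cb b (S * S') = cb b S * cb b S' := by
  unfold cb
  simp only [mul_assoc]
  rw [← mul_assoc ((b⁻¹ : GL K2 F) : Matrix K2 K2 F) (b : Matrix K2 K2 F), Units.inv_mul, one_mul]

lemma cb_add (S S' : Matrix K2 K2 F) : cb b (S + S') = cb b S + cb b S' := by
  unfold cb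
  rw [mul_add, add_mul]

lemma cb_smul (c : F) (S : Matrix K2 K2 F) : cb b (c • S) = c • cb b S := by
  unfold cb
  rw [mul_smul_comm, smul_mul_assoc]

lemma cb_one : cb b (1 : Matrix K2 K2 F) = 1 := by
  unfold cb
  rw [mul_one, Units.mul_inv]

lemma cb_inj {S S' : Matrix K2 K2 F} (h : cb b S = cb b S') : S = S' := by
  unfold cb at h
  have e := congrArg (fun z => ((b⁻¹ : GL K2 F) : Matrix K2 K2 F) * z * (b : Matrix K2 K2 F)) h
  simpa [mul_assoc] using e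

lemma cb_skew {c : F} (hb : (b : Matrix K2 K2 F)ᵀ * WW F * (b : Matrix K2 K2 F) = c • WW F) {S : Matrix K2 K2 F}
    (h : Sᵀ * WW F + WW F * S = 0) : (cb b S)ᵀ * WW F + WW F * cb b S = 0 := by
  have hi : (b : Matrix K2 K2 F) * ((b⁻¹ : GL K2 F) : Matrix K2 K2 F) = 1 := Units.mul_inv b
  have hit : ((b⁻¹ : GL K2 F) : Matrix K2 K2 F)ᵀ * (b : Matrix K2 K2 F)ᵀ = 1 := by
    rw [← Matrix.transpose_mul, hi, Matrix.transpose_one]
  have e1 : (b : Matrix K2 K2 F)ᵀ * WW F = c • (WW F * ((b⁻¹ : GL K2 F) : Matrix K2 K2 F)) := by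
    calc (b : Matrix K2 K2 F)ᵀ * WW F = (b : Matrix K2 K2 F)ᵀ * WW F * (b : Matrix K2 K2 F) * ((b⁻¹ : GL K2 F) : Matrix K2 K2 F) := by
          rw [mul_assoc _ (b : Matrix K2 K2 F), hi, mul_one]
      _ = _ := by rw [hb, smul_mul_assoc]
  have e2 : WW F * (b : Matrix K2 K2 F) = c • (((b⁻¹ : GL K2 F) : Matrix K2 K2 F)ᵀ * WW F) := by
    calc WW F * (b : Matrix K2 K2 F) = ((b⁻¹ : GL K2 F) : Matrix K2 K2 F)ᵀ * ((b : Matrix K2 K2 F)ᵀ * WW F * (b : Matrix K2 K2 F)) := by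
          rw [mul_assoc, ← mul_assoc, hit, one_mul]
      _ = _ := by rw [hb, mul_smul_comm]
  unfold cb
  rw [Matrix.transpose_mul, Matrix.transpose_mul, mul_assoc, mul_assoc, e1, mul_smul_comm, mul_smul_comm,
    ← mul_assoc (WW F), ← mul_assoc (WW F), e2, smul_mul_assoc, smul_mul_assoc, ← smul_add]
  have e3 : ((b⁻¹ : GL K2 F) : Matrix K2 K2 F)ᵀ * (Sᵀ * (WW F * ((b⁻¹ : GL K2 F) : Matrix K2 K2 F))) +
      ((b⁻¹ : GL K2 F) : Matrix K2 K2 F)ᵀ * WW F * S * ((b⁻¹ : GL K2 F) : Matrix K2 K2 F) =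
      ((b⁻¹ : GL K2 F) : Matrix K2 K2 F)ᵀ * (Sᵀ * WW F + WW F * S) * ((b⁻¹ : GL K2 F) : Matrix K2 K2 F) := by
    rw [mul_add, add_mul]
    simp only [mul_assoc]
  rw [e3, h, mul_zero, zero_mul, smul_zero]

end conj

/-- a conjugate of a factor lies in one of the factors -/
theorem dich (h2 : (2 : F) ≠ 0) {b : GL K2 F} {c : F} (hb : (b : Matrix K2 K2 F)ᵀ * WW F * (b : Matrix K2 K2 F) = c • WW F)
    (ph : Matrix (Fin 2) (Fin 2) F → Matrix K2 K2 F) (hadd : ∀ X Y, ph (X + Y) = ph X + ph Y)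
    (hmul : ∀ X Y, ph (X * Y) = ph X * ph Y) (hsm : ∀ (r : F) X, ph (r • X) = r • ph X) (hone : ph 1 = 1)
    (hsk : ∀ A, T0 A → (ph A)ᵀ * WW F + WW F * ph A = 0) :
    (∀ A, T0 A → ∃ A', T0 A' ∧ cb b (ph A) = ph0 A') ∨ (∀ A, T0 A → ∃ A', T0 A' ∧ cb b (ph A) = ph1 A') := by
  have key : ∀ A, T0 A → ∃ A' B', T0 A' ∧ T0 B' ∧ cb b (ph A) = ph0 A' + ph1 B' ∧ (A' = 0 ∨ B' = 0) := by
    intro A hA
    obtain ⟨A', B', h1, h2', h3⟩ := skew_split h2 (cb_skew hb (hsk A hA))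
    obtain ⟨r, hr⟩ := hA.sq h2
    refine ⟨A', B', h1, h2', h3, sq_scalar h2 h1 h2' (c := r) ?_⟩
    rw [← h3, ← cb_mul, ← hmul, hr, hsm, hone, cb_smul, cb_one]
  have z0 : ph0 (0 : Matrix (Fin 2) (Fin 2) F) = 0 := by
    have := ph0_smul (0 : F) (0 : Matrix (Fin 2) (Fin 2) F)
    rwa [zero_smul, zero_smul] at this
  have z1 : ph1 (0 : Matrix (Fin 2) (Fin 2) F) = 0 := by
    have := ph1_smul (0 : F) (0 : Matrix (Fin 2) (Fin 2) F)
    rwa [zero_smul, zero_smul] at this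
  have hT0 : T0 (0 : Matrix (Fin 2) (Fin 2) F) := by simp [T0]
  by_contra hcon
  push Not at hcon
  obtain ⟨⟨A1, hA1, n1⟩, ⟨A2, hA2, n2⟩⟩ := hcon
  obtain ⟨P1, Q1, p1, q1, r1, s1⟩ := key A1 hA1
  obtain ⟨P2, Q2, p2, q2, r2, s2⟩ := key A2 hA2
  have hQ1 : Q1 ≠ 0 := by
    rintro rfl
    exact n1 P1 p1 (by rw [r1, z1, add_zero])
  have hP2 : P2 ≠ 0 := by
    rintro rfl
    exact n2 Q2 q2 (by rw [r2, z0, zero_add])
  have hP1 := s1.resolve_right hQ1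
  have hQ2 := s2.resolve_left hP2
  subst hP1 hQ2
  rw [z0, zero_add] at r1
  rw [z1, add_zero] at r2
  obtain ⟨r, hr⟩ := (hA1.add hA2).sq h2
  have e : (ph0 P2 + ph1 Q1) * (ph0 P2 + ph1 Q1) = r • (1 : Matrix K2 K2 F) := by
    have : ph0 P2 + ph1 Q1 = cb b (ph (A1 + A2)) := by rw [hadd, cb_add, r1, r2, add_comm]
    rw [this, ← cb_mul, ← hmul, hr, hsm, hone, cb_smul, cb_one]
  rcases sq_scalar h2 p2 q1 e with h | h
  · exact hP2 h
  · exact hQ1 h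

/-- from trace zero matrices to all matrices -/
lemma extend (h2 : (2 : F) ≠ 0) {b : GL K2 F} {ph ps : Matrix (Fin 2) (Fin 2) F → Matrix K2 K2 F}
    (hadd : ∀ X Y, ph (X + Y) = ph X + ph Y) (hsm : ∀ (r : F) X, ph (r • X) = r • ph X) (hone : ph 1 = 1)
    (hadd' : ∀ X Y, ps (X + Y) = ps X + ps Y) (hsm' : ∀ (r : F) X, ps (r • X) = r • ps X) (hone' : ps 1 = 1)
    (h : ∀ A, T0 A → ∃ A', T0 A' ∧ cb b (ph A) = ps A') : ∀ X, ∃ Y, cb b (ph X) = ps Y := by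
  intro X
  set r := (X 0 0 + X 1 1) / 2 with hr
  obtain ⟨A', -, hA'⟩ := h (X + (-r) • 1) (by
    unfold T0
    simp only [Matrix.add_apply, Matrix.smul_apply, Matrix.one_apply_eq, smul_eq_mul, mul_one]
    rw [hr]; field_simp; ring)
  refine ⟨A' + r • 1, ?_⟩
  have e : X = (X + (-r) • 1) + r • 1 := by
    rw [neg_smul]; abel
  rw [e, hadd, cb_add, hA', hsm, hone, cb_smul, cb_one, hadd', hsm', hone']

/-- the two factors do not go to the same factor -/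
lemma excl (h2 : (2 : F) ≠ 0) {b : GL K2 F} {ps : Matrix (Fin 2) (Fin 2) F → Matrix K2 K2 F}
    (hmul : ∀ X Y, ps (X * Y) = ps X * ps Y) (hsm : ∀ (r : F) X, ps (r • X) = r • ps X) (hone : ps 1 = 1)
    (hinj : ∀ X Y, ps X = ps Y → X = Y)
    (h0 : ∀ A, T0 A → ∃ A', T0 A' ∧ cb b (ph0 A) = ps A') (h1 : ∀ A, T0 A → ∃ A', T0 A' ∧ cb b (ph1 A) = ps A') : False := by
  have hT : T0 (!![1, 0; 0, -1] : Matrix (Fin 2) (Fin 2) F) := by simp [T0]
  obtain ⟨A, hA, e0⟩ := h0 _ hT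
  obtain ⟨B, hB, e1⟩ := h1 _ hT
  have hAB : A * B = B * A := by
    apply hinj
    rw [hmul, hmul, ← e0, ← e1, ← cb_mul, ← cb_mul, ph01, ph10]
  have e2 := hA.anti hB
  rw [← hAB, ← two_smul F (A * B)] at e2
  have e3 : A * B = ((2 : F)⁻¹ * (2 * (A 0 0 * B 0 0) + A 0 1 * B 1 0 + A 1 0 * B 0 1)) • (1 : Matrix (Fin 2) (Fin 2) F) := by
    rw [← smul_smul, ← e2, smul_smul, inv_mul_cancel₀ h2, one_smul]
  set r := ((2 : F)⁻¹ * (2 * (A 0 0 * B 0 0) + A 0 1 * B 1 0 + A 1 0 * B 0 1)) with hr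
  have e4 : cb b ((!![1, 0; 0, -1] : Matrix (Fin 2) (Fin 2) F) ⊗ₖ (!![1, 0; 0, -1] : Matrix (Fin 2) (Fin 2) F)) =
      cb b (r • (1 : Matrix K2 K2 F)) := by
    rw [← ph01, cb_mul, e0, e1, ← hmul, e3, hsm, hone, cb_smul, cb_one]
  have e5 := cb_inj e4
  have e6 := congrFun (congrFun e5 (0, 0)) (0, 0)
  have e7 := congrFun (congrFun e5 (0, 1)) (0, 1)
  simp [Matrix.kroneckerMap_apply] at e6 e7
  apply h2
  linear_combination e6 - e7

/-- **similitudes of the determinant form permute the factors** -/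
theorem factor_perm (h2 : (2 : F) ≠ 0) {b : GL K2 F} {c : F}
    (hb : (b : Matrix K2 K2 F)ᵀ * WW F * (b : Matrix K2 K2 F) = c • WW F) :
    ((∀ X, ∃ Y, cb b (ph0 X) = ph0 Y) ∧ (∀ X, ∃ Y, cb b (ph1 X) = ph1 Y)) ∨
    ((∀ X, ∃ Y, cb b (ph0 X) = ph1 Y) ∧ (∀ X, ∃ Y, cb b (ph1 X) = ph0 Y)) := by
  have d0 := dich h2 hb ph0 ph0_add ph0_mul ph0_smul ph0_one (fun A hA => skew0 hA)
  have d1 := dich h2 hb ph1 ph1_add ph1_mul ph1_smul ph1_one (fun A hA => skew1 hA)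
  rcases d0 with d0 | d0 <;> rcases d1 with d1 | d1
  · exact (excl h2 ph0_mul ph0_smul ph0_one (fun _ _ => ph0_inj) d0 d1).elim
  · left
    exact ⟨extend h2 ph0_add ph0_smul ph0_one ph0_add ph0_smul ph0_one d0,
      extend h2 ph1_add ph1_smul ph1_one ph1_add ph1_smul ph1_one d1⟩
  · right
    exact ⟨extend h2 ph0_add ph0_smul ph0_one ph1_add ph1_smul ph1_one d0,
      extend h2 ph1_add ph1_smul ph1_one ph0_add ph0_smul ph0_one d1⟩
  · exact (excl h2 ph1_mul ph1_smul ph1_one (fun _ _ => ph1_inj) d0 d1).elim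

end H61.Sp8a
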