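import Mathlib
import Cfsg.Agent.Lib.H97.AschSpElim
import Cfsg.Agent.Lib.H96.AschTens
import Cfsg.Agent.Lib.H61.Sp8a

/-!
Tensor structures 2 x 4 with a second factor of plus type are contained in tensor cubes.
-/

set_option autoImplicit false
set_option linter.unusedSectionVars false

namespace H61.Sp8b

open Cfsg Cfsg.Geo Matrix H97.AschRad H97.AschEnv H97.AschNonab H97.AschGrp H97.AschLinear H97.AschUnits H97.AschTensor
open H97.AschForm H97.AschReal H97.AschNil H97.AschTwo H97.AschWreath H97.AschWreathNorm H97.AschTF H97.AschTP H97.AschPos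
open H97.AschSL2
open H96.AschSympType1 H96.AschSympType2 H96.AschSympType3 H96.AschSympType5 H96.AschSympEx H96.AschAdj
open H96.AschSp H96.AschSp2 H96.AschSubForm H61.Sp8a
open scoped Kronecker

variable {F : Type*} [Field F]

/-- left and right factors as algebra homomorphisms -/
noncomputable def kl (α β : Type) [Fintype α] [DecidableEq α] [Fintype β] [DecidableEq β] (F : Type*) [Field F] :
    Matrix α α F →ₐ[F] Matrix (α × β) (α × β) F :=
  AlgHom.ofLinearMap
    { toFun := fun X => X ⊗ₖ (1 : Matrix β β F)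
      map_add' := fun X Y => Matrix.add_kronecker X Y 1
      map_smul' := fun c X => Matrix.smul_kronecker c X 1 } Matrix.one_kronecker_one
    (fun X Y => by
      change (X * Y) ⊗ₖ (1 : Matrix β β F) = (X ⊗ₖ 1) * (Y ⊗ₖ 1)
      rw [← Matrix.mul_kronecker_mul, mul_one])

noncomputable def kr (α β : Type) [Fintype α] [DecidableEq α] [Fintype β] [DecidableEq β] (F : Type*) [Field F] :
    Matrix β β F →ₐ[F] Matrix (α × β) (α × β) F :=
  AlgHom.ofLinearMap
    { toFun := fun X => (1 : Matrix α α F) ⊗ₖ X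
      map_add' := fun X Y => Matrix.kronecker_add 1 X Y
      map_smul' := fun c X => Matrix.kronecker_smul c 1 X } Matrix.one_kronecker_one
    (fun X Y => by
      change (1 : Matrix α α F) ⊗ₖ (X * Y) = (1 ⊗ₖ X) * (1 ⊗ₖ Y)
      rw [← Matrix.mul_kronecker_mul, mul_one])

lemma kl_apply {α β : Type} [Fintype α] [DecidableEq α] [Fintype β] [DecidableEq β] (X : Matrix α α F) :
    kl α β F X = X ⊗ₖ (1 : Matrix β β F) := rfl

lemma kr_apply {α β : Type} [Fintype α] [DecidableEq α] [Fintype β] [DecidableEq β] (X : Matrix β β F) :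
    kr α β F X = (1 : Matrix α α F) ⊗ₖ X := rfl

/-- the group SL2 -/
def N0 (F : Type*) [Field F] : Subgroup (GL (Fin 2) F) := specialLinear (Fin 2) F

lemma mem_N0 {a : GL (Fin 2) F} : a ∈ N0 F ↔ (a : Matrix (Fin 2) (Fin 2) F).det = 1 := by
  unfold N0 specialLinear
  rw [MonoidHom.mem_ker, Units.ext_iff]
  rfl

/-- the two transvections -/
def tu (F : Type*) [Field F] : GL (Fin 2) F :=
  ⟨!![1, 1; 0, 1], !![1, -1; 0, 1], by
    ext i j; fin_cases i <;> fin_cases j <;> simp [Matrix.mul_apply, Fin.sum_univ_two], by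
    ext i j; fin_cases i <;> fin_cases j <;> simp [Matrix.mul_apply, Fin.sum_univ_two]⟩

def tl' (F : Type*) [Field F] : GL (Fin 2) F :=
  ⟨!![1, 0; 1, 1], !![1, 0; -1, 1], by
    ext i j; fin_cases i <;> fin_cases j <;> simp [Matrix.mul_apply, Fin.sum_univ_two], by
    ext i j; fin_cases i <;> fin_cases j <;> simp [Matrix.mul_apply, Fin.sum_univ_two]⟩

lemma tu_mem : tu F ∈ N0 F := by rw [mem_N0]; simp [tu, Matrix.det_fin_two]
lemma tl_mem : tl' F ∈ N0 F := by rw [mem_N0]; simp [tl', Matrix.det_fin_two]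

lemma full_N0 : Full (N0 F) := by
  rw [Full, eq_top_iff]
  intro X _
  have h1 : (!![0, 1; 0, 0] : Matrix (Fin 2) (Fin 2) F) ∈ env (N0 F) := by
    have := (env (N0 F)).sub_mem (mem_env (tu_mem (F := F))) (env (N0 F)).one_mem
    have e : ((tu F : GL (Fin 2) F) : Matrix (Fin 2) (Fin 2) F) - 1 = !![0, 1; 0, 0] := by
      ext i j; fin_cases i <;> fin_cases j <;> simp [tu]
    rwa [e] at this
  have h2 : (!![0, 0; 1, 0] : Matrix (Fin 2) (Fin 2) F) ∈ env (N0 F) := by
    have := (env (N0 F)).sub_mem (mem_env (tl_mem (F := F))) (env (N0 F)).one_mem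
    have e : ((tl' F : GL (Fin 2) F) : Matrix (Fin 2) (Fin 2) F) - 1 = !![0, 0; 1, 0] := by
      ext i j; fin_cases i <;> fin_cases j <;> simp [tl']
    rwa [e] at this
  have h3 := (env (N0 F)).mul_mem h1 h2
  have h4 := (env (N0 F)).mul_mem h2 h1
  have e : X = X 0 0 • ((!![0, 1; 0, 0] : Matrix (Fin 2) (Fin 2) F) * !![0, 0; 1, 0]) + X 0 1 • !![0, 1; 0, 0] +
      (X 1 0 • !![0, 0; 1, 0] + X 1 1 • ((!![0, 0; 1, 0] : Matrix (Fin 2) (Fin 2) F) * !![0, 1; 0, 0])) := by
    ext i j; fin_cases i <;> fin_cases j <;> simp [Matrix.mul_apply, Fin.sum_univ_two]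
  rw [e]
  exact (env (N0 F)).add_mem ((env (N0 F)).add_mem ((env (N0 F)).smul_mem h3 _) ((env (N0 F)).smul_mem h1 _))
    ((env (N0 F)).add_mem ((env (N0 F)).smul_mem h2 _) ((env (N0 F)).smul_mem h4 _))

/-- determinant one matrices preserve alternating forms -/
lemma alt_pres {G : Matrix (Fin 2) (Fin 2) F} (h0 : G 0 0 = 0) (h1 : G 1 1 = 0) (h2 : G 1 0 = -G 0 1) {a : Matrix (Fin 2) (Fin 2) F}
    (ha : a.det = 1) : aᵀ * G * a = G := by
  rw [Matrix.det_fin_two] at ha
  ext i j
  fin_cases i <;> fin_cases j <;> simp [Matrix.mul_apply, Fin.sum_univ_two, h0, h1, h2]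
  · ring
  · linear_combination G 0 1 * ha
  · linear_combination (-G 0 1) * ha
  · ring

/-- forms fixed by SL2 are symplectic -/
lemma symp_of_fix {G : Matrix (Fin 2) (Fin 2) F} (hfix : FixesForm (matrixSet (N0 F)) (formOfGram (RingEquiv.refl F) G))
    (hnd : IsNondegenerateForm (formOfGram (RingEquiv.refl F) G)) : IsSymplecticForm (formOfGram (RingEquiv.refl F) G) := by
  have e : ∀ x y : Fin 2 → F, formOfGram (RingEquiv.refl F) G x y = x 0 * G 0 0 * y 0 + x 0 * G 0 1 * y 1 +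
      (x 1 * G 1 0 * y 0 + x 1 * G 1 1 * y 1) := by
    intro x y
    simp [formOfGram, Fin.sum_univ_two]
  have u1 := hfix _ ⟨tu F, tu_mem, rfl⟩ (Pi.single 1 1) (Pi.single 1 1)
  have u2 := hfix _ ⟨tu F, tu_mem, rfl⟩ (Pi.single 0 1) (Pi.single 1 1)
  have u3 := hfix _ ⟨tl' F, tl_mem, rfl⟩ (Pi.single 0 1) (Pi.single 1 1)
  rw [e, e] at u1 u2 u3
  simp [tu, tl'] at u1 u2 u3
  have g00 : G 0 0 = 0 := by linear_combination u2
  have g11 : G 1 1 = 0 := by linear_combination u3
  have g10 : G 1 0 = -G 0 1 := by linear_combination u1 - g00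
  have hskew : ∀ v w, formOfGram (RingEquiv.refl F) G v w = -formOfGram (RingEquiv.refl F) G w v := by
    intro v w
    rw [e, e, g00, g11, g10]; ring
  refine ⟨(fog_sesq _ _).to_bilinear, hskew, ?_, hnd⟩
  intro v
  rw [e, g00, g11, g10]; ring

end H61.Sp8b
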