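import Mathlib
import Cfsg.Agent.Lib.H97.AschSpElim
import Cfsg.Agent.Lib.H96.AschTens

/-!
Class 6 groups of order 32 in Sp4(3) from four generators.
-/

set_option autoImplicit false
set_option linter.unusedSectionVars false

namespace H61.SpQ4

open Cfsg Cfsg.Geo Matrix H97.AschRad H97.AschEnv H97.AschNonab H97.AschGrp H97.AschLinear
open H97.AschForm H97.AschReal H97.AschNil
open H96.AschSympType1 H96.AschSympType2 H96.AschSympType3 H96.AschSympType5 H96.AschSympEx H96.AschAdj
open H96.AschSp H96.AschSp2 H96.AschSubForm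

variable {ι : Type} [Fintype ι] [DecidableEq ι] {F : Type*} [Field F]

/-- commuting up to sign -/
def PM (g y : Matrix ι ι F) : Prop := g * y = y * g ∨ g * y = -(y * g)

lemma PM.one (y : Matrix ι ι F) : PM 1 y := Or.inl (by rw [one_mul, mul_one])

lemma PM.mul {g g' y : Matrix ι ι F} (h : PM g y) (h' : PM g' y) : PM (g * g') y := by
  rcases h with h | h <;> rcases h' with h' | h'
  · left; rw [mul_assoc, h', ← mul_assoc, h, mul_assoc]
  · right; rw [mul_assoc, h', mul_neg, ← mul_assoc, h, mul_assoc]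
  · right; rw [mul_assoc, h', ← mul_assoc, h, neg_mul, mul_assoc]
  · left; rw [mul_assoc, h', mul_neg, ← mul_assoc, h, neg_mul, neg_neg, mul_assoc]

lemma PM.mul_right {g y y' : Matrix ι ι F} (h : PM g y) (h' : PM g y') : PM g (y * y') := by
  rcases h with h | h <;> rcases h' with h' | h'
  · left; rw [← mul_assoc, h, mul_assoc, h', ← mul_assoc]
  · right; rw [← mul_assoc, h, mul_assoc, h', mul_neg, ← mul_assoc]
  · right; rw [← mul_assoc, h, neg_mul, mul_assoc, h', ← mul_assoc]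
  · left; rw [← mul_assoc, h, neg_mul, mul_assoc, h', mul_neg, neg_neg, ← mul_assoc]

lemma PM.smul {g y : Matrix ι ι F} (h : PM g y) (s : F) : PM g (s • y) := by
  rcases h with h | h
  · left; rw [mul_smul_comm, h, smul_mul_assoc]
  · right; rw [mul_smul_comm, h, smul_mul_assoc, smul_neg]

lemma PM.inv {g : GL ι F} {y : Matrix ι ι F} (h : PM (g : Matrix ι ι F) y) : PM ((g⁻¹ : GL ι F) : Matrix ι ι F) y := by
  have h1 : ((g⁻¹ : GL ι F) : Matrix ι ι F) * (g : Matrix ι ι F) = 1 := Units.inv_mul g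
  have h2 : (g : Matrix ι ι F) * ((g⁻¹ : GL ι F) : Matrix ι ι F) = 1 := Units.mul_inv g
  set a := (g : Matrix ι ι F)
  set b := ((g⁻¹ : GL ι F) : Matrix ι ι F)
  rcases h with h | h
  · left
    calc b * y = b * (y * a) * b := by rw [mul_assoc, mul_assoc, h2, mul_one]
      _ = b * (a * y) * b := by rw [h]
      _ = y * b := by rw [← mul_assoc, h1, one_mul]
  · right
    calc b * y = -(b * -(y * a) * b) := by rw [mul_neg, neg_mul, neg_neg, mul_assoc, mul_assoc, h2, mul_one]
      _ = -(b * (a * y) * b) := by rw [h]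
      _ = -(y * b) := by rw [← mul_assoc, h1, one_mul]

/-- products of two elements commuting up to sign with `y` in opposite ways -/
lemma PM.comm {a b y : GL ι F} (ha : PM (a : Matrix ι ι F) (y : Matrix ι ι F)) (hb : PM (b : Matrix ι ι F) (y : Matrix ι ι F)) :
    ((a * b * a⁻¹ * b⁻¹ : GL ι F) : Matrix ι ι F) * (y : Matrix ι ι F) = (y : Matrix ι ι F) * ((a * b * a⁻¹ * b⁻¹ : GL ι F) : Matrix ι ι F) := by
  have key : ∀ {g : GL ι F}, PM (g : Matrix ι ι F) (y : Matrix ι ι F) → ∃ s : F, s * s = 1 ∧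
      (g : Matrix ι ι F) * (y : Matrix ι ι F) = s • ((y : Matrix ι ι F) * (g : Matrix ι ι F)) ∧
      ((g⁻¹ : GL ι F) : Matrix ι ι F) * (y : Matrix ι ι F) = s • ((y : Matrix ι ι F) * ((g⁻¹ : GL ι F) : Matrix ι ι F)) := by
    intro g hg
    have h2 : (g : Matrix ι ι F) * ((g⁻¹ : GL ι F) : Matrix ι ι F) = 1 := Units.mul_inv g
    have h1 : ((g⁻¹ : GL ι F) : Matrix ι ι F) * (g : Matrix ι ι F) = 1 := Units.inv_mul g
    rcases hg with h | h
    · refine ⟨1, by ring, by rw [one_smul, h], ?_⟩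
      rw [one_smul]
      calc ((g⁻¹ : GL ι F) : Matrix ι ι F) * (y : Matrix ι ι F)
          = ((g⁻¹ : GL ι F) : Matrix ι ι F) * ((y : Matrix ι ι F) * (g : Matrix ι ι F)) * ((g⁻¹ : GL ι F) : Matrix ι ι F) := by
            rw [mul_assoc, mul_assoc, h2, mul_one]
        _ = (y : Matrix ι ι F) * ((g⁻¹ : GL ι F) : Matrix ι ι F) := by rw [← h, ← mul_assoc, h1, one_mul]
    · refine ⟨-1, by ring, by rw [neg_one_smul, h], ?_⟩
      rw [neg_one_smul]
      calc ((g⁻¹ : GL ι F) : Matrix ι ι F) * (y : Matrix ι ι F)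
          = -(((g⁻¹ : GL ι F) : Matrix ι ι F) * (-((y : Matrix ι ι F) * (g : Matrix ι ι F))) * ((g⁻¹ : GL ι F) : Matrix ι ι F)) := by
            rw [mul_neg, neg_mul, neg_neg, mul_assoc, mul_assoc, h2, mul_one]
        _ = -((y : Matrix ι ι F) * ((g⁻¹ : GL ι F) : Matrix ι ι F)) := by rw [← h, ← mul_assoc, h1, one_mul]
  obtain ⟨s, hs, h1, h2⟩ := key ha
  obtain ⟨t, ht, h3, h4⟩ := key hb
  rw [Units.val_mul, Units.val_mul, Units.val_mul]
  rw [mul_assoc, h4, mul_smul_comm, ← mul_assoc, mul_assoc ((a : Matrix ι ι F) * (b : Matrix ι ι F)), h2, mul_smul_comm,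
    ← mul_assoc, mul_assoc (a : Matrix ι ι F), h3, mul_smul_comm, ← mul_assoc, h1]
  simp only [smul_mul_assoc, smul_smul, mul_assoc]
  have : t * (s * (t * s)) = 1 := by
    calc t * (s * (t * s)) = (s * s) * (t * t) := by ring
      _ = 1 := by rw [hs, ht, one_mul]
  rw [this, one_smul]

/-- four generators -/
structure Q4 (f : (ι → F) → (ι → F) → F) (I X Y T : GL ι F) : Prop where
  II : (I : Matrix ι ι F) * I = -1
  XX : (X : Matrix ι ι F) * X = -1
  YY : (Y : Matrix ι ι F) * Y = -1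
  TT : (T : Matrix ι ι F) * T = 1
  IX : (I : Matrix ι ι F) * X = X * I
  IY : (I : Matrix ι ι F) * Y = Y * I
  XY : (X : Matrix ι ι F) * Y = -(Y * X)
  XT : (X : Matrix ι ι F) * T = T * X
  YT : (Y : Matrix ι ι F) * T = T * Y
  IT : (I : Matrix ι ι F) * T = -(T * I)
  isoI : I ∈ isom f
  isoX : X ∈ isom f
  isoY : Y ∈ isom f
  isoT : T ∈ isom f
  star : ∀ M : Matrix ι ι F, M * I = I * M → M * X = X * M → M * Y = Y * M → M * T = T * M →
    ∃ c : F, M = c • (1 : Matrix ι ι F)

/-- the group of isometries commuting up to sign with the generators -/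
def grp (f : (ι → F) → (ι → F) → F) (I X Y T : GL ι F) : Subgroup (GL ι F) where
  carrier := {g | g ∈ isom f ∧ PM (g : Matrix ι ι F) I ∧ PM (g : Matrix ι ι F) X ∧ PM (g : Matrix ι ι F) Y ∧ PM (g : Matrix ι ι F) T}
  mul_mem' := by
    rintro a b ⟨h1, h2, h3, h4, h5⟩ ⟨g1, g2, g3, g4, g5⟩
    exact ⟨(isom f).mul_mem h1 g1, by rw [Units.val_mul]; exact h2.mul g2, by rw [Units.val_mul]; exact h3.mul g3,
      by rw [Units.val_mul]; exact h4.mul g4, by rw [Units.val_mul]; exact h5.mul g5⟩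
  one_mem' := ⟨(isom f).one_mem, PM.one _, PM.one _, PM.one _, PM.one _⟩
  inv_mem' := by
    rintro a ⟨h1, h2, h3, h4, h5⟩
    exact ⟨(isom f).inv_mem h1, h2.inv, h3.inv, h4.inv, h5.inv⟩

lemma step {E : Subalgebra F (Matrix ι ι F)} (h2 : (2 : F) ≠ 0) {S : Set (Matrix ι ι F)} {a b : Matrix ι ι F}
    (hbE : b ∈ E) (hab : a * b = -(b * a)) {s t : F} (ha : a * a = s • 1) (hs : s ≠ 0)
    (hb : b * b = t • 1) (ht : t ≠ 0) (hSa : ∀ y ∈ S, PM a y) (hSb : ∀ y ∈ S, b * y = y * b)
    (h : ∀ M : Matrix ι ι F, (∀ y ∈ S, M * y = y * M) → M * a = a * M → M ∈ E) :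
    ∀ M : Matrix ι ι F, (∀ y ∈ S, M * y = y * M) → M ∈ E := by
  intro M hM
  have h1 : a * M * a * a = s • (a * M) := by rw [mul_assoc (a * M) a a, ha, mul_smul_comm, mul_one]
  have h2' : a * (a * M * a) = s • (M * a) := by
    rw [← mul_assoc, ← mul_assoc, ha, smul_mul_assoc, one_mul, smul_mul_assoc]
  have haMa : ∀ y ∈ S, (a * M * a) * y = y * (a * M * a) := by
    intro y hy
    rcases hSa y hy with hy' | hy'
    · rw [mul_assoc, hy', ← mul_assoc, mul_assoc a M y, hM y hy, ← mul_assoc, hy', mul_assoc, mul_assoc, ← mul_assoc a M a]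
    · rw [mul_assoc, hy', mul_neg, ← mul_assoc, mul_assoc a M y, hM y hy, ← mul_assoc, hy', neg_mul, neg_mul, neg_neg,
        mul_assoc, mul_assoc, ← mul_assoc a M a]
  have e1 : (M + s⁻¹ • (a * M * a)) ∈ E := by
    apply h
    · intro y hy
      rw [add_mul, mul_add, smul_mul_assoc, mul_smul_comm, haMa y hy, hM y hy]
    · rw [add_mul, mul_add, smul_mul_assoc, mul_smul_comm, h1, h2', smul_smul, smul_smul, inv_mul_cancel₀ hs, one_smul,
        one_smul, add_comm]
  have e2 : b * (M - s⁻¹ • (a * M * a)) ∈ E := by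
    apply h
    · intro y hy
      rw [mul_assoc, sub_mul, smul_mul_assoc, haMa y hy, hM y hy, ← mul_smul_comm, ← mul_sub, ← mul_assoc, hSb y hy, mul_assoc]
    · have e3 : (M - s⁻¹ • (a * M * a)) * a = -(a * (M - s⁻¹ • (a * M * a))) := by
        rw [sub_mul, mul_sub, smul_mul_assoc, mul_smul_comm, h1, h2', smul_smul, smul_smul, inv_mul_cancel₀ hs, one_smul,
          one_smul, neg_sub]
      rw [mul_assoc, e3, mul_neg, ← mul_assoc, ← mul_assoc, hab, neg_mul]
  have e4 : M - s⁻¹ • (a * M * a) ∈ E := by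
    have := E.smul_mem (E.mul_mem hbE e2) t⁻¹
    rwa [← mul_assoc, hb, smul_mul_assoc, one_mul, smul_smul, inv_mul_cancel₀ ht, one_smul] at this
  have e5 := E.smul_mem (E.add_mem e1 e4) (2 : F)⁻¹
  have e6 : (2 : F)⁻¹ • (M + s⁻¹ • (a * M * a) + (M - s⁻¹ • (a * M * a))) = M := by
    have : M + s⁻¹ • (a * M * a) + (M - s⁻¹ • (a * M * a)) = (2 : F) • M := by rw [two_smul]; abel
    rw [this, smul_smul, inv_mul_cancel₀ h2, one_smul]
  rwa [e6] at e5

variable {f : (ι → F) → (ι → F) → F} {I X Y T : GL ι F}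

lemma Q4.memI (h : Q4 f I X Y T) : I ∈ grp f I X Y T :=
  ⟨h.isoI, Or.inl rfl, Or.inl h.IX, Or.inl h.IY, Or.inr h.IT⟩

lemma Q4.memX (h : Q4 f I X Y T) : X ∈ grp f I X Y T :=
  ⟨h.isoX, Or.inl h.IX.symm, Or.inl rfl, Or.inr h.XY, Or.inl h.XT⟩

lemma Q4.memY (h : Q4 f I X Y T) : Y ∈ grp f I X Y T :=
  ⟨h.isoY, Or.inl h.IY.symm, Or.inr (by rw [h.XY, neg_neg]), Or.inl rfl, Or.inl h.YT⟩

lemma Q4.memT (h : Q4 f I X Y T) : T ∈ grp f I X Y T :=
  ⟨h.isoT, Or.inr (by rw [h.IT, neg_neg]), Or.inl h.XT.symm, Or.inl h.YT.symm, Or.inl rfl⟩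

lemma Q4.full (h : Q4 f I X Y T) (h2 : (2 : F) ≠ 0) : Full (grp f I X Y T) := by
  have hI := mem_env h.memI
  have hX := mem_env h.memX
  have hY := mem_env h.memY
  have hT := mem_env h.memT
  have hneg : (-1 : F) ≠ 0 := by
    intro h0
    have : (1 : F) = 0 := by linear_combination -h0
    exact one_ne_zero this
  have cII : (I : Matrix ι ι F) * I = (-1 : F) • 1 := by rw [h.II, neg_one_smul]
  have cXX : (X : Matrix ι ι F) * X = (-1 : F) • 1 := by rw [h.XX, neg_one_smul]
  have cYY : (Y : Matrix ι ι F) * Y = (-1 : F) • 1 := by rw [h.YY, neg_one_smul]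
  have cTT : (T : Matrix ι ι F) * T = (1 : F) • 1 := by rw [h.TT, one_smul]
  have hneg1 : (1 : F) ≠ 0 := one_ne_zero
  have s4 : ∀ M : Matrix ι ι F, (∀ y ∈ ({(I : Matrix ι ι F), (T : Matrix ι ι F), (X : Matrix ι ι F)} : Set (Matrix ι ι F)), M * y = y * M) →
      M * Y = Y * M → M ∈ env (grp f I X Y T) := by
    intro M hM hMY
    obtain ⟨c, hc⟩ := h.star M (hM _ (by simp)) (hM _ (by simp)) hMY (hM _ (by simp))
    rw [hc]
    exact (env (grp f I X Y T)).smul_mem (env (grp f I X Y T)).one_mem _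
  have s3 : ∀ M : Matrix ι ι F, (∀ y ∈ ({(I : Matrix ι ι F), (T : Matrix ι ι F), (X : Matrix ι ι F)} : Set (Matrix ι ι F)), M * y = y * M) →
      M ∈ env (grp f I X Y T) := by
    refine step h2 (a := (Y : Matrix ι ι F)) (b := (X : Matrix ι ι F)) hX ?_ cYY hneg cXX hneg ?_ ?_ s4
    · rw [h.XY, neg_neg]
    · rintro y (rfl | rfl | rfl)
      · exact Or.inl h.IY.symm
      · exact Or.inl h.YT
      · exact Or.inr (by rw [h.XY, neg_neg])
    · rintro y (rfl | rfl | rfl)
      · exact h.IX.symm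
      · exact h.XT
      · rfl
  have s2 : ∀ M : Matrix ι ι F, (∀ y ∈ ({(I : Matrix ι ι F), (T : Matrix ι ι F)} : Set (Matrix ι ι F)), M * y = y * M) →
      M ∈ env (grp f I X Y T) := by
    refine step h2 (a := (X : Matrix ι ι F)) (b := (Y : Matrix ι ι F)) hY ?_ cXX hneg cYY hneg ?_ ?_ ?_
    · exact h.XY
    · rintro y (rfl | rfl)
      · exact Or.inl h.IX.symm
      · exact Or.inl h.XT
    · rintro y (rfl | rfl)
      · exact h.IY.symm
      · exact h.YT
    · intro M hM hMX
      apply s3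
      rintro y (rfl | rfl | rfl)
      · exact hM _ (by simp)
      · exact hM _ (by simp)
      · exact hMX
  have s1 : ∀ M : Matrix ι ι F, (∀ y ∈ ({(I : Matrix ι ι F)} : Set (Matrix ι ι F)), M * y = y * M) →
      M ∈ env (grp f I X Y T) := by
    refine step h2 (a := (T : Matrix ι ι F)) (b := (I : Matrix ι ι F)) hI ?_ cTT hneg1 cII hneg ?_ ?_ ?_
    · rw [h.IT, neg_neg]
    · rintro y rfl
      exact Or.inr (by rw [h.IT, neg_neg])
    · rintro y rfl
      rfl
    · intro M hM hMX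
      apply s2
      rintro y (rfl | rfl)
      · exact hM _ (by simp)
      · exact hMX
  have s0 : ∀ M : Matrix ι ι F, (∀ y ∈ (∅ : Set (Matrix ι ι F)), M * y = y * M) →
      M ∈ env (grp f I X Y T) := by
    refine step h2 (a := (I : Matrix ι ι F)) (b := (T : Matrix ι ι F)) hT ?_ cII hneg cTT hneg1 ?_ ?_ ?_
    · exact h.IT
    · intro y hy; exact absurd hy (Set.notMem_empty y)
    · intro y hy; exact absurd hy (Set.notMem_empty y)
    · intro M hM hMX
      apply s1
      rintro y rfl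
      exact hMX
  rw [Full, eq_top_iff]
  intro M _
  exact s0 M (fun y hy => absurd hy (Set.notMem_empty y))

lemma Q4.scalar (h : Q4 f I X Y T) {g : GL ι F} (h1 : (g : Matrix ι ι F) * I = I * g) (h2 : (g : Matrix ι ι F) * X = X * g)
    (h3 : (g : Matrix ι ι F) * Y = Y * g) (h4 : (g : Matrix ι ι F) * T = T * g) : g ∈ scalars ι F := by
  obtain ⟨c, hc⟩ := h.star _ h1 h2 h3 h4
  by_cases hne : Nonempty ι
  · apply mem_scalars_of_algebraMap (c := c)
    rw [hc, Algebra.algebraMap_eq_smul_one]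
  · rw [not_nonempty_iff] at hne
    have : g = 1 := by
      apply Units.ext
      ext i
      exact (hne.false i).elim
    rw [this]
    exact (scalars ι F).one_mem

lemma Q4.nil (h : Q4 f I X Y T) : Nil2 (grp f I X Y T) := by
  rintro a ⟨-, a1, a2, a3, a4⟩ b ⟨-, b1, b2, b3, b4⟩
  exact h.scalar (PM.comm a1 b1) (PM.comm a2 b2) (PM.comm a3 b3) (PM.comm a4 b4)

lemma PM.sq {g y : Matrix ι ι F} (h : PM g y) : g * g * y = y * (g * g) := by
  rcases h with h | h
  · rw [mul_assoc, h, ← mul_assoc, h, mul_assoc]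
  · rw [mul_assoc, h, mul_neg, ← mul_assoc, h, neg_mul, neg_neg, mul_assoc]

lemma Q4.sq (h : Q4 f I X Y T) {g : GL ι F} (hg : g ∈ grp f I X Y T) : g ^ 2 ∈ scalars ι F := by
  obtain ⟨-, a1, a2, a3, a4⟩ := hg
  rw [pow_two]
  exact h.scalar (by rw [Units.val_mul]; exact a1.sq) (by rw [Units.val_mul]; exact a2.sq)
    (by rw [Units.val_mul]; exact a3.sq) (by rw [Units.val_mul]; exact a4.sq)

/-- the properties of the group -/
theorem Q4.data [Fintype F] (h : Q4 f I X Y T) (h3 : Fintype.card F = 3) (hf : IsSymplecticForm f)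
    (hc : Fintype.card ι = 4) : IsSymplecticTypeGroup 2 (grp f I X Y T) ∧
      ActsAbsolutelyIrreducibly (matrixSet (grp f I X Y T)) ∧ grp f I X Y T ≤ similarityGroup f ∧
      Nat.card (grp f I X Y T) = 32 ∧ Nat.card (Subgroup.center (grp f I X Y T)) = 2 ∧
      IsOfMinusType 2 (grp f I X Y T) := by
  have h2 : (2 : F) ≠ 0 := two_ne_zero_of_odd (by rw [h3]; decide)
  have hne : Nonempty ι := by
    rw [← Fintype.card_pos_iff]; omega
  have hsq : ∀ x : F, x ≠ 0 → x * x = 1 := by
    intro x hx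
    have := FiniteField.pow_card_sub_one_eq_one x hx
    rw [h3] at this
    rw [← this]; ring
  have hfull := h.full h2
  have hnil := h.nil
  have hle : grp f I X Y T ≤ isom f := fun g hg => hg.1
  have hm1 : (-1 : Fˣ) ≠ 1 := by
    intro h0
    have := congrArg Units.val h0
    rw [Units.val_neg, Units.val_one] at this
    exact h2 (by linear_combination -this)
  have hmem1 : sc ι (-1 : Fˣ) ∈ grp f I X Y T := by
    have : sc ι (-1 : Fˣ) = I * I := by
      apply Units.ext
      rw [Units.val_mul, h.II, sc_val, Units.val_neg, Units.val_one, neg_one_smul]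
    rw [this]
    exact (grp f I X Y T).mul_mem h.memI h.memI
  have hroots : ∀ c : Fˣ, sc ι c ∈ grp f I X Y T ↔ c ^ 2 = 1 := by
    intro c
    constructor
    · intro _
      apply Units.ext
      rw [Units.val_pow_eq_pow_val, pow_two, hsq _ c.ne_zero, Units.val_one]
    · intro hc2
      have h5 : (c : F) * (c : F) = 1 := hsq _ c.ne_zero
      rcases mul_self_eq_one_iff.mp h5 with h6 | h6
      · have : c = 1 := Units.ext h6
        rw [this, map_one]
        exact (grp f I X Y T).one_mem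
      · have : c = -1 := Units.ext h6
        rw [this]
        exact hmem1
  have hcen : Nat.card (Subgroup.center (grp f I X Y T)) = 2 := by
    refine card_center_of hfull hroots (c₀ := -1) ?_
    exact orderOf_eq_prime (by rw [neg_one_sq]) hm1
  refine ⟨?_, hfull.absIrr, hle.trans (isom_le_sim f), ?_, hcen, ?_⟩
  · refine sympType_two hfull hnil (by omega) h2 ?_ (fun x hx => h.sq hx) ?_
    · intro x hx
      obtain ⟨c, hc'⟩ := mem_scalars_sc.1 (h.sq hx)
      have : x ^ 4 = (x ^ 2) ^ 2 := by rw [← pow_mul]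
      rw [this, ← hc', ← map_pow]
      have h7 : c ^ 2 = 1 := by
        apply Units.ext
        rw [Units.val_pow_eq_pow_val, pow_two, hsq _ c.ne_zero, Units.val_one]
      rw [h7, map_one]
    · intro x hx hxs
      by_contra hcon
      push Not at hcon
      apply hxs
      have hw : ∀ w ∈ grp f I X Y T, (w : Matrix ι ι F) * w = -1 → (x : Matrix ι ι F) * w = w * x := by
        intro w hw hw2
        have := hcon w hw (by
          apply Units.ext
          rw [Units.val_mul, hw2, sc_val, Units.val_neg, Units.val_one, neg_one_smul])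
        have := congrArg Units.val this
        rwa [Units.val_mul, Units.val_mul] at this
      have c1 := hw I h.memI h.II
      have c2 := hw X h.memX h.XX
      have c3 := hw Y h.memY h.YY
      have c4 := hw (X * T) ((grp f I X Y T).mul_mem h.memX h.memT) (by
        rw [Units.val_mul, mul_assoc, ← mul_assoc (T : Matrix ι ι F), ← h.XT, mul_assoc (X : Matrix ι ι F) T T, h.TT,
          mul_one, h.XX])
      refine h.scalar c1 c2 c3 ?_
      rw [Units.val_mul] at c4
      have e : (T : Matrix ι ι F) = -((X : Matrix ι ι F) * ((X : Matrix ι ι F) * T)) := by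
        rw [← mul_assoc, h.XX, neg_mul, one_mul, neg_neg]
      rw [e, mul_neg, neg_mul, ← mul_assoc, c2, mul_assoc, c4]
      simp only [mul_assoc]
  · rw [card_eq hnil hfull, hcen, hc]
    norm_num
  · exact minusType hnil hfull h2 hf hle (by rw [hc]; norm_num)

end H61.SpQ4
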