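import Mathlib
import Cfsg.Agent.Lib.H61.Sp8b
import Cfsg.Agent.Lib.H61.SpQ4
import Cfsg.Agent.Lib.H97.AschPow

/-!
Three commuting quaternion algebras: tensor cube structures and class 6 groups.
-/

set_option autoImplicit false
set_option linter.unusedSectionVars false

namespace H61.Sp8c

open Cfsg Cfsg.Geo Matrix H97.AschRad H97.AschEnv H97.AschNonab H97.AschGrp H97.AschLinear H97.AschUnits H97.AschTensor
open H97.AschForm H97.AschReal H97.AschNil H97.AschTwo H97.AschWreath H97.AschWreathNorm H97.AschTF H97.AschTP H97.AschPos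
open H97.AschSL2
open H96.AschSympType1 H96.AschSympType2 H96.AschSympType3 H96.AschSympType5 H96.AschSympEx H96.AschAdj
open H96.AschSp H96.AschSp2 H96.AschSubForm H61.Sp8a H61.Sp8b H61.SpQ4
open scoped Kronecker

variable {ι : Type} [Fintype ι] [DecidableEq ι] {F : Type*} [Field F]

/-- three commuting quaternion algebras permuted by a group of isometries -/
structure W3 (f : (ι → F) → (ι → F) → F) (H : Subgroup (GL ι F))
    (φ : Fin 3 → (Matrix (Fin 2) (Fin 2) F →ₐ[F] Matrix ι ι F)) : Prop where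
  comm : ∀ i j, i ≠ j → ∀ x y, φ i x * φ j y = φ j y * φ i x
  top : ∀ X : Matrix ι ι F, (∀ i x, X * φ i x = φ i x * X) → ∃ c : F, X = algebraMap F _ c
  inv : ∀ i, ∀ a ∈ N0 F, ∀ u v, f (φ i (a : Matrix (Fin 2) (Fin 2) F) *ᵥ u) (φ i (a : Matrix (Fin 2) (Fin 2) F) *ᵥ v) = f u v
  perm : ∀ h ∈ H, ∃ σ : Equiv.Perm (Fin 3), ∀ i X, ∃ Y, (h : Matrix ι ι F) * φ i X * ((h⁻¹ : GL ι F) : Matrix ι ι F) = φ (σ i) Y

variable {f : (ι → F) → (ι → F) → F} {H : Subgroup (GL ι F)} {φ : Fin 3 → (Matrix (Fin 2) (Fin 2) F →ₐ[F] Matrix ι ι F)}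

theorem W3.power [Nonempty ι] (h : W3 f H φ) (hf : IsSymplecticForm f) :
    ∃ (e : ι ≃ (Fin 3 → Fin 2)) (P : GL ι F) (f₁ : (Fin 2 → F) → (Fin 2 → F) → F), IsSymplecticForm f₁ ∧
      IsTensorPowerFormStructure id f f₁ e P ∧ H ≤ tensorWreathSubgroup 2 3 e P := by
  obtain ⟨e, P, he, -⟩ := wreath_position φ h.comm h.top
  obtain ⟨i0⟩ := ‹Nonempty ι›
  have hne : Nonempty ι := ⟨i0⟩
  have hi : (Pi.single i0 (1 : F) : ι → F) ≠ 0 := by
    intro h0
    have := congrFun h0 i0
    simp at this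
  obtain ⟨v, hv⟩ := (hf.nondegenerate _ hi).2
  obtain ⟨G, C, hC, hfix, hnd, hform⟩ := power_form (by norm_num) (by norm_num) e P (full_N0 (F := F))
    (σ := RingEquiv.refl F) (IsSesq.of_bilinear hf.bilinear) (by
      intro i a ha u v
      have e1 : cr e P (B 3 2 F i (a : Matrix (Fin 2) (Fin 2) F)) = φ i (a : Matrix (Fin 2) (Fin 2) F) := (he i _).symm
      rw [e1]
      exact h.inv i a ha u v) hv
  refine ⟨e, P, formOfGram (RingEquiv.refl F) G, symp_of_fix hfix hnd, ⟨C, hC, fun x y => ?_⟩, ?_⟩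
  · have h1 := hform x y
    have h2 : gramMatrix (formOfGram (RingEquiv.refl F) G) = G := gram_fog (RingEquiv.refl F) G
    rw [h2]
    exact h1
  · intro g hg
    obtain ⟨σ, hσ⟩ := h.perm g hg
    obtain ⟨a, ha⟩ := normalizer_wreath (by norm_num) e P φ he h.top g σ hσ
    rw [ha]
    exact crGL_mem_wreath e P σ a

/-! ### class 6 over the field with three elements -/

def qi (F : Type*) [Field F] : Matrix (Fin 2) (Fin 2) F := !![0, 1; -1, 0]
def qj (F : Type*) [Field F] : Matrix (Fin 2) (Fin 2) F := !![1, 1; 1, -1]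
def qk (F : Type*) [Field F] : Matrix (Fin 2) (Fin 2) F := !![1, -1; -1, -1]

section three

variable [Fintype F] (h3 : Fintype.card F = 3)

include h3

lemma cases3 (x : F) : x = 0 ∨ x = 1 ∨ x = -1 := by
  by_cases hx : x = 0
  · exact Or.inl hx
  · right
    have := FiniteField.pow_card_sub_one_eq_one x hx
    rw [h3] at this
    exact mul_self_eq_one_iff.mp (by rw [← this]; ring)

lemma three0 : (3 : F) = 0 := by
  have := FiniteField.cast_card_eq_zero F
  rw [h3] at this
  exact_mod_cast this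

lemma two0 : (2 : F) ≠ 0 := two_ne_zero_of_odd (by rw [h3]; decide)

lemma qi_sq : qi F * qi F = -1 := by
  ext i j
  fin_cases i <;> fin_cases j <;> simp [qi, Matrix.mul_apply, Fin.sum_univ_two]

lemma qj_sq : qj F * qj F = -1 := by
  have := three0 h3
  have e : (1 : F) + 1 = -1 := by linear_combination this
  ext i j
  fin_cases i <;> fin_cases j <;> simp [qj, Matrix.mul_apply, Fin.sum_univ_two, e]

lemma qij : qi F * qj F = qk F := by
  ext i j
  fin_cases i <;> fin_cases j <;> simp [qi, qj, qk, Matrix.mul_apply, Fin.sum_univ_two]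

lemma qji : qj F * qi F = -qk F := by
  ext i j
  fin_cases i <;> fin_cases j <;> simp [qi, qj, qk, Matrix.mul_apply, Fin.sum_univ_two]

/-- square roots of -1 -/
lemma cls {X : Matrix (Fin 2) (Fin 2) F} (hX : X * X = -1) : ∃ s : F, X = s • qi F ∨ X = s • qj F ∨ X = s • qk F := by
  have h30 := three0 h3
  have e1 := congrFun (congrFun hX 0) 0
  have e2 := congrFun (congrFun hX 0) 1
  have e3 := congrFun (congrFun hX 1) 0
  have e4 := congrFun (congrFun hX 1) 1
  rw [Matrix.mul_apply, Fin.sum_univ_two, Matrix.neg_apply, Matrix.one_apply] at e1 e2 e3 e4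
  simp only [Fin.isValue, ↓reduceIte, zero_ne_one, one_ne_zero, neg_zero] at e1 e2 e3 e4
  have hm : (-1 : F) ≠ 1 := by
    intro h0
    exact two0 h3 (by linear_combination -h0)
  have hd : X 1 1 = -X 0 0 := by
    by_contra hne
    have hs : X 0 0 + X 1 1 ≠ 0 := fun h0 => hne (by linear_combination h0)
    have b0 : X 0 1 = 0 := (mul_eq_zero.mp (by linear_combination e2 : X 0 1 * (X 0 0 + X 1 1) = 0)).resolve_right hs
    rw [b0] at e1
    rcases cases3 h3 (X 0 0) with h | h | h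
    · rw [h] at e1
      exact one_ne_zero (by linear_combination e1 : (1 : F) = 0)
    · rw [h] at e1
      exact hm (by linear_combination -e1)
    · rw [h] at e1
      exact hm (by linear_combination -e1)
  rcases cases3 h3 (X 0 0) with ha | ha | ha
  · -- bc = -1
    rcases cases3 h3 (X 0 1) with hb | hb | hb
    · rw [ha, hb] at e1
      exact absurd (by linear_combination e1 : (1 : F) = 0) one_ne_zero
    · rw [ha, hb] at e1
      have hc : X 1 0 = -1 := by linear_combination e1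
      refine ⟨1, Or.inl ?_⟩
      ext i j
      fin_cases i <;> fin_cases j <;> simp [qi, ha, hb, hc, hd]
    · rw [ha, hb] at e1
      have hc : X 1 0 = 1 := by linear_combination -e1
      refine ⟨-1, Or.inl ?_⟩
      ext i j
      fin_cases i <;> fin_cases j <;> simp [qi, ha, hb, hc, hd]
  · rcases cases3 h3 (X 0 1) with hb | hb | hb
    · rw [ha, hb] at e1
      exact absurd (by linear_combination -e1) hm
    · rw [ha, hb] at e1
      have hc : X 1 0 = 1 := by linear_combination e1 - h30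
      refine ⟨1, Or.inr (Or.inl ?_)⟩
      ext i j
      fin_cases i <;> fin_cases j <;> simp [qj, ha, hb, hc, hd]
    · rw [ha, hb] at e1
      have hc : X 1 0 = -1 := by linear_combination -e1 + h30
      refine ⟨1, Or.inr (Or.inr ?_)⟩
      ext i j
      fin_cases i <;> fin_cases j <;> simp [qk, ha, hb, hc, hd]
  · rcases cases3 h3 (X 0 1) with hb | hb | hb
    · rw [ha, hb] at e1
      exact absurd (by linear_combination -e1) hm
    · rw [ha, hb] at e1
      have hc : X 1 0 = 1 := by linear_combination e1 - h30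
      refine ⟨-1, Or.inr (Or.inr ?_)⟩
      ext i j
      fin_cases i <;> fin_cases j <;> simp [qk, ha, hb, hc, hd]
    · rw [ha, hb] at e1
      have hc : X 1 0 = -1 := by linear_combination -e1 + h30
      refine ⟨-1, Or.inr (Or.inl ?_)⟩
      ext i j
      fin_cases i <;> fin_cases j <;> simp [qj, ha, hb, hc, hd]

/-- square roots of -1 commute up to sign -/
lemma pm2 {q X : Matrix (Fin 2) (Fin 2) F} (hq : q * q = -1) (hX : X * X = -1) : PM q X := by
  have hm : ∀ {A B : Matrix (Fin 2) (Fin 2) F}, PM A B → ∀ s : F, PM (s • A) B := by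
    intro A B hAB s
    rcases hAB with h | h
    · left; rw [smul_mul_assoc, h, mul_smul_comm]
    · right; rw [smul_mul_assoc, h, mul_smul_comm, smul_neg]
  have hij : qi F * qj F = -(qj F * qi F) := by rw [qij h3, qji h3, neg_neg]
  have pij : PM (qi F) (qj F) := Or.inr hij
  have pji : PM (qj F) (qi F) := Or.inr (by rw [hij, neg_neg])
  have pii : PM (qi F) (qi F) := Or.inl rfl
  have pjj : PM (qj F) (qj F) := Or.inl rfl
  have pik : PM (qi F) (qk F) := by rw [← qij h3]; exact pii.mul_right pij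
  have pjk : PM (qj F) (qk F) := by rw [← qij h3]; exact pji.mul_right pjj
  have pki : PM (qk F) (qi F) := by rw [← qij h3]; exact pii.mul pji
  have pkj : PM (qk F) (qj F) := by rw [← qij h3]; exact pij.mul pjj
  have pkk : PM (qk F) (qk F) := Or.inl rfl
  obtain ⟨s, rfl | rfl | rfl⟩ := cls h3 hq <;> obtain ⟨t, rfl | rfl | rfl⟩ := cls h3 hX
  · exact hm (pii.smul t) s
  · exact hm (pij.smul t) s
  · exact hm (pik.smul t) s
  · exact hm (pji.smul t) s
  · exact hm (pjj.smul t) s
  · exact hm (pjk.smul t) s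
  · exact hm (pki.smul t) s
  · exact hm (pkj.smul t) s
  · exact hm (pkk.smul t) s

/-- the quaternions generate -/
lemma gen2 {A : Subalgebra F (Matrix (Fin 2) (Fin 2) F)} (hi : qi F ∈ A) (hj : qj F ∈ A) (X : Matrix (Fin 2) (Fin 2) F) : X ∈ A := by
  have h2 := two0 h3
  have hk : qk F ∈ A := by rw [← qij h3]; exact A.mul_mem hi hj
  have hD : (!![1, 0; 0, -1] : Matrix (Fin 2) (Fin 2) F) ∈ A := by
    have := A.smul_mem (A.add_mem hj hk) (2 : F)⁻¹
    have e : (2 : F)⁻¹ • (qj F + qk F) = !![1, 0; 0, -1] := by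
      have e2 : (1 : F) + 1 = 2 := by norm_num
      have e3 : (-1 : F) + -1 = -2 := by norm_num
      ext i j
      fin_cases i <;> fin_cases j <;> simp [qj, qk, e2, e3, h2]
    rwa [e] at this
  have hS : (!![0, 1; 1, 0] : Matrix (Fin 2) (Fin 2) F) ∈ A := by
    have := A.sub_mem hj hD
    have e : qj F - !![1, 0; 0, -1] = !![0, 1; 1, 0] := by
      ext i j
      fin_cases i <;> fin_cases j <;> simp [qj]
    rwa [e] at this
  have e : X = ((X 0 0 + X 1 1) / 2) • (1 : Matrix (Fin 2) (Fin 2) F) + ((X 0 0 - X 1 1) / 2) • !![1, 0; 0, -1] +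
      (((X 0 1 + X 1 0) / 2) • !![0, 1; 1, 0] + ((X 0 1 - X 1 0) / 2) • qi F) := by
    ext i j
    fin_cases i <;> fin_cases j <;> simp [qi] <;> field_simp <;> ring
  rw [e]
  exact A.add_mem (A.add_mem (A.smul_mem A.one_mem _) (A.smul_mem hD _)) (A.add_mem (A.smul_mem hS _) (A.smul_mem hi _))

omit h3 in
lemma sqGL {X : Matrix (Fin 2) (Fin 2) F} (hX : X * X = -1) : ∃ a : GL (Fin 2) F, (a : Matrix (Fin 2) (Fin 2) F) = X :=
  ⟨⟨X, -X, by rw [mul_neg, hX, neg_neg], by rw [neg_mul, hX, neg_neg]⟩, rfl⟩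

lemma sqN0 {a : GL (Fin 2) F} (ha : (a : Matrix (Fin 2) (Fin 2) F) * a = -1) : a ∈ N0 F := by
  have h30 := three0 h3
  rw [mem_N0]
  have key : ∀ s : F, ∀ M : Matrix (Fin 2) (Fin 2) F, M * M = -1 → M.det = 1 → (s • M) * (s • M) = -1 → (s • M).det = 1 := by
    intro s M hM hd hs
    rw [smul_mul_smul_comm, hM] at hs
    have e := congrFun (congrFun hs 0) 0
    simp at e
    rw [Matrix.det_smul, hd, Fintype.card_fin, pow_two, e, mul_one]
  obtain ⟨s, h | h | h⟩ := cls h3 ha
  · rw [h] at ha ⊢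
    exact key s _ (qi_sq h3) (by rw [qi, Matrix.det_fin_two]; simp) ha
  · rw [h] at ha ⊢
    exact key s _ (qj_sq h3) (by rw [qj, Matrix.det_fin_two]; simp; linear_combination -h30) ha
  · rw [h] at ha ⊢
    exact key s _ (by
      rw [← qij h3]
      rw [mul_assoc, ← mul_assoc (qj F), qji h3, ← qij h3, neg_mul, mul_neg, mul_assoc, qj_sq h3, mul_neg, mul_one, mul_neg, neg_neg, qi_sq h3])
      (by rw [qk, Matrix.det_fin_two]; simp; linear_combination -h30) ha

end three

/-- isometries commuting up to sign with the quaternions of the three algebras -/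
def rgrp (f : (ι → F) → (ι → F) → F) (φ : Fin 3 → (Matrix (Fin 2) (Fin 2) F →ₐ[F] Matrix ι ι F)) : Subgroup (GL ι F) where
  carrier := {g | g ∈ isom f ∧ ∀ i X, X * X = -1 → PM (g : Matrix ι ι F) (φ i X)}
  mul_mem' := by
    rintro a b ⟨h1, h2⟩ ⟨g1, g2⟩
    exact ⟨(isom f).mul_mem h1 g1, fun i X hX => by rw [Units.val_mul]; exact (h2 i X hX).mul (g2 i X hX)⟩
  one_mem' := ⟨(isom f).one_mem, fun i X _ => PM.one _⟩
  inv_mem' := by
    rintro a ⟨h1, h2⟩
    exact ⟨(isom f).inv_mem h1, fun i X hX => (h2 i X hX).inv⟩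

section type6

variable [Fintype F] (h3 : Fintype.card F = 3)

include h3

lemma W3.mem (h : W3 f H φ) (i : Fin 3) {X : Matrix (Fin 2) (Fin 2) F} (hX : X * X = -1) :
    ∃ w ∈ rgrp f φ, (w : Matrix ι ι F) = φ i X := by
  obtain ⟨a, ha⟩ := sqGL hX
  refine ⟨Units.map (φ i : Matrix (Fin 2) (Fin 2) F →* Matrix ι ι F) a, ⟨?_, ?_⟩, ?_⟩
  · intro u v
    change f (φ i (a : Matrix (Fin 2) (Fin 2) F) *ᵥ u) (φ i (a : Matrix (Fin 2) (Fin 2) F) *ᵥ v) = f u v
    exact h.inv i a (sqN0 h3 (by rw [ha]; exact hX)) u v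
  · intro j Y hY
    change PM (φ i (a : Matrix (Fin 2) (Fin 2) F)) (φ j Y)
    by_cases hij : i = j
    · subst hij
      rw [ha]
      rcases pm2 h3 hX hY with e | e
      · left; rw [← map_mul, ← map_mul, e]
      · right; rw [← map_mul, ← map_mul, e, map_neg]
    · exact Or.inl (h.comm i j hij _ _)
  · change φ i (a : Matrix (Fin 2) (Fin 2) F) = φ i X
    rw [ha]

lemma W3.allmem (_h : W3 f H φ) {E : Subalgebra F (Matrix ι ι F)} (hE : ∀ i X, X * X = -1 → φ i X ∈ E) (i : Fin 3)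
    (X : Matrix (Fin 2) (Fin 2) F) : φ i X ∈ E :=
  gen2 h3 (A := E.comap (φ i)) (hE i _ (qi_sq h3)) (hE i _ (qj_sq h3)) X

lemma W3.scal [Nonempty ι] (h : W3 f H φ) {g : GL ι F} (hg : ∀ i X, X * X = -1 → (g : Matrix ι ι F) * φ i X = φ i X * g) :
    g ∈ scalars ι F := by
  have hc : ∀ i X, (g : Matrix ι ι F) * φ i X = φ i X * g := by
    intro i X
    have := h.allmem h3 (E := Subalgebra.centralizer F {(g : Matrix ι ι F)}) (fun i X hX => by
      rw [Subalgebra.mem_centralizer_iff]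
      rintro y (rfl : y = _)
      exact hg i X hX) i X
    rw [Subalgebra.mem_centralizer_iff] at this
    exact this _ rfl
  obtain ⟨c, hc'⟩ := h.top _ hc
  exact mem_scalars_of_algebraMap hc'

lemma W3.full [Nonempty ι] (h : W3 f H φ) : Full (rgrp f φ) := by
  obtain ⟨e, P, he, he'⟩ := wreath_position φ h.comm h.top
  have hall : ∀ i X, φ i X ∈ env (rgrp f φ) := h.allmem h3 (fun i X hX => by
    obtain ⟨w, hw, hw'⟩ := h.mem h3 i hX
    rw [← hw']
    exact mem_env hw)
  rw [Full, eq_top_iff]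
  intro Z _
  obtain ⟨Z', rfl⟩ := (cr e P).surjective Z
  rw [Matrix.matrix_eq_sum_single Z', map_sum]
  refine (env _).sum_mem (fun x _ => ?_)
  rw [map_sum]
  refine (env _).sum_mem (fun y _ => ?_)
  have h1 : Matrix.single x y (Z' x y) = Z' x y • Matrix.single x y (1 : F) := by
    rw [Matrix.smul_single, smul_eq_mul, mul_one]
  rw [h1, map_smul]
  refine (env _).smul_mem ?_ _
  rw [← pureT_single, ← he']
  apply Subalgebra.list_prod_mem
  intro z hz
  rw [List.mem_ofFn'] at hz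
  obtain ⟨i, rfl⟩ := hz
  exact hall i _

/-- the class 6 group -/
theorem W3.data [Nonempty ι] (h : W3 f H φ) (hf : IsSymplecticForm f) (hc : Fintype.card ι = 8) :
    IsSymplecticTypeGroup 2 (rgrp f φ) ∧
      ActsAbsolutelyIrreducibly (matrixSet (rgrp f φ)) ∧ rgrp f φ ≤ similarityGroup f ∧
      Nat.card (rgrp f φ) = 128 ∧ Nat.card (Subgroup.center (rgrp f φ)) = 2 ∧
      IsOfMinusType 3 (rgrp f φ) := by
  have h2 : (2 : F) ≠ 0 := two0 h3
  have hsq : ∀ x : F, x ≠ 0 → x * x = 1 := by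
    intro x hx
    have := FiniteField.pow_card_sub_one_eq_one x hx
    rw [h3] at this
    rw [← this]; ring
  have hfull := h.full h3
  have hnil : Nil2 (rgrp f φ) := by
    rintro a ⟨-, a1⟩ b ⟨-, b1⟩
    refine h.scal h3 (fun i X hX => ?_)
    obtain ⟨w, hw, hw'⟩ := h.mem h3 i hX
    rw [← hw']
    exact PM.comm (by rw [hw']; exact a1 i X hX) (by rw [hw']; exact b1 i X hX)
  have hsqs : ∀ g ∈ rgrp f φ, g ^ 2 ∈ scalars ι F := by
    rintro g ⟨-, a1⟩
    rw [pow_two]
    refine h.scal h3 (fun i X hX => ?_)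
    rw [Units.val_mul]
    exact (a1 i X hX).sq
  have hle : rgrp f φ ≤ isom f := fun g hg => hg.1
  have hm1 : (-1 : Fˣ) ≠ 1 := by
    intro h0
    have := congrArg Units.val h0
    rw [Units.val_neg, Units.val_one] at this
    exact h2 (by linear_combination -this)
  have hmem1 : sc ι (-1 : Fˣ) ∈ rgrp f φ := by
    obtain ⟨w, hw, hw'⟩ := h.mem h3 0 (qi_sq h3)
    have : sc ι (-1 : Fˣ) = w * w := by
      apply Units.ext
      rw [Units.val_mul, hw', ← map_mul, qi_sq h3, map_neg, map_one, sc_val, Units.val_neg, Units.val_one, neg_one_smul]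
    rw [this]
    exact (rgrp f φ).mul_mem hw hw
  have hroots : ∀ c : Fˣ, sc ι c ∈ rgrp f φ ↔ c ^ 2 = 1 := by
    intro c
    constructor
    · intro _
      apply Units.ext
      rw [Units.val_pow_eq_pow_val, pow_two, hsq _ c.ne_zero, Units.val_one]
    · intro hc2
      have h5 : (c : F) * (c : F) = 1 := hsq _ c.ne_zero
      rcases mul_self_eq_one_iff.mp h5 with h6 | h6
      · have : c = 1 := Units.ext h6
        rw [this, map_one]
        exact (rgrp f φ).one_mem
      · have : c = -1 := Units.ext h6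
        rw [this]
        exact hmem1
  have hcen : Nat.card (Subgroup.center (rgrp f φ)) = 2 := by
    refine card_center_of hfull hroots (c₀ := -1) ?_
    exact orderOf_eq_prime (by rw [neg_one_sq]) hm1
  refine ⟨?_, hfull.absIrr, hle.trans (isom_le_sim f), ?_, hcen, ?_⟩
  · refine sympType_two hfull hnil (by omega) h2 ?_ hsqs ?_
    · intro x hx
      obtain ⟨c, hc'⟩ := mem_scalars_sc.1 (hsqs x hx)
      have : x ^ 4 = (x ^ 2) ^ 2 := by rw [← pow_mul]
      rw [this, ← hc', ← map_pow]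
      have h7 : c ^ 2 = 1 := by
        apply Units.ext
        rw [Units.val_pow_eq_pow_val, pow_two, hsq _ c.ne_zero, Units.val_one]
      rw [h7, map_one]
    · intro x hx hxs
      by_contra hcon
      push Not at hcon
      apply hxs
      refine h.scal h3 (fun i X hX => ?_)
      obtain ⟨w, hw, hw'⟩ := h.mem h3 i hX
      rw [← hw']
      have := hcon w hw (by
        apply Units.ext
        rw [Units.val_mul, hw', ← map_mul, hX, map_neg, map_one, sc_val, Units.val_neg, Units.val_one, neg_one_smul])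
      have := congrArg Units.val this
      rwa [Units.val_mul, Units.val_mul] at this
  · rw [card_eq hnil hfull, hcen, hc]
    norm_num
  · exact minusType hnil hfull h2 hf hle (by rw [hc]; norm_num)

/-- the permuting group normalises the class 6 group -/
theorem W3.norm (h : W3 f H φ) (hH : ∀ g ∈ H, ∀ u v, f ((g : Matrix ι ι F) *ᵥ u) ((g : Matrix ι ι F) *ᵥ v) = f u v)
    (hinj : ∀ i, Function.Injective (φ i)) :
    ∀ g ∈ H, ∀ x ∈ rgrp f φ, g * x * g⁻¹ ∈ rgrp f φ := by
  intro g hg x hx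
  have hgi : g ∈ isom f := hH g hg
  refine ⟨(isom f).mul_mem ((isom f).mul_mem hgi hx.1) ((isom f).inv_mem hgi), fun i X hX => ?_⟩
  obtain ⟨σ, hσ⟩ := h.perm g⁻¹ (H.inv_mem hg)
  obtain ⟨Y, hY⟩ := hσ i X
  rw [inv_inv] at hY
  have g1 : (g : Matrix ι ι F) * ((g⁻¹ : GL ι F) : Matrix ι ι F) = 1 := Units.mul_inv g
  have g2 : ((g⁻¹ : GL ι F) : Matrix ι ι F) * (g : Matrix ι ι F) = 1 := Units.inv_mul g
  have hYY : Y * Y = -1 := by
    apply hinj (σ i)
    rw [map_mul, ← hY, map_neg, map_one]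
    calc ((g⁻¹ : GL ι F) : Matrix ι ι F) * φ i X * (g : Matrix ι ι F) * (((g⁻¹ : GL ι F) : Matrix ι ι F) * φ i X * (g : Matrix ι ι F))
        = ((g⁻¹ : GL ι F) : Matrix ι ι F) * φ i X * ((g : Matrix ι ι F) * ((g⁻¹ : GL ι F) : Matrix ι ι F)) * φ i X * (g : Matrix ι ι F) := by
          simp only [mul_assoc]
      _ = ((g⁻¹ : GL ι F) : Matrix ι ι F) * (φ i X * φ i X) * (g : Matrix ι ι F) := by rw [g1, mul_one]; simp only [mul_assoc]
      _ = -1 := by rw [← map_mul, hX, map_neg, map_one, mul_neg, mul_one, neg_mul, g2]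
  have hX' : φ i X = (g : Matrix ι ι F) * φ (σ i) Y * ((g⁻¹ : GL ι F) : Matrix ι ι F) := by
    rw [← hY]
    calc φ i X = ((g : Matrix ι ι F) * ((g⁻¹ : GL ι F) : Matrix ι ι F)) * φ i X * ((g : Matrix ι ι F) * ((g⁻¹ : GL ι F) : Matrix ι ι F)) := by
          rw [g1, one_mul, mul_one]
      _ = _ := by simp only [mul_assoc]
  have key : ∀ A B : Matrix ι ι F, ((g : Matrix ι ι F) * A * ((g⁻¹ : GL ι F) : Matrix ι ι F)) * ((g : Matrix ι ι F) * B * ((g⁻¹ : GL ι F) : Matrix ι ι F)) =
      (g : Matrix ι ι F) * (A * B) * ((g⁻¹ : GL ι F) : Matrix ι ι F) := by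
    intro A B
    calc _ = (g : Matrix ι ι F) * A * (((g⁻¹ : GL ι F) : Matrix ι ι F) * (g : Matrix ι ι F)) * B * ((g⁻¹ : GL ι F) : Matrix ι ι F) := by
          simp only [mul_assoc]
      _ = _ := by rw [g2, mul_one]; simp only [mul_assoc]
  rw [Units.val_mul, Units.val_mul, hX']
  rcases hx.2 (σ i) Y hYY with e | e
  · left; rw [key, key, e]
  · right; rw [key, key, e, mul_neg, neg_mul]

end type6

end H61.Sp8c
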