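import Mathlib
import Cfsg.Agent.Lib.H61.Sp8c

/-!
Tensor structures 2 x 4 with a second factor of plus type give three commuting quaternion algebras.
-/

set_option autoImplicit false
set_option linter.unusedSectionVars false

namespace H61.Sp8d

open Cfsg Cfsg.Geo Matrix H97.AschRad H97.AschEnv H97.AschNonab H97.AschGrp H97.AschLinear H97.AschUnits H97.AschTensor
open H97.AschForm H97.AschReal H97.AschNil H97.AschTwo H97.AschWreath H97.AschWreathNorm H97.AschTF H97.AschTP H97.AschPos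
open H97.AschPosH H97.AschSL2
open H96.AschSympType5 H96.AschSympEx H96.AschAdj
open H96.AschSp H96.AschSp2 H61.Sp8a H61.Sp8b H61.Sp8c
open scoped Kronecker

variable {F : Type*} [Field F]

/-- the index bijection -/
def EE : Fin 4 ≃ K2 := (finProdFinEquiv (m := 2) (n := 2)).symm

lemma EE0 : EE 0 = (0, 0) := rfl
lemma EE1 : EE 1 = (0, 1) := rfl
lemma EE2 : EE 2 = (1, 0) := rfl
lemma EE3 : EE 3 = (1, 1) := rfl

lemma om_sq : om F * om F = -1 := by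
  ext i j
  fin_cases i <;> fin_cases j <;> simp [om, Matrix.mul_apply, Fin.sum_univ_two]

lemma WW_sq : WW F * WW F = 1 := by
  rw [WW, ← Matrix.mul_kronecker_mul, om_sq]
  ext ⟨i, j⟩ ⟨k, l⟩
  fin_cases i <;> fin_cases j <;> fin_cases k <;> fin_cases l <;> simp [Matrix.kroneckerMap_apply]

lemma WWE_sq : (WW F).submatrix EE EE * (WW F).submatrix EE EE = 1 := by
  rw [Matrix.submatrix_mul_equiv, WW_sq, Matrix.submatrix_one_equiv]

/-- **hyperbolic normal form** -/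
theorem hyp_form (h2 : (2 : F) ≠ 0) {f : (Fin 4 → F) → (Fin 4 → F) → F} (hf : IsSymmetricForm f) {U : Submodule F (Fin 4 → F)}
    (hU : Module.finrank F U = 2) (hts : ∀ u ∈ U, f u u = 0) :
    ∃ B : GL (Fin 4) F, (B : Matrix (Fin 4) (Fin 4) F)ᵀ * gramMatrix f * (B : Matrix (Fin 4) (Fin 4) F) =
      (WW F).submatrix EE EE := by
  have hb := hf.bilinear
  have sl := hb.smul_left
  have sr := hb.smul_right
  have al := hb.add_left
  have ar := hb.add_right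
  have hiso : ∀ u ∈ U, ∀ w ∈ U, f u w = 0 := by
    intro u hu w hw
    have h1 := hts _ (U.add_mem hu hw)
    rw [al, ar, ar, hts u hu, hts w hw, hf.symm w u] at h1
    apply (mul_eq_zero.mp (?_ : (2 : F) * f u w = 0)).resolve_left h2
    linear_combination h1
  have sbl : ∀ x (c : F) y z, f (x - c • y) z = f x z - c * f y z := by
    intro x c y z
    rw [sub_eq_add_neg, ← neg_smul, al, sl]; ring
  have sbr : ∀ z x (c : F) y, f z (x - c • y) = f z x - c * f z y := by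
    intro z x c y
    rw [hf.symm, sbl, hf.symm x, hf.symm y]
  have nl : ∀ x y, f (-x) y = -f x y := by
    intro x y
    rw [← neg_one_smul F x, sl]; ring
  have nr : ∀ x y, f x (-y) = -f x y := by
    intro x y
    rw [← neg_one_smul F y, sr]; ring
  let b := Module.finBasisOfFinrankEq F U hU
  obtain ⟨u1, hu1⟩ : ∃ u : Fin 4 → F, u = (b 0 : U) := ⟨_, rfl⟩
  obtain ⟨w, hw'⟩ : ∃ u : Fin 4 → F, u = (b 1 : U) := ⟨_, rfl⟩
  have hu1U : u1 ∈ U := by rw [hu1]; exact (b 0).2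
  have hwU : w ∈ U := by rw [hw']; exact (b 1).2
  have hu10 : u1 ≠ 0 := by
    intro h0
    exact b.ne_zero 0 (Subtype.ext (by rw [← hu1, h0]; rfl))
  have hw : ∀ c : F, w - c • u1 ≠ 0 := by
    intro c h0
    have h1 : b 1 - c • b 0 = 0 := by
      apply Subtype.ext
      change ((b 1 : U) : Fin 4 → F) - c • ((b 0 : U) : Fin 4 → F) = 0
      rw [← hu1, ← hw', h0]
    have h3 := congrArg (fun z => b.repr z 1) h1
    simp at h3
  have pick : ∀ u, u ≠ 0 → ∃ v, f u v = 1 := by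
    intro u hu
    obtain ⟨x, hx⟩ := (hf.nondegenerate u hu).2
    exact ⟨(f u x)⁻¹ • x, by rw [sr, inv_mul_cancel₀ hx]⟩
  obtain ⟨v1', hv1'⟩ := pick u1 hu10
  obtain ⟨v1, hv1⟩ : ∃ v, v = v1' - ((2 : F)⁻¹ * f v1' v1') • u1 := ⟨_, rfl⟩
  have e_u1u1 : f u1 u1 = 0 := hts _ hu1U
  have e_u1v1 : f u1 v1 = 1 := by rw [hv1, sbr, hv1', e_u1u1]; ring
  have e_v1v1 : f v1 v1 = 0 := by
    rw [hv1, sbl, sbr, sbr, hf.symm v1' u1, hv1', e_u1u1]
    field_simp; ring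
  obtain ⟨u2, hu2⟩ : ∃ v, v = w - (f w v1) • u1 := ⟨_, rfl⟩
  have hu2U : u2 ∈ U := by rw [hu2]; exact U.sub_mem hwU (U.smul_mem _ hu1U)
  have hu20 : u2 ≠ 0 := by rw [hu2]; exact hw _
  have e_u1u2 : f u1 u2 = 0 := hiso _ hu1U _ hu2U
  have e_u2u2 : f u2 u2 = 0 := hts _ hu2U
  have e_u2v1 : f u2 v1 = 0 := by rw [hu2, sbl, e_u1v1]; ring
  obtain ⟨x, hx⟩ := pick u2 hu20
  obtain ⟨y, hy⟩ : ∃ v, v = x - (f u1 x) • v1 := ⟨_, rfl⟩
  have e_u1y : f u1 y = 0 := by rw [hy, sbr, e_u1v1]; ring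
  have e_u2y : f u2 y = 1 := by rw [hy, sbr, hx, e_u2v1]; ring
  obtain ⟨z, hz⟩ : ∃ v, v = y - (f v1 y) • u1 := ⟨_, rfl⟩
  have e_u1z : f u1 z = 0 := by rw [hz, sbr, e_u1y, e_u1u1]; ring
  have e_u2z : f u2 z = 1 := by rw [hz, sbr, e_u2y, hf.symm u2 u1, e_u1u2]; ring
  have e_v1z : f v1 z = 0 := by rw [hz, sbr, hf.symm v1 u1, e_u1v1]; ring
  obtain ⟨v2, hv2⟩ : ∃ v, v = z - ((2 : F)⁻¹ * f z z) • u2 := ⟨_, rfl⟩
  have e_u1v2 : f u1 v2 = 0 := by rw [hv2, sbr, e_u1z, e_u1u2]; ring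
  have e_u2v2 : f u2 v2 = 1 := by rw [hv2, sbr, e_u2z, e_u2u2]; ring
  have e_v1v2 : f v1 v2 = 0 := by rw [hv2, sbr, e_v1z, hf.symm v1 u2, e_u2v1]; ring
  have e_v2v2 : f v2 v2 = 0 := by
    rw [hv2, sbl, sbr, sbr, hf.symm z u2, e_u2z, e_u2u2]
    field_simp; ring
  have s1 : f u2 u1 = 0 := by rw [hf.symm, e_u1u2]
  have s2 : f v1 u1 = 1 := by rw [hf.symm, e_u1v1]
  have s3 : f v2 u1 = 0 := by rw [hf.symm, e_u1v2]
  have s4 : f v1 u2 = 0 := by rw [hf.symm, e_u2v1]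
  have s5 : f v2 u2 = 1 := by rw [hf.symm, e_u2v2]
  have s6 : f v2 v1 = 0 := by rw [hf.symm, e_v1v2]
  let Wc : Fin 4 → Fin 4 → F := ![u1, u2, -v2, v1]
  let M : Matrix (Fin 4) (Fin 4) F := fun i j => Wc j i
  have hMc : ∀ j, M *ᵥ (Pi.single j 1) = Wc j := by
    intro j
    ext i
    rw [Matrix.mulVec_single_one]
    rfl
  have hG : Mᵀ * gramMatrix f * M = (WW F).submatrix EE EE := by
    ext i j
    have h1 := fog_mul (RingEquiv.refl F) (gramMatrix f) M (Pi.single i 1) (Pi.single j 1)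
    rw [fog_single, fog_gram (IsSesq.of_bilinear hb)] at h1
    have h2' : M.map (RingEquiv.refl F) = M := rfl
    rw [h2'] at h1
    rw [← h1, hMc, hMc, Matrix.submatrix_apply]
    fin_cases i <;> fin_cases j <;>
      simp [Wc, EE0, EE1, EE2, EE3, WW, om, Matrix.kroneckerMap_apply, nl, nr, e_u1u1, e_u1u2, e_u1v1, e_u1v2, e_u2u2, e_u2v1,
        e_u2v2, e_v1v1, e_v1v2, e_v2v2, s1, s2, s3, s4, s5, s6]
  have hMu : ((WW F).submatrix EE EE * (Mᵀ * gramMatrix f)) * M = 1 := by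
    rw [mul_assoc, hG, WWE_sq]
  exact ⟨⟨M, _, mul_eq_one_comm.mp hMu, hMu⟩, hG⟩

section

variable {κ₁ κ₂ : Type} [Fintype κ₁] [DecidableEq κ₁] [Fintype κ₂] [DecidableEq κ₂]

lemma kron_ind {p : Matrix (κ₁ × κ₂) (κ₁ × κ₂) F → Prop} (hk : ∀ X Y, p (X ⊗ₖ Y)) (hadd : ∀ X Y, p X → p Y → p (X + Y))
    (h0 : p 0) (M : Matrix (κ₁ × κ₂) (κ₁ × κ₂) F) : p M := by
  have hsum : ∀ (γ : Type) (s : Finset γ) (g : γ → Matrix (κ₁ × κ₂) (κ₁ × κ₂) F), (∀ i ∈ s, p (g i)) → p (∑ i ∈ s, g i) := by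
    intro γ s g hg
    exact Finset.sum_induction _ p hadd h0 hg
  rw [Matrix.matrix_eq_sum_single M]
  refine hsum _ _ _ (fun i _ => hsum _ _ _ (fun j _ => ?_))
  have h1 : Matrix.single i j (M i j) = Matrix.single i.1 j.1 (M i j) ⊗ₖ Matrix.single i.2 j.2 (1 : F) := by
    ext ⟨a, b⟩ ⟨c, d⟩
    obtain ⟨i1, i2⟩ := i
    obtain ⟨j1, j2⟩ := j
    simp only [Matrix.kroneckerMap_apply, Matrix.single_apply, Prod.mk.injEq]
    by_cases h1 : i1 = a <;> by_cases h2 : i2 = b <;> by_cases h3 : j1 = c <;> by_cases h4 : j2 = d <;> simp [h1, h2, h3, h4]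
  rw [h1]
  exact hk _ _

end

/-- reindexing -/
noncomputable def rho (F : Type*) [Field F] : Matrix K2 K2 F →ₐ[F] Matrix (Fin 4) (Fin 4) F :=
  ((Matrix.reindexAlgEquiv F F EE).symm : Matrix K2 K2 F →ₐ[F] Matrix (Fin 4) (Fin 4) F)

lemma rho_apply (X : Matrix K2 K2 F) : rho F X = X.submatrix EE EE := rfl

lemma rho_inj {X Y : Matrix K2 K2 F} (h : rho F X = rho F Y) : X = Y :=
  (Matrix.reindexAlgEquiv F F EE).symm.injective h

lemma rho_surj (Y : Matrix (Fin 4) (Fin 4) F) : ∃ X, rho F X = Y :=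
  (Matrix.reindexAlgEquiv F F EE).symm.surjective Y

lemma rho_transpose (X : Matrix K2 K2 F) : (rho F X)ᵀ = rho F Xᵀ := rfl

/-- the three factors -/
noncomputable def psi (F : Type*) [Field F] : Fin 3 → (Matrix (Fin 2) (Fin 2) F →ₐ[F] Matrix (Fin 2 × Fin 4) (Fin 2 × Fin 4) F) :=
  ![kl (Fin 2) (Fin 4) F, (kr (Fin 2) (Fin 4) F).comp ((rho F).comp (kl (Fin 2) (Fin 2) F)),
    (kr (Fin 2) (Fin 4) F).comp ((rho F).comp (kr (Fin 2) (Fin 2) F))]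

lemma psi0 (X : Matrix (Fin 2) (Fin 2) F) : psi F 0 X = X ⊗ₖ (1 : Matrix (Fin 4) (Fin 4) F) := rfl
lemma psi1 (X : Matrix (Fin 2) (Fin 2) F) : psi F 1 X = (1 : Matrix (Fin 2) (Fin 2) F) ⊗ₖ rho F (ph0 X) := rfl
lemma psi2 (X : Matrix (Fin 2) (Fin 2) F) : psi F 2 X = (1 : Matrix (Fin 2) (Fin 2) F) ⊗ₖ rho F (ph1 X) := rfl

lemma rho01 (X Y : Matrix (Fin 2) (Fin 2) F) : rho F (ph0 X) * rho F (ph1 Y) = rho F (X ⊗ₖ Y) := by
  rw [← map_mul, ph01]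

lemma rho10 (X Y : Matrix (Fin 2) (Fin 2) F) : rho F (ph1 Y) * rho F (ph0 X) = rho F (X ⊗ₖ Y) := by
  rw [← map_mul, ph10]

lemma k01 (X : Matrix (Fin 2) (Fin 2) F) (Z : Matrix (Fin 4) (Fin 4) F) :
    (X ⊗ₖ (1 : Matrix (Fin 4) (Fin 4) F)) * ((1 : Matrix (Fin 2) (Fin 2) F) ⊗ₖ Z) = X ⊗ₖ Z := by
  rw [← Matrix.mul_kronecker_mul, mul_one, one_mul]

lemma k10 (X : Matrix (Fin 2) (Fin 2) F) (Z : Matrix (Fin 4) (Fin 4) F) :
    ((1 : Matrix (Fin 2) (Fin 2) F) ⊗ₖ Z) * (X ⊗ₖ (1 : Matrix (Fin 4) (Fin 4) F)) = X ⊗ₖ Z := by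
  rw [← Matrix.mul_kronecker_mul, mul_one, one_mul]

lemma k11 (Z Z' : Matrix (Fin 4) (Fin 4) F) :
    ((1 : Matrix (Fin 2) (Fin 2) F) ⊗ₖ Z) * ((1 : Matrix (Fin 2) (Fin 2) F) ⊗ₖ Z') = (1 : Matrix (Fin 2) (Fin 2) F) ⊗ₖ (Z * Z') := by
  rw [← Matrix.mul_kronecker_mul, mul_one]

lemma psi_comm (i j : Fin 3) (hij : i ≠ j) (x y : Matrix (Fin 2) (Fin 2) F) : psi F i x * psi F j y = psi F j y * psi F i x := by
  have h01 : ∀ x y, psi F 0 x * psi F 1 y = psi F 1 y * psi F 0 x := by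
    intro x y; rw [psi0, psi1, k01, k10]
  have h02 : ∀ x y, psi F 0 x * psi F 2 y = psi F 2 y * psi F 0 x := by
    intro x y; rw [psi0, psi2, k01, k10]
  have h12 : ∀ x y, psi F 1 x * psi F 2 y = psi F 2 y * psi F 1 x := by
    intro x y; rw [psi1, psi2, k11, k11, rho01, rho10]
  fin_cases i <;> fin_cases j
  · exact absurd rfl hij
  · exact h01 x y
  · exact h02 x y
  · exact (h01 y x).symm
  · exact absurd rfl hij
  · exact h12 x y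
  · exact (h02 y x).symm
  · exact (h12 y x).symm
  · exact absurd rfl hij

lemma psi_top {Z : Matrix (Fin 2 × Fin 4) (Fin 2 × Fin 4) F} (h : ∀ i x, Z * psi F i x = psi F i x * Z) : ∃ c : F, Z = algebraMap F _ c := by
  have h0 : ∀ X : Matrix (Fin 2) (Fin 2) F, Z * (X ⊗ₖ (1 : Matrix (Fin 4) (Fin 4) F)) = (X ⊗ₖ (1 : Matrix (Fin 4) (Fin 4) F)) * Z := fun X => h 0 X
  have h1 : ∀ Y : Matrix K2 K2 F, Z * ((1 : Matrix (Fin 2) (Fin 2) F) ⊗ₖ rho F Y) = ((1 : Matrix (Fin 2) (Fin 2) F) ⊗ₖ rho F Y) * Z := by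
    intro Y
    refine kron_ind (p := fun Y => Z * ((1 : Matrix (Fin 2) (Fin 2) F) ⊗ₖ rho F Y) = ((1 : Matrix (Fin 2) (Fin 2) F) ⊗ₖ rho F Y) * Z) ?_ ?_ ?_ Y
    · intro A B
      have e1 := h 1 A
      have e2 := h 2 B
      rw [psi1] at e1
      rw [psi2] at e2
      rw [← rho01, ← k11, ← mul_assoc, e1, mul_assoc, e2, mul_assoc]
    · intro A B hA hB
      rw [map_add, Matrix.kronecker_add, mul_add, add_mul, hA, hB]
    · rw [map_zero, Matrix.kronecker_zero, mul_zero, zero_mul]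
  have h2 : ∀ M : Matrix (Fin 2 × Fin 4) (Fin 2 × Fin 4) F, Z * M = M * Z := by
    intro M
    refine kron_ind (p := fun M => Z * M = M * Z) ?_ ?_ ?_ M
    · intro A B
      obtain ⟨Y, rfl⟩ := rho_surj B
      rw [← k01, ← mul_assoc, h0, mul_assoc, h1, mul_assoc]
    · intro A B hA hB
      rw [mul_add, add_mul, hA, hB]
    · rw [mul_zero, zero_mul]
  obtain ⟨c, hc⟩ := Matrix.mem_range_scalar_of_commute_single (M := Z) (fun i j _ => (h2 _).symm)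
  refine ⟨c, ?_⟩
  rw [← hc]
  rfl

lemma fog_psi {G₁ : Matrix (Fin 2) (Fin 2) F} (h0 : G₁ 0 0 = 0) (h1 : G₁ 1 1 = 0) (h10 : G₁ 1 0 = -G₁ 0 1) {a : Matrix (Fin 2) (Fin 2) F}
    (ha : a.det = 1) (i : Fin 3) : (psi F i a)ᵀ * (G₁ ⊗ₖ rho F (WW F)) * psi F i a = G₁ ⊗ₖ rho F (WW F) := by
  have tk : ∀ (A : Matrix (Fin 2) (Fin 2) F) (B : Matrix (Fin 4) (Fin 4) F), (A ⊗ₖ B)ᵀ = Aᵀ ⊗ₖ Bᵀ := fun _ _ => rfl
  have tk2 : ∀ (A B : Matrix (Fin 2) (Fin 2) F), (A ⊗ₖ B)ᵀ = Aᵀ ⊗ₖ Bᵀ := fun _ _ => rfl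
  have hom : aᵀ * om F * a = om F := alt_pres (by simp [om]) (by simp [om]) (by simp [om]) ha
  have hp0 : (ph0 a)ᵀ * WW F * ph0 a = WW F := by
    rw [ph0, WW, tk2, ← Matrix.mul_kronecker_mul, ← Matrix.mul_kronecker_mul, hom, Matrix.transpose_one, one_mul, mul_one]
  have hp1 : (ph1 a)ᵀ * WW F * ph1 a = WW F := by
    rw [ph1, WW, tk2, ← Matrix.mul_kronecker_mul, ← Matrix.mul_kronecker_mul, hom, Matrix.transpose_one, one_mul, mul_one]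
  fin_cases i
  · change (psi F 0 a)ᵀ * (G₁ ⊗ₖ rho F (WW F)) * psi F 0 a = _
    rw [psi0, tk, ← Matrix.mul_kronecker_mul, ← Matrix.mul_kronecker_mul, alt_pres h0 h1 h10 ha, Matrix.transpose_one, one_mul, mul_one]
  · change (psi F 1 a)ᵀ * (G₁ ⊗ₖ rho F (WW F)) * psi F 1 a = _
    rw [psi1, tk, ← Matrix.mul_kronecker_mul, ← Matrix.mul_kronecker_mul, Matrix.transpose_one, one_mul, mul_one, rho_transpose,
      ← map_mul, ← map_mul, hp0]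
  · change (psi F 2 a)ᵀ * (G₁ ⊗ₖ rho F (WW F)) * psi F 2 a = _
    rw [psi2, tk, ← Matrix.mul_kronecker_mul, ← Matrix.mul_kronecker_mul, Matrix.transpose_one, one_mul, mul_one, rho_transpose,
      ← map_mul, ← map_mul, hp1]

/-- **three commuting quaternion algebras from a plus type tensor structure** -/
theorem w3_of_tpos {ι : Type} [Fintype ι] [DecidableEq ι] [Nonempty ι] {f : (ι → F) → (ι → F) → F} {H : Subgroup (GL ι F)}
    {e : ι ≃ Fin 2 × Fin 4} {P : GL ι F} {G₁ : Matrix (Fin 2) (Fin 2) F} (h2 : (2 : F) ≠ 0)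
    (h : TPos (RingEquiv.refl F) f H e P G₁ ((WW F).submatrix EE EE))
    (h0 : G₁ 0 0 = 0) (h1 : G₁ 1 1 = 0) (h10 : G₁ 1 0 = -G₁ 0 1)
    (hiso : ∀ g ∈ H, ∀ u v, f ((g : Matrix ι ι F) *ᵥ u) ((g : Matrix ι ι F) *ᵥ v) = f u v) :
    ∃ φ : Fin 3 → (Matrix (Fin 2) (Fin 2) F →ₐ[F] Matrix ι ι F), W3 f H φ ∧ ∀ i, Function.Injective (φ i) := by
  let φ : Fin 3 → (Matrix (Fin 2) (Fin 2) F →ₐ[F] Matrix ι ι F) := fun i =>
    ((cr e P : Matrix (Fin 2 × Fin 4) (Fin 2 × Fin 4) F →ₐ[F] Matrix ι ι F)).comp (psi F i)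
  have hφ : ∀ i X, φ i X = cr e P (psi F i X) := fun i X => rfl
  have hPinv : ∀ w : ι → F, ∃ x : Fin 2 × Fin 4 → F, w = (P : Matrix ι ι F) *ᵥ (x ∘ e) := by
    intro w
    refine ⟨(((P⁻¹ : GL ι F) : Matrix ι ι F) *ᵥ w) ∘ e.symm, ?_⟩
    have : ((((P⁻¹ : GL ι F) : Matrix ι ι F) *ᵥ w) ∘ e.symm) ∘ e = ((P⁻¹ : GL ι F) : Matrix ι ι F) *ᵥ w := by
      ext i; simp
    rw [this, Matrix.mulVec_mulVec, ← Units.val_mul, mul_inv_cancel, Units.val_one, Matrix.one_mulVec]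
  refine ⟨φ, ⟨?_, ?_, ?_, ?_⟩, ?_⟩
  · intro i j hij x y
    rw [hφ, hφ, ← map_mul, ← map_mul, psi_comm i j hij]
  · intro X hX
    obtain ⟨Z, rfl⟩ := (cr e P).surjective X
    obtain ⟨c, hc⟩ := psi_top (Z := Z) (fun i x => by
      apply (cr e P).injective
      rw [map_mul, map_mul]
      exact hX i x)
    exact ⟨c, by rw [hc, AlgEquiv.commutes]⟩
  · intro i a ha u v
    obtain ⟨x, rfl⟩ := hPinv u
    obtain ⟨y, rfl⟩ := hPinv v
    rw [hφ, cr_mulVec', cr_mulVec']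
    change coF e P f _ _ = coF e P f _ _
    rw [h.form, h.form, fog_mul]
    have e1 : (psi F i (a : Matrix (Fin 2) (Fin 2) F)).map (RingEquiv.refl F) = psi F i (a : Matrix (Fin 2) (Fin 2) F) := rfl
    rw [e1]
    have e2 := fog_psi h0 h1 h10 (mem_N0.mp ha) i
    rw [rho_apply] at e2
    rw [e2]
  · intro g hg
    obtain ⟨a, b, c, hc, hab, ha, hb⟩ := h.mult (by norm_num) (by norm_num) hg (hiso g hg)
    have hgi := inv_of_kron hab
    let b' : GL K2 F := Units.map ((Matrix.reindexAlgEquiv F F EE : Matrix (Fin 4) (Fin 4) F →ₐ[F] Matrix K2 K2 F) : Matrix (Fin 4) (Fin 4) F →* Matrix K2 K2 F) b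
    have hb1 : rho F (b' : Matrix K2 K2 F) = (b : Matrix (Fin 4) (Fin 4) F) :=
      (Matrix.reindexAlgEquiv F F EE).symm_apply_apply (b : Matrix (Fin 4) (Fin 4) F)
    have hb2 : rho F ((b'⁻¹ : GL K2 F) : Matrix K2 K2 F) = ((b⁻¹ : GL (Fin 4) F) : Matrix (Fin 4) (Fin 4) F) :=
      (Matrix.reindexAlgEquiv F F EE).symm_apply_apply ((b⁻¹ : GL (Fin 4) F) : Matrix (Fin 4) (Fin 4) F)
    have hb3 : (b' : Matrix K2 K2 F)ᵀ * WW F * (b' : Matrix K2 K2 F) = c⁻¹ • WW F := by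
      apply rho_inj
      rw [map_mul, map_mul, map_smul, ← rho_transpose, hb1]
      exact hb
    have hcb : ∀ Z, rho F (cb b' Z) = (b : Matrix (Fin 4) (Fin 4) F) * rho F Z * ((b⁻¹ : GL (Fin 4) F) : Matrix (Fin 4) (Fin 4) F) := by
      intro Z
      rw [cb, map_mul, map_mul, hb1, hb2]
    have hc0 : ∀ X, (g : Matrix ι ι F) * φ 0 X * ((g⁻¹ : GL ι F) : Matrix ι ι F) =
        φ 0 ((a : Matrix (Fin 2) (Fin 2) F) * X * ((a⁻¹ : GL (Fin 2) F) : Matrix (Fin 2) (Fin 2) F)) := by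
      intro X
      rw [hφ, hφ, psi0, psi0, hab, hgi, ← map_mul, ← map_mul, ← Matrix.mul_kronecker_mul, ← Matrix.mul_kronecker_mul, mul_one, Units.mul_inv]
    have hc1 : ∀ Z, (g : Matrix ι ι F) * cr e P ((1 : Matrix (Fin 2) (Fin 2) F) ⊗ₖ rho F Z) * ((g⁻¹ : GL ι F) : Matrix ι ι F) =
        cr e P ((1 : Matrix (Fin 2) (Fin 2) F) ⊗ₖ rho F (cb b' Z)) := by
      intro Z
      rw [hcb, hab, hgi, ← map_mul, ← map_mul, ← Matrix.mul_kronecker_mul, ← Matrix.mul_kronecker_mul, mul_one, Units.mul_inv]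
    rcases factor_perm h2 hb3 with ⟨p0, p1⟩ | ⟨p0, p1⟩
    · refine ⟨1, fun i X => ?_⟩
      fin_cases i
      · exact ⟨_, hc0 X⟩
      · obtain ⟨Y, hY⟩ := p0 X
        refine ⟨Y, ?_⟩
        change (g : Matrix ι ι F) * cr e P ((1 : Matrix (Fin 2) (Fin 2) F) ⊗ₖ rho F (ph0 X)) * ((g⁻¹ : GL ι F) : Matrix ι ι F) =
          cr e P ((1 : Matrix (Fin 2) (Fin 2) F) ⊗ₖ rho F (ph0 Y))
        rw [hc1, hY]
      · obtain ⟨Y, hY⟩ := p1 X
        refine ⟨Y, ?_⟩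
        change (g : Matrix ι ι F) * cr e P ((1 : Matrix (Fin 2) (Fin 2) F) ⊗ₖ rho F (ph1 X)) * ((g⁻¹ : GL ι F) : Matrix ι ι F) =
          cr e P ((1 : Matrix (Fin 2) (Fin 2) F) ⊗ₖ rho F (ph1 Y))
        rw [hc1, hY]
    · refine ⟨Equiv.swap 1 2, fun i X => ?_⟩
      fin_cases i
      · exact ⟨_, hc0 X⟩
      · obtain ⟨Y, hY⟩ := p0 X
        refine ⟨Y, ?_⟩
        change (g : Matrix ι ι F) * cr e P ((1 : Matrix (Fin 2) (Fin 2) F) ⊗ₖ rho F (ph0 X)) * ((g⁻¹ : GL ι F) : Matrix ι ι F) =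
          cr e P ((1 : Matrix (Fin 2) (Fin 2) F) ⊗ₖ rho F (ph1 Y))
        rw [hc1, hY]
      · obtain ⟨Y, hY⟩ := p1 X
        refine ⟨Y, ?_⟩
        change (g : Matrix ι ι F) * cr e P ((1 : Matrix (Fin 2) (Fin 2) F) ⊗ₖ rho F (ph1 X)) * ((g⁻¹ : GL ι F) : Matrix ι ι F) =
          cr e P ((1 : Matrix (Fin 2) (Fin 2) F) ⊗ₖ rho F (ph0 Y))
        rw [hc1, hY]
  · intro i
    exact (φ i : Matrix (Fin 2) (Fin 2) F →+* Matrix ι ι F).injective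

/-- **the plus type case** -/
theorem plus_case [Fintype F] (hodd : Odd (Fintype.card F)) {H : Subgroup (GL (Fin 4 ⊕ Fin 4) F)} (hH : H ≤ spGL 4 F)
    {e : (Fin 4 ⊕ Fin 4) ≃ Fin 2 × Fin 4} {P : GL (Fin 4 ⊕ Fin 4) F} {f₁ : (Fin 2 → F) → (Fin 2 → F) → F}
    {f₂ : (Fin 4 → F) → (Fin 4 → F) → F} (h1 : IsSymplecticForm f₁) (h2 : IsSymmetricForm f₂)
    (hpl : IsPlusTypeOn (fun v => f₂ v v) ⊤) (hs : IsTensorFormStructure id (sympForm 4 F) f₁ f₂ e P)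
    (hle : H ≤ tensorProductSubgroup 2 4 e P) :
    (∃ (e' : (Fin 4 ⊕ Fin 4) ≃ (Fin 3 → Fin 2)) (P' : GL (Fin 4 ⊕ Fin 4) F) (f₁' : (Fin 2 → F) → (Fin 2 → F) → F),
      IsSymplecticForm f₁' ∧ IsTensorPowerFormStructure id (sympForm 4 F) f₁' e' P' ∧ H ≤ tensorWreathSubgroup 2 3 e' P') ∧
    (Fintype.card F = 3 → ∃ R : Subgroup (GL (Fin 4 ⊕ Fin 4) F), IsSymplecticTypeGroup 2 R ∧
      ActsAbsolutelyIrreducibly (matrixSet R) ∧ R ≤ similarityGroup (sympForm 4 F) ∧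
      Nat.card R = 128 ∧ Nat.card (Subgroup.center R) = 2 ∧ IsOfMinusType 3 R ∧ H ≤ subgroupNormalizer R) := by
  have h20 : (2 : F) ≠ 0 := two_ne_zero_of_odd hodd
  have hf := sympForm_symplectic 4 F
  have hiso : ∀ g ∈ H, ∀ u v, sympForm 4 F ((g : Matrix (Fin 4 ⊕ Fin 4) (Fin 4 ⊕ Fin 4) F) *ᵥ u)
      ((g : Matrix (Fin 4 ⊕ Fin 4) (Fin 4 ⊕ Fin 4) F) *ᵥ v) = sympForm 4 F u v := fun g hg => hH hg
  obtain ⟨c, hc, hpos⟩ := H97.AschFrame.tpos_of_struct (σ := RingEquiv.refl F) (IsSesq.of_bilinear h1.bilinear)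
    (fun v hv => (h1.nondegenerate v hv).2) (IsSesq.of_bilinear h2.bilinear) (fun v hv => (h2.nondegenerate v hv).2) hle hs
  obtain ⟨U, -, hU1, hU2⟩ := hpl
  have hUr : Module.finrank F U = 2 := by
    rw [finrank_top, Module.finrank_pi, Fintype.card_fin] at hU2
    omega
  obtain ⟨B, hB⟩ := hyp_form h20 h2 hUr hU1
  have h3 := TPos.change hpos 1 B
  have hB' : (B : Matrix (Fin 4) (Fin 4) F)ᵀ * gramMatrix f₂ * (B : Matrix (Fin 4) (Fin 4) F).map (RingEquiv.refl F) =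
      (WW F).submatrix EE EE := hB
  have hA' : ((1 : GL (Fin 2) F) : Matrix (Fin 2) (Fin 2) F)ᵀ * (c • gramMatrix f₁) * ((1 : GL (Fin 2) F) : Matrix (Fin 2) (Fin 2) F).map (RingEquiv.refl F) =
      c • gramMatrix f₁ := by
    have e1 : ((1 : GL (Fin 2) F) : Matrix (Fin 2) (Fin 2) F).map (RingEquiv.refl F) = 1 := rfl
    rw [e1, Units.val_one, Matrix.transpose_one, one_mul, mul_one]
  rw [hB', hA'] at h3
  obtain ⟨φ, hφ, hinj⟩ := w3_of_tpos h20 h3 (by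
    change c • f₁ (Pi.single 0 1) (Pi.single 0 1) = 0
    rw [h1.alternating, smul_zero]) (by
    change c • f₁ (Pi.single 1 1) (Pi.single 1 1) = 0
    rw [h1.alternating, smul_zero]) (by
    change c • f₁ (Pi.single 1 1) (Pi.single 0 1) = -(c • f₁ (Pi.single 0 1) (Pi.single 1 1))
    rw [h1.skew, smul_neg]) hiso
  refine ⟨hφ.power hf, fun h3 => ?_⟩
  obtain ⟨r1, r2, r3, r4, r5, r6⟩ := hφ.data h3 hf (by simp)
  exact ⟨rgrp (sympForm 4 F) φ, r1, r2, r3, r4, r5, r6, fun g hg => H96.AschSympType3.mem_subgroupNormalizer (fun x hx => hφ.norm h3 hiso hinj g hg x hx)⟩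

end H61.Sp8d
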