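import Mathlib
import Cfsg.Agent.Lib.H61.SpQ4

/-!
Standard generators of the class 6 group of order 32 in Sp4(3).
-/

set_option autoImplicit false
set_option linter.unusedSectionVars false

namespace H61.SpQ4b

open Cfsg Cfsg.Geo Matrix
open H96.AschSympType5 H61.SpQ4

variable {F : Type*} [Field F]

abbrev J2 := Fin 2 ⊕ Fin 2

/-- the basic 2x2 matrices -/
def y2 (F : Type*) [Field F] : Matrix (Fin 2) (Fin 2) F := !![0, 1; -1, 0]
def d2 (F : Type*) [Field F] : Matrix (Fin 2) (Fin 2) F := !![1, 0; 0, -1]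

def I0 (F : Type*) [Field F] : Matrix J2 J2 F := fromBlocks 0 (-1) 1 0
def X0 (F : Type*) [Field F] : Matrix J2 J2 F := fromBlocks 0 (-d2 F) (d2 F) 0
def Y0 (F : Type*) [Field F] : Matrix J2 J2 F := fromBlocks (y2 F) 0 0 (y2 F)
def T0 (F : Type*) [Field F] : Matrix J2 J2 F := fromBlocks (-y2 F) (-y2 F) (-y2 F) (y2 F)

lemma y2_sq : y2 F * y2 F = -1 := by
  ext i j
  fin_cases i <;> fin_cases j <;> simp [y2, Matrix.mul_apply, Fin.sum_univ_two]

lemma d2_sq : d2 F * d2 F = 1 := by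
  ext i j
  fin_cases i <;> fin_cases j <;> simp [d2, Matrix.mul_apply, Fin.sum_univ_two]

lemma dy : d2 F * y2 F = -(y2 F * d2 F) := by
  ext i j
  fin_cases i <;> fin_cases j <;> simp [d2, y2, Matrix.mul_apply, Fin.sum_univ_two]

lemma fb_one : (fromBlocks 1 0 0 1 : Matrix J2 J2 F) = 1 := Matrix.fromBlocks_one

lemma fb_neg_one : (fromBlocks (-1) 0 0 (-1) : Matrix J2 J2 F) = -1 := by
  rw [← Matrix.fromBlocks_one, Matrix.fromBlocks_neg]; simp

lemma II : I0 F * I0 F = -1 := by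
  rw [I0, Matrix.fromBlocks_multiply, ← fb_neg_one]; simp

lemma XX : X0 F * X0 F = -1 := by
  rw [X0, Matrix.fromBlocks_multiply, ← fb_neg_one]; simp [d2_sq]

lemma YY : Y0 F * Y0 F = -1 := by
  rw [Y0, Matrix.fromBlocks_multiply, ← fb_neg_one]; simp [y2_sq]

lemma TT (h3 : (3 : F) = 0) : T0 F * T0 F = 1 := by
  have e : (-1 : Matrix (Fin 2) (Fin 2) F) + -1 = 1 := by
    have : (-1 : F) + -1 = 1 := by linear_combination -h3
    ext i j
    fin_cases i <;> fin_cases j <;> simp [this]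
  rw [T0, Matrix.fromBlocks_multiply, ← fb_one]; simp [y2_sq, e]

lemma IX : I0 F * X0 F = X0 F * I0 F := by
  rw [I0, X0, Matrix.fromBlocks_multiply, Matrix.fromBlocks_multiply]; simp

lemma IY : I0 F * Y0 F = Y0 F * I0 F := by
  rw [I0, Y0, Matrix.fromBlocks_multiply, Matrix.fromBlocks_multiply]; simp

lemma XY : X0 F * Y0 F = -(Y0 F * X0 F) := by
  rw [X0, Y0, Matrix.fromBlocks_multiply, Matrix.fromBlocks_multiply, Matrix.fromBlocks_neg]; simp [dy]

lemma XT : X0 F * T0 F = T0 F * X0 F := by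
  rw [X0, T0, Matrix.fromBlocks_multiply, Matrix.fromBlocks_multiply]; simp [dy]

lemma YT : Y0 F * T0 F = T0 F * Y0 F := by
  rw [Y0, T0, Matrix.fromBlocks_multiply, Matrix.fromBlocks_multiply]; simp

lemma IT : I0 F * T0 F = -(T0 F * I0 F) := by
  rw [I0, T0, Matrix.fromBlocks_multiply, Matrix.fromBlocks_multiply, Matrix.fromBlocks_neg]; simp

lemma sf (x y : J2 → F) : sympForm 2 F x y = x (Sum.inr 0) * y (Sum.inl 0) + x (Sum.inr 1) * y (Sum.inl 1) -
    x (Sum.inl 0) * y (Sum.inr 0) - x (Sum.inl 1) * y (Sum.inr 1) := by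
  simp [sympForm, Matrix.J, dotProduct, Matrix.mulVec, Fintype.sum_sum_type, Fin.sum_univ_two, Matrix.fromBlocks,
    Matrix.one_apply]
  ring

lemma mv (A B C D : Matrix (Fin 2) (Fin 2) F) (x : J2 → F) (i : Fin 2) :
    (fromBlocks A B C D *ᵥ x) (Sum.inl i) = A i 0 * x (Sum.inl 0) + A i 1 * x (Sum.inl 1) + (B i 0 * x (Sum.inr 0) + B i 1 * x (Sum.inr 1)) := by
  simp [Matrix.mulVec, dotProduct, Fintype.sum_sum_type, Fin.sum_univ_two]

lemma mv' (A B C D : Matrix (Fin 2) (Fin 2) F) (x : J2 → F) (i : Fin 2) :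
    (fromBlocks A B C D *ᵥ x) (Sum.inr i) = C i 0 * x (Sum.inl 0) + C i 1 * x (Sum.inl 1) + (D i 0 * x (Sum.inr 0) + D i 1 * x (Sum.inr 1)) := by
  simp [Matrix.mulVec, dotProduct, Fintype.sum_sum_type, Fin.sum_univ_two]

lemma isoI (x y : J2 → F) : sympForm 2 F (I0 F *ᵥ x) (I0 F *ᵥ y) = sympForm 2 F x y := by
  rw [sf, sf, I0]; simp only [mv, mv']; simp; ring

lemma isoX (x y : J2 → F) : sympForm 2 F (X0 F *ᵥ x) (X0 F *ᵥ y) = sympForm 2 F x y := by
  rw [sf, sf, X0]; simp only [mv, mv']; simp [d2]; ring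

lemma isoY (x y : J2 → F) : sympForm 2 F (Y0 F *ᵥ x) (Y0 F *ᵥ y) = sympForm 2 F x y := by
  rw [sf, sf, Y0]; simp only [mv, mv']; simp [y2]; ring

lemma isoT (h3 : (3 : F) = 0) (x y : J2 → F) : sympForm 2 F (T0 F *ᵥ x) (T0 F *ᵥ y) = sympForm 2 F x y := by
  rw [sf, sf, T0]; simp only [mv, mv']; simp [y2]
  linear_combination (-(x (Sum.inr 0) * y (Sum.inl 0) + x (Sum.inr 1) * y (Sum.inl 1) -
    x (Sum.inl 0) * y (Sum.inr 0) - x (Sum.inl 1) * y (Sum.inr 1))) * h3

lemma comm_y {A : Matrix (Fin 2) (Fin 2) F} (h : A * y2 F = y2 F * A) : A 0 0 = A 1 1 ∧ A 0 1 = -A 1 0 := by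
  have h1 := congrFun (congrFun h 0) 0
  have h2 := congrFun (congrFun h 0) 1
  simp [y2, Matrix.mul_apply, Fin.sum_univ_two] at h1 h2
  exact ⟨h2, by linear_combination -h1⟩

lemma comm_d (h2 : (2 : F) ≠ 0) {A : Matrix (Fin 2) (Fin 2) F} (h : A * d2 F = d2 F * A) : A 0 1 = 0 ∧ A 1 0 = 0 := by
  have h1 := congrFun (congrFun h 0) 1
  have h3 := congrFun (congrFun h 1) 0
  simp [d2, Matrix.mul_apply, Fin.sum_univ_two] at h1 h3
  constructor
  · apply (mul_eq_zero.mp (?_ : (2 : F) * A 0 1 = 0)).resolve_left h2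
    linear_combination -h1
  · apply (mul_eq_zero.mp (?_ : (2 : F) * A 1 0 = 0)).resolve_left h2
    linear_combination h3

lemma anti_d (h2 : (2 : F) ≠ 0) {A : Matrix (Fin 2) (Fin 2) F} (h : A * d2 F = -(d2 F * A)) : A 0 0 = 0 ∧ A 1 1 = 0 := by
  have h1 := congrFun (congrFun h 0) 0
  have h3 := congrFun (congrFun h 1) 1
  rw [Matrix.neg_apply, Matrix.mul_apply, Matrix.mul_apply, Fin.sum_univ_two, Fin.sum_univ_two] at h1 h3
  simp [d2] at h1 h3
  constructor
  · apply (mul_eq_zero.mp (?_ : (2 : F) * A 0 0 = 0)).resolve_left h2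
    linear_combination h1
  · apply (mul_eq_zero.mp (?_ : (2 : F) * A 1 1 = 0)).resolve_left h2
    linear_combination -h3

/-- matrices commuting with the complex structure -/
lemma comm_I {M : Matrix J2 J2 F} (h : M * I0 F = I0 F * M) : ∃ A C, M = fromBlocks A (-C) C A := by
  refine ⟨M.toBlocks₁₁, M.toBlocks₂₁, ?_⟩
  rw [← Matrix.fromBlocks_toBlocks M, I0, Matrix.fromBlocks_multiply, Matrix.fromBlocks_multiply, Matrix.fromBlocks_inj] at h
  obtain ⟨h1, h2, h3, h4⟩ := h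
  simp at h1 h2 h3 h4
  conv_lhs => rw [← Matrix.fromBlocks_toBlocks M]
  rw [Matrix.fromBlocks_inj]
  refine ⟨rfl, ?_, rfl, ?_⟩
  · exact h1
  · exact h3

lemma anti_I {M : Matrix J2 J2 F} (h : M * I0 F = -(I0 F * M)) : ∃ A B, M = fromBlocks A B B (-A) := by
  refine ⟨M.toBlocks₁₁, M.toBlocks₁₂, ?_⟩
  rw [← Matrix.fromBlocks_toBlocks M, I0, Matrix.fromBlocks_multiply, Matrix.fromBlocks_multiply, Matrix.fromBlocks_neg,
    Matrix.fromBlocks_inj] at h
  obtain ⟨h1, h2, h3, h4⟩ := h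
  simp at h1 h2 h3 h4
  conv_lhs => rw [← Matrix.fromBlocks_toBlocks M]
  rw [Matrix.fromBlocks_inj]
  refine ⟨rfl, rfl, ?_, ?_⟩
  · exact h1.symm
  · exact h3

lemma fb_smul (s : F) (A B C D : Matrix (Fin 2) (Fin 2) F) :
    s • fromBlocks A B C D = fromBlocks (s • A) (s • B) (s • C) (s • D) := Matrix.fromBlocks_smul s A B C D

theorem star0 (h2 : (2 : F) ≠ 0) {M : Matrix J2 J2 F} (hI : M * I0 F = I0 F * M) (hX : M * X0 F = X0 F * M)
    (hY : M * Y0 F = Y0 F * M) (hT : M * T0 F = T0 F * M) : ∃ c : F, M = c • (1 : Matrix J2 J2 F) := by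
  obtain ⟨A, C, rfl⟩ := comm_I hI
  rw [Y0, Matrix.fromBlocks_multiply, Matrix.fromBlocks_multiply, Matrix.fromBlocks_inj] at hY
  obtain ⟨y1, -, y3, -⟩ := hY
  simp at y1 y3
  rw [X0, Matrix.fromBlocks_multiply, Matrix.fromBlocks_multiply, Matrix.fromBlocks_inj] at hX
  obtain ⟨x1, x2, -, -⟩ := hX
  simp at x1 x2
  rw [T0, Matrix.fromBlocks_multiply, Matrix.fromBlocks_multiply, Matrix.fromBlocks_inj] at hT
  obtain ⟨t1, -, -, -⟩ := hT
  simp at t1
  obtain ⟨a1, a2⟩ := comm_y y1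
  obtain ⟨c1, c2⟩ := comm_y y3
  obtain ⟨a3, a4⟩ := comm_d h2 x2
  obtain ⟨c3, c4⟩ := comm_d h2 x1
  have hA : A = A 0 0 • (1 : Matrix (Fin 2) (Fin 2) F) := by
    ext i j
    fin_cases i <;> fin_cases j <;> simp [a3, a4, a1]
  have hC : C = C 0 0 • (1 : Matrix (Fin 2) (Fin 2) F) := by
    ext i j
    fin_cases i <;> fin_cases j <;> simp [c3, c4, c1]
  have hC0 : C 0 0 = 0 := by
    have e := congrFun (congrFun t1 0) 1
    rw [hA, hC] at e
    simp [y2] at e
    apply (mul_eq_zero.mp (?_ : (2 : F) * C 0 0 = 0)).resolve_left h2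
    linear_combination e
  refine ⟨A 0 0, ?_⟩
  rw [hC0, zero_smul] at hC
  rw [hC, ← fb_one, fb_smul]
  nth_rewrite 1 2 [hA]
  simp

/-- anti-selfadjoint square roots of -1 commuting with the complex structure -/
theorem class1 (h3 : (3 : F) = 0) (hF : ∀ x : F, x ≠ 0 → x * x = 1) {M : Matrix J2 J2 F} (hI : M * I0 F = I0 F * M)
    (hM : M * M = -1) (hadj : ∀ x y, sympForm 2 F (M *ᵥ x) y = -sympForm 2 F x (M *ᵥ y)) :
    ∃ s : F, M = s • I0 F ∨ M = s • X0 F ∨ M = s • Y0 F ∨ M = s • (X0 F * Y0 F) := by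
  have h2 : (2 : F) ≠ 0 := by
    intro h
    have : (1 : F) = 0 := by linear_combination h3 - h
    exact one_ne_zero this
  obtain ⟨A, C, rfl⟩ := comm_I hI
  have e1 := hadj (Pi.single (Sum.inl 0) 1) (Pi.single (Sum.inl 1) 1)
  have e2 := hadj (Pi.single (Sum.inl 0) 1) (Pi.single (Sum.inr 0) 1)
  have e3 := hadj (Pi.single (Sum.inl 1) 1) (Pi.single (Sum.inr 1) 1)
  have e4 := hadj (Pi.single (Sum.inl 0) 1) (Pi.single (Sum.inr 1) 1)
  rw [sf, sf] at e1 e2 e3 e4
  simp only [mv, mv'] at e1 e2 e3 e4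
  simp at e1 e2 e3 e4
  rw [Matrix.fromBlocks_multiply, ← fb_neg_one, Matrix.fromBlocks_inj] at hM
  obtain ⟨m1, m2, -, -⟩ := hM
  have f00 := congrFun (congrFun m1 0) 0
  have f11 := congrFun (congrFun m1 1) 1
  have f01 := congrFun (congrFun m1 0) 1
  have g00 := congrFun (congrFun m2 0) 0
  have g01 := congrFun (congrFun m2 0) 1
  have g11 := congrFun (congrFun m2 1) 1
  simp [Matrix.mul_apply, Fin.sum_univ_two] at f00 f11 f01 g00 g01 g11
  have a00 : A 0 0 = 0 := (mul_eq_zero.mp (by linear_combination -e2 : (2 : F) * A 0 0 = 0)).resolve_left h2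
  have a11 : A 1 1 = 0 := (mul_eq_zero.mp (by linear_combination -e3 : (2 : F) * A 1 1 = 0)).resolve_left h2
  have a10 : A 1 0 = -A 0 1 := by linear_combination -e4
  have hA : A = A 0 1 • y2 F := by
    ext i j
    fin_cases i <;> fin_cases j <;> simp [y2, a00, a11, a10]
  have hXY : X0 F * Y0 F = fromBlocks 0 (-(d2 F * y2 F)) (d2 F * y2 F) 0 := by
    rw [X0, Y0, Matrix.fromBlocks_multiply]; simp
  have hdy : d2 F * y2 F = !![0, 1; 1, 0] := by
    ext i j
    fin_cases i <;> fin_cases j <;> simp [d2, y2, Matrix.mul_apply, Fin.sum_univ_two]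
  simp only [a00, a10, a11, e1] at f00 f01 g01 f11
  by_cases hbd : C 0 0 + C 1 1 = 0
  · have c11 : C 1 1 = -C 0 0 := by linear_combination hbd
    have hsum : A 0 1 * A 0 1 + C 0 0 * C 0 0 + C 0 1 * C 0 1 = 1 := by linear_combination -f00
    by_cases ha : A 0 1 = 0
    · by_cases hb : C 0 0 = 0
      · refine ⟨C 0 1, Or.inr (Or.inr (Or.inr ?_))⟩
        have hC : C = C 0 1 • !![0, 1; 1, 0] := by
          ext i j
          fin_cases i <;> fin_cases j <;> simp [c11, hb, e1]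
        rw [hXY, fb_smul, hdy, hA, ha]
        nth_rewrite 1 2 [hC]
        simp
      · have hb1 := hF _ hb
        have hc : C 0 1 = 0 := by
          have : C 0 1 * C 0 1 = 0 := by rw [ha] at hsum; linear_combination hsum - hb1
          exact mul_self_eq_zero.mp this
        refine ⟨C 0 0, Or.inr (Or.inl ?_)⟩
        have hC : C = C 0 0 • d2 F := by
          ext i j
          fin_cases i <;> fin_cases j <;> simp [d2, c11, hc, e1]
        rw [X0, fb_smul, hA, ha]
        nth_rewrite 1 2 [hC]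
        simp
    · have ha1 := hF _ ha
      have hz : C 0 0 * C 0 0 + C 0 1 * C 0 1 = 0 := by linear_combination hsum - ha1
      have hc0 : C 0 0 = 0 := by
        by_contra hb
        have hb1 := hF _ hb
        by_cases hc : C 0 1 = 0
        · rw [hc] at hz
          exact one_ne_zero (by linear_combination hz - hb1 : (1 : F) = 0)
        · have hc1 := hF _ hc
          exact h2 (by linear_combination hz - hb1 - hc1)
      have hc1 : C 0 1 = 0 := by
        rw [hc0] at hz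
        exact mul_self_eq_zero.mp (by linear_combination hz)
      refine ⟨A 0 1, Or.inr (Or.inr (Or.inl ?_))⟩
      have hC : C = 0 := by
        ext i j
        fin_cases i <;> fin_cases j <;> simp [c11, hc0, hc1, e1]
      rw [Y0, fb_smul, hC]
      nth_rewrite 1 2 [hA]
      simp
  · have hc01 : C 0 1 = 0 := (mul_eq_zero.mp (by linear_combination -f01 : C 0 1 * (C 0 0 + C 1 1) = 0)).resolve_right hbd
    have ha01 : A 0 1 = 0 := (mul_eq_zero.mp (by linear_combination -g01 : A 0 1 * (C 0 0 + C 1 1) = 0)).resolve_right hbd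
    have hbd' : C 0 0 - C 1 1 = 0 := by
      refine (mul_eq_zero.mp (?_ : (C 0 0 - C 1 1) * (C 0 0 + C 1 1) = 0)).resolve_right hbd
      linear_combination f11 - f00
    refine ⟨C 0 0, Or.inl ?_⟩
    have hC : C = C 0 0 • 1 := by
      ext i j
      have c11 : C 1 1 = C 0 0 := by linear_combination -hbd'
      fin_cases i <;> fin_cases j <;> simp [c11, hc01, e1]
    rw [I0, fb_smul, hA, ha01]
    nth_rewrite 1 2 [hC]
    simp

/-- involutions commuting with the quaternion group and anticommuting with the complex structure -/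
theorem class2 (h3 : (3 : F) = 0) (hF : ∀ x : F, x ≠ 0 → x * x = 1) {M : Matrix J2 J2 F} (hI : M * I0 F = -(I0 F * M))
    (hX : M * X0 F = X0 F * M) (hY : M * Y0 F = Y0 F * M) (hM : M * M = 1) :
    ∃ s : F, M = s • T0 F ∨ M = s • (I0 F * T0 F) := by
  have h2 : (2 : F) ≠ 0 := by
    intro h
    have : (1 : F) = 0 := by linear_combination h3 - h
    exact one_ne_zero this
  obtain ⟨A, B, rfl⟩ := anti_I hI
  rw [Y0, Matrix.fromBlocks_multiply, Matrix.fromBlocks_multiply, Matrix.fromBlocks_inj] at hY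
  obtain ⟨y1, y3, -, -⟩ := hY
  simp at y1 y3
  rw [X0, Matrix.fromBlocks_multiply, Matrix.fromBlocks_multiply, Matrix.fromBlocks_inj] at hX
  obtain ⟨x1, x2, -, -⟩ := hX
  simp at x1 x2
  obtain ⟨a1, a2⟩ := comm_y y1
  obtain ⟨b1, b2⟩ := comm_y y3
  obtain ⟨a3, a4⟩ := anti_d h2 (by rw [← x2, neg_neg] : A * d2 F = -(d2 F * A))
  obtain ⟨b3, b4⟩ := anti_d h2 x1
  have a10 : A 1 0 = -A 0 1 := by linear_combination a2
  have b10 : B 1 0 = -B 0 1 := by linear_combination b2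
  have hA : A = A 0 1 • y2 F := by
    ext i j
    fin_cases i <;> fin_cases j <;> simp [y2, a3, a4, a10]
  have hB : B = B 0 1 • y2 F := by
    ext i j
    fin_cases i <;> fin_cases j <;> simp [y2, b3, b4, b10]
  rw [Matrix.fromBlocks_multiply, ← fb_one, Matrix.fromBlocks_inj] at hM
  have f00 := congrFun (congrFun hM.1 0) 0
  simp [Matrix.mul_apply, Fin.sum_univ_two] at f00
  simp only [a3, a10, b3, b10] at f00
  have hsum : A 0 1 * A 0 1 + B 0 1 * B 0 1 = -1 := by linear_combination -f00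
  have ha : A 0 1 ≠ 0 := by
    intro ha
    by_cases hb : B 0 1 = 0
    · rw [ha, hb] at hsum
      exact one_ne_zero (by linear_combination hsum : (1 : F) = 0)
    · have := hF _ hb
      rw [ha] at hsum
      exact h2 (by linear_combination hsum - this)
  have hb : B 0 1 ≠ 0 := by
    intro hb
    have := hF _ ha
    rw [hb] at hsum
    exact h2 (by linear_combination hsum - this)
  have ha1 := hF _ ha
  have hb1 := hF _ hb
  have hIT : I0 F * T0 F = fromBlocks (y2 F) (-y2 F) (-y2 F) (-y2 F) := by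
    rw [I0, T0, Matrix.fromBlocks_multiply]; simp
  have hab : (A 0 1 - B 0 1) * (A 0 1 + B 0 1) = 0 := by linear_combination ha1 - hb1
  rcases mul_eq_zero.mp hab with h | h
  · refine ⟨-A 0 1, Or.inl ?_⟩
    have hb' : B 0 1 = A 0 1 := by linear_combination -h
    rw [T0, fb_smul]
    nth_rewrite 1 2 [hA]
    rw [hB, hb']
    simp
  · refine ⟨A 0 1, Or.inr ?_⟩
    have hb' : B 0 1 = -A 0 1 := by linear_combination h
    rw [hIT, fb_smul]
    nth_rewrite 1 2 [hA]
    rw [hB, hb']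
    simp

end H61.SpQ4b
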