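import Mathlib
import Cfsg.Agent.Lib.H61.SpQ4b

/-!
Degree two fields closed under adjoints in Sp4(3): the normaliser normalises a class 6 group.
-/

set_option autoImplicit false
set_option linter.unusedSectionVars false

namespace H61.SpQ4c

open Cfsg Cfsg.Geo Matrix H97.AschEnv H97.AschForm
open H96.AschSympType1 H96.AschSympType3 H96.AschSympType5 H96.AschAdj H96.AschSp H96.AschSp2
open H61.SpQ4 H61.SpQ4b

variable {F : Type*} [Field F]

/-- matrices with prescribed independent columns -/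
lemma exists_cols' {ι : Type} [Fintype ι] [DecidableEq ι] {w : ι → ι → F}
    (hw : ∀ x : ι → F, ∑ j, x j • w j = 0 → x = 0) :
    ∃ Q : GL ι F, ∀ x, (Q : Matrix ι ι F) *ᵥ x = ∑ j, x j • w j := by
  let A : Matrix ι ι F := fun i j => w j i
  have hA : ∀ x, A *ᵥ x = ∑ j, x j • w j := by
    intro x
    ext i
    rw [Finset.sum_apply, Matrix.mulVec, dotProduct]
    refine Finset.sum_congr rfl (fun j _ => ?_)
    rw [Pi.smul_apply, smul_eq_mul, mul_comm]
  have hinj : Function.Injective (fun v => A *ᵥ v) := by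
    intro x y hxy
    have h1 : A *ᵥ (x - y) = 0 := by
      rw [Matrix.mulVec_sub]; exact sub_eq_zero.mpr hxy
    rw [hA] at h1
    exact sub_eq_zero.mp (hw _ h1)
  obtain ⟨U, hU⟩ := Matrix.mulVec_injective_iff_isUnit.mp hinj
  exact ⟨U, fun x => by rw [hU]; exact hA x⟩

lemma sq_one [Fintype F] (h3 : Fintype.card F = 3) (x : F) (hx : x ≠ 0) : x * x = 1 := by
  have := FiniteField.pow_card_sub_one_eq_one x hx
  rw [h3] at this
  rw [← this]; ring

lemma three_zero [Fintype F] (h3 : Fintype.card F = 3) : (3 : F) = 0 := by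
  have := FiniteField.cast_card_eq_zero F
  rw [h3] at this
  exact_mod_cast this

/-- the complex structure in a field of degree two -/
theorem exists_J [Fintype F] (h3 : Fintype.card F = 3) {K : Subalgebra F (Matrix J2 J2 F)} (hK : IsFieldSubalgebra 2 K)
    (hadj : IsAdjointClosedFor (sympForm 2 F) K) (hns : ¬ IsSelfAdjointFor (sympForm 2 F) K) :
    ∃ J ∈ K, J * J = -1 ∧ ∀ u v, sympForm 2 F (J *ᵥ u) v = -sympForm 2 F u (J *ᵥ v) := by
  have h := sp_hform 2 F
  have h2 : (2 : F) ≠ 0 := two_ne_zero_of_odd (by rw [h3]; decide)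
  have hadj' := adj_mem_of_closed h hadj
  obtain ⟨k, hk, hkn⟩ : ∃ k ∈ K, h.adj k ≠ k := by
    by_contra hno
    push Not at hno
    apply hns
    intro k hk u v
    rw [h.adj_spec, hno k hk]
  set a := k - h.adj k with ha
  have haK : a ∈ K := K.sub_mem hk (hadj' k hk)
  have ha0 : a ≠ 0 := fun h0 => hkn (sub_eq_zero.mp h0).symm
  have haa : h.adj a = -a := by rw [ha, h.adj_sub, h.adj_adj]; abel
  have haa2 : h.adj (a * a) = a * a := by rw [h.adj_mul, haa, neg_mul_neg]
  obtain ⟨c, hc⟩ := scalar_of_selfadj h hK hk hkn (K.mul_mem haK haK) haa2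
  rw [Algebra.algebraMap_eq_smul_one] at hc
  obtain ⟨b, hb, hab⟩ := hK.inv a haK ha0
  have hc0 : c ≠ 0 := by
    rintro rfl
    rw [zero_smul] at hc
    apply ha0
    calc a = a * (a * b) := by rw [hab, mul_one]
      _ = 0 := by rw [← mul_assoc, hc, zero_mul]
  have hcan : ∀ x ∈ K, x ≠ 0 → ∀ y, x * y = 0 → y = 0 := by
    intro x hx hx0 y hxy
    obtain ⟨z, hz, hxz⟩ := hK.inv x hx hx0
    have hzx : z * x = 1 := by rw [hK.comm z hz x hx]; exact hxz
    calc y = z * x * y := by rw [hzx, one_mul]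
      _ = 0 := by rw [mul_assoc, hxy, mul_zero]
  have hanti : ∀ s : F, a ≠ s • (1 : Matrix J2 J2 F) := by
    intro s hs
    have e1 : h.adj a = a := by
      rw [hs, h.adj_smul, h.adj_one]; rfl
    rw [haa] at e1
    have e2 : (2 : F) • a = 0 := by
      rw [two_smul]
      nth_rewrite 1 [← e1]
      exact neg_add_cancel a
    exact ha0 ((smul_eq_zero.mp e2).resolve_left h2)
  have hcc := sq_one h3 c hc0
  rcases mul_self_eq_one_iff.mp hcc with h1 | h1
  · exfalso
    have e1 : (a - 1) * (a + 1) = 0 := by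
      have : (a - 1) * (a + 1) = a * a - 1 := by noncomm_ring
      rw [this, hc, h1, one_smul, sub_self]
    have e2 : a - 1 ≠ 0 := by
      intro h0
      exact hanti 1 (by rw [one_smul]; exact sub_eq_zero.mp h0)
    have e3 := hcan (a - 1) (K.sub_mem haK K.one_mem) e2 _ e1
    exact hanti (-1) (by rw [neg_one_smul]; exact eq_neg_of_add_eq_zero_left e3)
  · refine ⟨a, haK, ?_, ?_⟩
    · rw [hc, h1, neg_one_smul]
    · intro u v
      rw [h.adj_spec, haa, Matrix.neg_mulVec]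
      have := h.sesq.smul_right (-1) u (a *ᵥ v)
      rw [neg_one_smul] at this
      rw [this]
      simp

/-- coordinates adapted to the complex structure -/
theorem exists_P [Fintype F] (h3 : Fintype.card F = 3) {J : Matrix J2 J2 F} (hJ : J * J = -1)
    (hadj : ∀ u v, sympForm 2 F (J *ᵥ u) v = -sympForm 2 F u (J *ᵥ v)) :
    ∃ (P : GL J2 F) (c : F), c ≠ 0 ∧ (∀ x y, sympForm 2 F ((P : Matrix J2 J2 F) *ᵥ x) ((P : Matrix J2 J2 F) *ᵥ y) = c * sympForm 2 F x y) ∧
      J * P = P * I0 F := by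
  classical
  have hS := sympForm_symplectic 2 F
  have h2 : (2 : F) ≠ 0 := two_ne_zero_of_odd (by rw [h3]; decide)
  have h30 := three_zero (F := F) h3
  set f := sympForm 2 F with hf
  have al := hS.bilinear.add_left
  have ar := hS.bilinear.add_right
  have sl := hS.bilinear.smul_left
  have sr := hS.bilinear.smul_right
  have sk := hS.skew
  have at' := hS.alternating
  have hJJ : ∀ u, J *ᵥ (J *ᵥ u) = -u := by
    intro u
    rw [Matrix.mulVec_mulVec, hJ, Matrix.neg_mulVec, Matrix.one_mulVec]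
  have nr : ∀ u v, f u (-v) = -f u v := by
    intro u v
    have := sr (-1) u v
    rw [neg_one_smul] at this
    rw [this]; ring
  have nl : ∀ u v, f (-u) v = -f u v := by
    intro u v
    have := sl (-1) u v
    rw [neg_one_smul] at this
    rw [this]; ring
  have hiso : ∀ u v, f (J *ᵥ u) (J *ᵥ v) = f u v := by
    intro u v
    rw [hadj, hJJ, nr, neg_neg]
  have hsymm : ∀ u v, f v (J *ᵥ u) = f u (J *ᵥ v) := by
    intro u v
    rw [sk v, hadj, neg_neg]
  -- N is not identically zero on nondegenerate J-invariant sets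
  obtain ⟨v1, hv1⟩ : ∃ v, f v (J *ᵥ v) ≠ 0 := by
    by_contra hno
    push Not at hno
    have key : ∀ u v, f u (J *ᵥ v) = 0 := by
      intro u v
      have e := hno (u + v)
      rw [Matrix.mulVec_add, al, ar, ar, hno u, hno v, hsymm u v] at e
      exact (mul_eq_zero.mp (by linear_combination e : (2 : F) * f u (J *ᵥ v) = 0)).resolve_left h2
    obtain ⟨x, hx⟩ := (hS.nondegenerate (Pi.single (Sum.inl 0) 1) (by
      intro h0
      have := congrFun h0 (Sum.inl 0)
      simp at this)).2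
    apply hx
    have := key (Pi.single (Sum.inl 0) 1) (-(J *ᵥ x))
    rw [Matrix.mulVec_neg, hJJ, neg_neg] at this
    exact this
  set ν := f v1 (J *ᵥ v1) with hν
  have hJv : f (J *ᵥ v1) v1 = -ν := by rw [hadj]
  -- projection onto the orthogonal complement
  have hproj : ∀ z, ∃ a b : F, f v1 (z + (a • v1 + b • (J *ᵥ v1))) = 0 ∧ f (J *ᵥ v1) (z + (a • v1 + b • (J *ᵥ v1))) = 0 := by
    intro z
    refine ⟨f (J *ᵥ v1) z / ν, -f v1 z / ν, ?_, ?_⟩
    · rw [ar, ar, sr, sr, at']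
      rw [← hν]
      field_simp
      ring
    · rw [ar, ar, sr, sr, at', hJv]
      field_simp
      ring
  obtain ⟨w, hw1, hw2, hw⟩ : ∃ w, f v1 w = 0 ∧ f (J *ᵥ v1) w = 0 ∧ f w (J *ᵥ w) ≠ 0 := by
    by_contra hno
    push Not at hno
    have hJinv : ∀ u, f v1 u = 0 → f (J *ᵥ v1) u = 0 → f v1 (J *ᵥ u) = 0 ∧ f (J *ᵥ v1) (J *ᵥ u) = 0 := by
      intro u h1 h2'
      refine ⟨?_, by rw [hiso]; exact h1⟩
      rw [hadj] at h2'
      exact neg_eq_zero.mp h2'
    have key : ∀ u v, f v1 u = 0 → f (J *ᵥ v1) u = 0 → f v1 v = 0 → f (J *ᵥ v1) v = 0 → f u (J *ᵥ v) = 0 := by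
      intro u v h1 h2' h3' h4
      have e := hno (u + v) (by rw [ar, h1, h3', add_zero]) (by rw [ar, h2', h4, add_zero])
      rw [Matrix.mulVec_add, al, ar, ar, hno u h1 h2', hno v h3' h4, hsymm u v] at e
      exact (mul_eq_zero.mp (by linear_combination e : (2 : F) * f u (J *ᵥ v) = 0)).resolve_left h2
    have key2 : ∀ u v, f v1 u = 0 → f (J *ᵥ v1) u = 0 → f v1 v = 0 → f (J *ᵥ v1) v = 0 → f u v = 0 := by
      intro u v h1 h2' h3' h4
      obtain ⟨h5, h6⟩ := hJinv v h3' h4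
      have e := key u (-(J *ᵥ v)) h1 h2' (by rw [nr, h5, neg_zero]) (by rw [nr, h6, neg_zero])
      rwa [Matrix.mulVec_neg, hJJ, neg_neg] at e
    -- a vector outside the plane
    obtain ⟨z, hz⟩ : ∃ z, z ∉ Submodule.span F ({v1, J *ᵥ v1} : Set (J2 → F)) := by
      by_contra hcon
      push Not at hcon
      have h1 : Submodule.span F ({v1, J *ᵥ v1} : Set (J2 → F)) = ⊤ := by
        rw [eq_top_iff]; intro z _; exact hcon z
      have h4 : Module.finrank F (Submodule.span F (({v1, J *ᵥ v1} : Finset (J2 → F)) : Set (J2 → F))) ≤ 2 :=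
        (finrank_span_finset_le_card _).trans (Finset.card_le_two)
      rw [Finset.coe_insert, Finset.coe_singleton, h1, finrank_top, Module.finrank_fintype_fun_eq_card] at h4
      simp at h4
    obtain ⟨a, b, hz1, hz2⟩ := hproj z
    set z' := z + (a • v1 + b • (J *ᵥ v1)) with hz'
    have hz0 : z' ≠ 0 := by
      intro h0
      apply hz
      have : z = -(a • v1 + b • (J *ᵥ v1)) := eq_neg_of_add_eq_zero_left h0
      rw [this]
      apply Submodule.neg_mem
      exact Submodule.add_mem _ (Submodule.smul_mem _ _ (Submodule.subset_span (by simp)))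
        (Submodule.smul_mem _ _ (Submodule.subset_span (by simp)))
    obtain ⟨x, hx⟩ := (hS.nondegenerate z' hz0).2
    apply hx
    obtain ⟨a', b', hx1, hx2⟩ := hproj x
    have e := key2 z' _ hz1 hz2 hx1 hx2
    rw [ar, ar, sr, sr, sk z' v1, hz1, sk z' (J *ᵥ v1), hz2] at e
    linear_combination e
  -- scaling
  obtain ⟨v2, g1, g2, g3⟩ : ∃ v2, f v1 v2 = 0 ∧ f (J *ᵥ v1) v2 = 0 ∧ f v2 (J *ᵥ v2) = ν := by
    have e1 := sq_one h3 _ hw
    have e2 := sq_one h3 ν hv1
    have e3 : (f w (J *ᵥ w) - ν) * (f w (J *ᵥ w) + ν) = 0 := by linear_combination e1 - e2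
    rcases mul_eq_zero.mp e3 with e4 | e4
    · exact ⟨w, hw1, hw2, sub_eq_zero.mp e4⟩
    · have h5 : f v1 (J *ᵥ w) = 0 := by
        rw [hadj] at hw2
        exact neg_eq_zero.mp hw2
      refine ⟨w + J *ᵥ w, ?_, ?_, ?_⟩
      · rw [ar, hw1, h5, add_zero]
      · rw [ar, hw2, hiso, hw1, add_zero]
      · rw [Matrix.mulVec_add, hJJ, al, ar, ar, nr, nr, at', hiso, at', hadj w w]
        linear_combination 2 * e4 - ν * h30
  have g4 : f v1 (J *ᵥ v2) = 0 := by
    rw [hadj] at g2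
    exact neg_eq_zero.mp g2
  have g5 : f v2 v1 = 0 := by rw [sk, g1, neg_zero]
  have g6 : f v2 (J *ᵥ v1) = 0 := by rw [sk, g2, neg_zero]
  have g7 : f (J *ᵥ v2) v1 = 0 := by rw [sk, g4, neg_zero]
  have g8 : f (J *ᵥ v1) (J *ᵥ v2) = 0 := by rw [hiso, g1]
  have g9 : f (J *ᵥ v2) (J *ᵥ v1) = 0 := by rw [hiso, g5]
  have g10 : f (J *ᵥ v2) v2 = -ν := by rw [hadj, g3]
  let w' : J2 → (J2 → F) := Sum.elim ![v1, v2] ![J *ᵥ v1, J *ᵥ v2]
  have hsum : ∀ x : J2 → F, ∑ j, x j • w' j = x (Sum.inl 0) • v1 + x (Sum.inl 1) • v2 +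
      (x (Sum.inr 0) • (J *ᵥ v1) + x (Sum.inr 1) • (J *ᵥ v2)) := by
    intro x
    rw [Fintype.sum_sum_type, Fin.sum_univ_two, Fin.sum_univ_two]
    rfl
  have hgram : ∀ x y : J2 → F, f (∑ j, x j • w' j) (∑ j, y j • w' j) = -ν * f x y := by
    intro x y
    have hfx : f x y = x (Sum.inr 0) * y (Sum.inl 0) + x (Sum.inr 1) * y (Sum.inl 1) -
      x (Sum.inl 0) * y (Sum.inr 0) - x (Sum.inl 1) * y (Sum.inr 1) := sf x y
    rw [hsum, hsum, hfx]
    simp only [al, ar, sl, sr, at', g1, g2, g3, g4, g5, g6, g7, g8, g9, g10, hJv, ← hν]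
    ring
  have hν0 : ν ≠ 0 := hv1
  obtain ⟨P, hP⟩ := exists_cols' (w := w') (by
    intro x hx
    by_contra hx0
    obtain ⟨y, hy⟩ := (hS.nondegenerate x hx0).2
    have e := hgram x y
    rw [hx] at e
    have e0 : f 0 (∑ j, y j • w' j) = 0 := by
      have := sl 0 0 (∑ j, y j • w' j)
      rw [zero_smul, zero_mul] at this
      exact this
    rw [e0] at e
    exact hy ((mul_eq_zero.mp e.symm).resolve_left (neg_ne_zero.mpr hν0)))
  refine ⟨P, -ν, neg_ne_zero.mpr hν0, fun x y => by rw [hP, hP, hgram], ?_⟩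
  apply Matrix.mulVec_injective
  ext1 x
  show (J * (P : Matrix J2 J2 F)) *ᵥ x = ((P : Matrix J2 J2 F) * I0 F) *ᵥ x
  rw [← Matrix.mulVec_mulVec, ← Matrix.mulVec_mulVec, hP, hP, hsum, hsum, Matrix.mulVec_add, Matrix.mulVec_add, Matrix.mulVec_add,
    Matrix.mulVec_smul, Matrix.mulVec_smul, Matrix.mulVec_smul, Matrix.mulVec_smul, hJJ, hJJ]
  rw [I0]
  simp only [mv, mv']
  simp
  abel

end H61.SpQ4c
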