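import Mathlib
import Cfsg.Agent.Lib.H61.SpQ4c

/-!
The class 6 overgroup of the normaliser of a degree two field in Sp4(3).
-/

set_option autoImplicit false
set_option linter.unusedSectionVars false

namespace H61.SpQ4d

open Cfsg Cfsg.Geo Matrix H97.AschRad H97.AschEnv H97.AschForm
open H96.AschSympType1 H96.AschSympType3 H96.AschSympType5 H96.AschAdj H96.AschSp H96.AschSp2
open H61.SpQ4 H61.SpQ4b H61.SpQ4c

variable {F : Type*} [Field F]

lemma unit_neg {M : Matrix J2 J2 F} (h : M * M = -1) : ∃ g : GL J2 F, (g : Matrix J2 J2 F) = M :=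
  ⟨⟨M, -M, by rw [mul_neg, h, neg_neg], by rw [neg_mul, h, neg_neg]⟩, rfl⟩

lemma unit_pos {M : Matrix J2 J2 F} (h : M * M = 1) : ∃ g : GL J2 F, (g : Matrix J2 J2 F) = M :=
  ⟨⟨M, M, h, h⟩, rfl⟩

section coord

variable {P : GL J2 F} {c : F}

lemma cinv (M : Matrix J2 J2 F) : ∃ M0, M = conjAlg F P M0 := ⟨(conjAlg F P).symm M, ((conjAlg F P).apply_symm_apply M).symm⟩

lemma cinj {M N : Matrix J2 J2 F} (h : conjAlg F P M = conjAlg F P N) : M = N := (conjAlg F P).injective h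

lemma cP (M0 : Matrix J2 J2 F) (x : J2 → F) :
    conjAlg F P M0 *ᵥ ((P : Matrix J2 J2 F) *ᵥ x) = (P : Matrix J2 J2 F) *ᵥ (M0 *ᵥ x) := by
  rw [conjAlg_apply, Matrix.mulVec_mulVec, Matrix.mulVec_mulVec, mul_assoc, Units.inv_mul, mul_one]

lemma surj (P : GL J2 F) (u : J2 → F) : ∃ x, u = (P : Matrix J2 J2 F) *ᵥ x :=
  ⟨((P⁻¹ : GL J2 F) : Matrix J2 J2 F) *ᵥ u, by rw [Matrix.mulVec_mulVec, Units.mul_inv, Matrix.one_mulVec]⟩

lemma iso_of (hP : ∀ x y, sympForm 2 F ((P : Matrix J2 J2 F) *ᵥ x) ((P : Matrix J2 J2 F) *ᵥ y) = c * sympForm 2 F x y)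
    {M0 : Matrix J2 J2 F} (h0 : ∀ x y, sympForm 2 F (M0 *ᵥ x) (M0 *ᵥ y) = sympForm 2 F x y) {g : GL J2 F}
    (hg : (g : Matrix J2 J2 F) = conjAlg F P M0) : g ∈ isom (sympForm 2 F) := by
  rw [mem_isom]
  intro u v
  obtain ⟨x, rfl⟩ := surj P u
  obtain ⟨y, rfl⟩ := surj P v
  rw [hg, cP, cP, hP, hP, h0]

end coord

/-- the standard generators transported by `P` -/
theorem exists_Q4 (h2 : (2 : F) ≠ 0) (h3 : (3 : F) = 0) {P : GL J2 F} {c : F} (hP : ∀ x y, sympForm 2 F ((P : Matrix J2 J2 F) *ᵥ x)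
    ((P : Matrix J2 J2 F) *ᵥ y) = c * sympForm 2 F x y) :
    ∃ I X Y T : GL J2 F, (I : Matrix J2 J2 F) = conjAlg F P (I0 F) ∧ (X : Matrix J2 J2 F) = conjAlg F P (X0 F) ∧
      (Y : Matrix J2 J2 F) = conjAlg F P (Y0 F) ∧ (T : Matrix J2 J2 F) = conjAlg F P (T0 F) ∧ Q4 (sympForm 2 F) I X Y T := by
  have r1 : conjAlg F P (I0 F) * conjAlg F P (I0 F) = -1 := by rw [← map_mul, II, map_neg, map_one]
  have r2 : conjAlg F P (X0 F) * conjAlg F P (X0 F) = -1 := by rw [← map_mul, XX, map_neg, map_one]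
  have r3 : conjAlg F P (Y0 F) * conjAlg F P (Y0 F) = -1 := by rw [← map_mul, YY, map_neg, map_one]
  have r4 : conjAlg F P (T0 F) * conjAlg F P (T0 F) = 1 := by rw [← map_mul, TT h3, map_one]
  obtain ⟨I, hI⟩ := unit_neg r1
  obtain ⟨X, hX⟩ := unit_neg r2
  obtain ⟨Y, hY⟩ := unit_neg r3
  obtain ⟨T, hT⟩ := unit_pos r4
  refine ⟨I, X, Y, T, hI, hX, hY, hT, ?_⟩
  refine ⟨by rw [hI, r1], by rw [hX, r2], by rw [hY, r3], by rw [hT, r4], ?_, ?_, ?_, ?_, ?_, ?_,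
    iso_of hP isoI hI, iso_of hP isoX hX, iso_of hP isoY hY, iso_of hP (isoT h3) hT, ?_⟩
  · rw [hI, hX, ← map_mul, ← map_mul, IX]
  · rw [hI, hY, ← map_mul, ← map_mul, IY]
  · rw [hX, hY, ← map_mul, ← map_mul, XY, map_neg]
  · rw [hX, hT, ← map_mul, ← map_mul, XT]
  · rw [hY, hT, ← map_mul, ← map_mul, YT]
  · rw [hI, hT, ← map_mul, ← map_mul, IT, map_neg]
  · intro M a1 a2 a3 a4
    obtain ⟨M0, rfl⟩ := cinv (P := P) M
    rw [hI, ← map_mul, ← map_mul] at a1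
    rw [hX, ← map_mul, ← map_mul] at a2
    rw [hY, ← map_mul, ← map_mul] at a3
    rw [hT, ← map_mul, ← map_mul] at a4
    obtain ⟨c, hc⟩ := star0 h2 (cinj a1) (cinj a2) (cinj a3) (cinj a4)
    exact ⟨c, by rw [hc, map_smul, map_one]⟩

/-- moving a conjugate -/
lemma PM.conj {ι : Type} [Fintype ι] [DecidableEq ι] {g h z : GL ι F}
    (hp : PM (g : Matrix ι ι F) ((h⁻¹ * z * h : GL ι F) : Matrix ι ι F)) :
    PM ((h * g * h⁻¹ : GL ι F) : Matrix ι ι F) (z : Matrix ι ι F) := by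
  rcases hp with hp | hp
  · left
    have e : g * (h⁻¹ * z * h) = (h⁻¹ * z * h) * g := Units.ext (by rw [Units.val_mul g, hp, ← Units.val_mul])
    have e2 : (h * g * h⁻¹) * z = z * (h * g * h⁻¹) := by
      calc (h * g * h⁻¹) * z = h * (g * (h⁻¹ * z * h)) * h⁻¹ := by group
        _ = h * ((h⁻¹ * z * h) * g) * h⁻¹ := by rw [e]
        _ = z * (h * g * h⁻¹) := by group
    rw [← Units.val_mul, e2, Units.val_mul]
  · right
    have e : g * (h⁻¹ * z * h) = -1 * ((h⁻¹ * z * h) * g) := Units.ext (by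
      rw [Units.val_mul g, hp, Units.val_mul (-1), Units.val_neg, Units.val_one, neg_one_mul, ← Units.val_mul])
    have e2 : (h * g * h⁻¹) * z = -1 * (z * (h * g * h⁻¹)) := by
      calc (h * g * h⁻¹) * z = h * (g * (h⁻¹ * z * h)) * h⁻¹ := by group
        _ = h * (-1 * ((h⁻¹ * z * h) * g)) * h⁻¹ := by rw [e]
        _ = -1 * (z * (h * g * h⁻¹)) := by
          rw [← mul_assoc h (-1), mul_neg_one, ← neg_one_mul h]
          simp only [mul_assoc]
          rw [← mul_assoc h h⁻¹, mul_inv_cancel, one_mul]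
    rw [← Units.val_mul, e2, Units.val_mul, Units.val_neg, Units.val_one, neg_one_mul, Units.val_mul]

/-- **normalisers of degree two fields with nontrivial adjunction, q = 3** -/
theorem field_case [Fintype F] (h3 : Fintype.card F = 3) {K : Subalgebra F (Matrix J2 J2 F)} (hK : IsFieldSubalgebra 2 K)
    (hadj : IsAdjointClosedFor (sympForm 2 F) K) (hns : ¬ IsSelfAdjointFor (sympForm 2 F) K) :
    ∃ R : Subgroup (GL J2 F), IsSymplecticTypeGroup 2 R ∧ ActsAbsolutelyIrreducibly (matrixSet R) ∧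
      R ≤ similarityGroup (sympForm 2 F) ∧ Nat.card R = 32 ∧ Nat.card (Subgroup.center R) = 2 ∧ IsOfMinusType 2 R ∧
      subalgebraNormalizer K ⊓ spGL 2 F ≤ subgroupNormalizer R := by
  classical
  have h2 : (2 : F) ≠ 0 := two_ne_zero_of_odd (by rw [h3]; decide)
  have h30 := three_zero (F := F) h3
  have hsq := sq_one (F := F) h3
  obtain ⟨J, hJK, hJJ, hJa⟩ := exists_J h3 hK hadj hns
  obtain ⟨P, c, hc0, hP, hJP⟩ := exists_P h3 hJJ hJa
  obtain ⟨I, X, Y, T, hI, hX, hY, hT, hQ⟩ := exists_Q4 h2 h30 hP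
  have hJI : J = (I : Matrix J2 J2 F) := by
    rw [hI, conjAlg_apply, ← hJP, mul_assoc, Units.mul_inv, mul_one]
  have hdata := hQ.data h3 (sympForm_symplectic 2 F) (by rw [Fintype.card_sum, Fintype.card_fin])
  refine ⟨grp (sympForm 2 F) I X Y T, hdata.1, hdata.2.1, hdata.2.2.1, hdata.2.2.2.1, hdata.2.2.2.2.1, hdata.2.2.2.2.2, ?_⟩
  set f := sympForm 2 F with hf
  -- square roots of -1 in K
  have hroot : ∀ k ∈ K, k * k = -1 → k = J ∨ k = -J := by
    intro k hk hkk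
    have e1 : (k - J) * (k + J) = 0 := by
      have : (k - J) * (k + J) = k * k - J * J + (k * J - J * k) := by noncomm_ring
      rw [this, hkk, hJJ, hK.comm k hk J hJK]; simp
    by_cases e2 : k - J = 0
    · left; exact sub_eq_zero.mp e2
    · right
      obtain ⟨z, hz, hxz⟩ := hK.inv _ (K.sub_mem hk hJK) e2
      have hzx : z * (k - J) = 1 := by rw [hK.comm z hz _ (K.sub_mem hk hJK)]; exact hxz
      have : k + J = 0 := by
        calc k + J = z * (k - J) * (k + J) := by rw [hzx, one_mul]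
          _ = 0 := by rw [mul_assoc, e1, mul_zero]
      exact eq_neg_of_add_eq_zero_left this
  -- the action on J
  have hactJ : ∀ h : GL J2 F, h ∈ subalgebraNormalizer K → h * I * h⁻¹ = I ∨ h * I * h⁻¹ = -I := by
    intro h hh
    have e1 : ((h * I * h⁻¹ : GL J2 F) : Matrix J2 J2 F) ∈ K := by
      rw [Units.val_mul, Units.val_mul, ← hJI]
      exact (hh J).mp hJK
    have e2 : ((h * I * h⁻¹ : GL J2 F) : Matrix J2 J2 F) * ((h * I * h⁻¹ : GL J2 F) : Matrix J2 J2 F) = -1 := by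
      rw [← Units.val_mul]
      have : (h * I * h⁻¹) * (h * I * h⁻¹) = h * (I * I) * h⁻¹ := by group
      rw [this, Units.val_mul, Units.val_mul, Units.val_mul, hQ.II, mul_neg, mul_one, neg_mul, Units.mul_inv]
    rcases hroot _ e1 e2 with e3 | e3
    · left; apply Units.ext; rw [e3, hJI]
    · right; apply Units.ext; rw [e3, hJI, Units.val_neg]
  have hactJ' : ∀ h : GL J2 F, h ∈ subalgebraNormalizer K → ∃ s : F, s * s = 1 ∧
      (h : Matrix J2 J2 F) * I = s • ((I : Matrix J2 J2 F) * h) := by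
    intro h hh
    rcases hactJ h hh with e | e
    · refine ⟨1, by ring, ?_⟩
      have : h * I = I * h := mul_inv_eq_iff_eq_mul.mp e
      rw [one_smul, ← Units.val_mul, this, Units.val_mul]
    · refine ⟨-1, by ring, ?_⟩
      have : h * I = -I * h := mul_inv_eq_iff_eq_mul.mp e
      rw [neg_one_smul, ← Units.val_mul, this, Units.val_mul, Units.val_neg, neg_mul]
  have htw : ∀ h : GL J2 F, ∀ s : F, s * s = 1 → (h : Matrix J2 J2 F) * I = s • ((I : Matrix J2 J2 F) * h) →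
      ((h⁻¹ : GL J2 F) : Matrix J2 J2 F) * I = s • ((I : Matrix J2 J2 F) * ((h⁻¹ : GL J2 F) : Matrix J2 J2 F)) := by
    intro h s hs e
    have e1 : (I : Matrix J2 J2 F) * h = s • ((h : Matrix J2 J2 F) * I) := by rw [e, smul_smul, hs, one_smul]
    calc ((h⁻¹ : GL J2 F) : Matrix J2 J2 F) * I
        = ((h⁻¹ : GL J2 F) : Matrix J2 J2 F) * ((I : Matrix J2 J2 F) * h) * ((h⁻¹ : GL J2 F) : Matrix J2 J2 F) := by
          rw [mul_assoc, mul_assoc, Units.mul_inv, mul_one]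
      _ = s • ((I : Matrix J2 J2 F) * ((h⁻¹ : GL J2 F) : Matrix J2 J2 F)) := by
          rw [e1, mul_smul_comm, smul_mul_assoc, ← mul_assoc, Units.inv_mul, one_mul]
  -- conjugates commute or anticommute with I
  have hcI : ∀ h : GL J2 F, h ∈ subalgebraNormalizer K → ∀ z : GL J2 F, ∀ r : F, (z : Matrix J2 J2 F) * I = r • ((I : Matrix J2 J2 F) * z) →
      ((h⁻¹ * z * h : GL J2 F) : Matrix J2 J2 F) * I = r • ((I : Matrix J2 J2 F) * ((h⁻¹ * z * h : GL J2 F) : Matrix J2 J2 F)) := by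
    intro h hh z r hz
    obtain ⟨s, hs, e⟩ := hactJ' h hh
    have e' := htw h s hs e
    rw [Units.val_mul, Units.val_mul, mul_assoc, e, mul_smul_comm, ← mul_assoc, mul_assoc _ (z : Matrix J2 J2 F) (I : Matrix J2 J2 F),
      hz, mul_smul_comm, smul_mul_assoc, ← mul_assoc, e', smul_mul_assoc, smul_mul_assoc, smul_smul, smul_smul]
    have : s * r * s = r := by linear_combination r * hs
    rw [this]
    simp only [mul_assoc]
  have hci : ∀ h ∈ isom f, ∀ z ∈ isom f, h⁻¹ * z * h ∈ isom f := fun h hh z hz =>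
    (isom f).mul_mem ((isom f).mul_mem ((isom f).inv_mem hh) hz) hh
  have hcsq : ∀ h z : GL J2 F, ∀ r : Matrix J2 J2 F, (∀ M, r * M = M * r) → (z : Matrix J2 J2 F) * z = r →
      ((h⁻¹ * z * h : GL J2 F) : Matrix J2 J2 F) * ((h⁻¹ * z * h : GL J2 F) : Matrix J2 J2 F) = r := by
    intro h z r hr hz
    rw [← Units.val_mul]
    have : (h⁻¹ * z * h) * (h⁻¹ * z * h) = h⁻¹ * (z * z) * h := by group
    rw [this, Units.val_mul, Units.val_mul, Units.val_mul, hz, ← hr, mul_assoc, Units.inv_mul, mul_one]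
  have hneg : ∀ M : Matrix J2 J2 F, (-1 : Matrix J2 J2 F) * M = M * (-1) := fun M => by rw [neg_one_mul, mul_neg_one]
  have hone : ∀ M : Matrix J2 J2 F, (1 : Matrix J2 J2 F) * M = M * 1 := fun M => by rw [one_mul, mul_one]
  have nr : ∀ u v, f u (-v) = -f u v := by
    intro u v
    have := (sympForm_symplectic 2 F).bilinear.smul_right (-1) u v
    rw [neg_one_smul] at this
    rw [hf, this]; ring
  have cls1 : ∀ g : GL J2 F, g ∈ isom f → (g : Matrix J2 J2 F) * I = I * g → (g : Matrix J2 J2 F) * g = -1 →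
      ∃ s : F, (g : Matrix J2 J2 F) = s • (I : Matrix J2 J2 F) ∨ (g : Matrix J2 J2 F) = s • (X : Matrix J2 J2 F) ∨
        (g : Matrix J2 J2 F) = s • (Y : Matrix J2 J2 F) ∨ (g : Matrix J2 J2 F) = s • ((X : Matrix J2 J2 F) * Y) := by
    intro g hg hgI hgg
    obtain ⟨M0, hM0⟩ := cinv (P := P) (g : Matrix J2 J2 F)
    rw [hM0, hI, ← map_mul, ← map_mul] at hgI
    have hMM : M0 * M0 = -1 := by
      apply cinj (P := P)
      rw [map_mul, ← hM0, hgg, map_neg, map_one]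
    obtain ⟨s, hs⟩ := class1 h30 hsq (cinj hgI) hMM (by
      intro x y
      have e1 : f ((g : Matrix J2 J2 F) *ᵥ ((P : Matrix J2 J2 F) *ᵥ x)) ((P : Matrix J2 J2 F) *ᵥ y) =
          -f ((P : Matrix J2 J2 F) *ᵥ x) ((g : Matrix J2 J2 F) *ᵥ ((P : Matrix J2 J2 F) *ᵥ y)) := by
        rw [← hg ((P : Matrix J2 J2 F) *ᵥ x)]
        change _ = -f ((g : Matrix J2 J2 F) *ᵥ ((P : Matrix J2 J2 F) *ᵥ x)) ((g : Matrix J2 J2 F) *ᵥ ((g : Matrix J2 J2 F) *ᵥ ((P : Matrix J2 J2 F) *ᵥ y)))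
        rw [Matrix.mulVec_mulVec ((P : Matrix J2 J2 F) *ᵥ y), hgg, Matrix.neg_mulVec, Matrix.one_mulVec, nr, neg_neg]
      rw [hM0, cP, cP, hP, hP] at e1
      have e2 : c * (sympForm 2 F (M0 *ᵥ x) y + sympForm 2 F x (M0 *ᵥ y)) = 0 := by
        have : c * sympForm 2 F (M0 *ᵥ x) y = -(c * sympForm 2 F x (M0 *ᵥ y)) := e1
        linear_combination this
      have e3 := (mul_eq_zero.mp e2).resolve_left hc0
      linear_combination e3)
    refine ⟨s, ?_⟩
    rcases hs with h | h | h | h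
    · left; rw [hM0, h, hI, map_smul]
    · right; left; rw [hM0, h, hX, map_smul]
    · right; right; left; rw [hM0, h, hY, map_smul]
    · right; right; right; rw [hM0, h, hX, hY, map_smul, map_mul]
  have cls2 : ∀ g : GL J2 F, (g : Matrix J2 J2 F) * I = -((I : Matrix J2 J2 F) * g) → (g : Matrix J2 J2 F) * X = X * g →
      (g : Matrix J2 J2 F) * Y = Y * g → (g : Matrix J2 J2 F) * g = 1 →
      ∃ s : F, (g : Matrix J2 J2 F) = s • (T : Matrix J2 J2 F) ∨ (g : Matrix J2 J2 F) = s • ((I : Matrix J2 J2 F) * T) := by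
    intro g hgI hgX hgY hgg
    obtain ⟨M0, hM0⟩ := cinv (P := P) (g : Matrix J2 J2 F)
    rw [hM0, hI, ← map_mul, ← map_mul, ← map_neg] at hgI
    rw [hM0, hX, ← map_mul, ← map_mul] at hgX
    rw [hM0, hY, ← map_mul, ← map_mul] at hgY
    have hMM : M0 * M0 = 1 := by
      apply cinj (P := P)
      rw [map_mul, ← hM0, hgg, map_one]
    obtain ⟨s, hs⟩ := class2 h30 hsq (cinj hgI) (cinj hgX) (cinj hgY) hMM
    refine ⟨s, ?_⟩
    rcases hs with h | h
    · left; rw [hM0, h, hT, map_smul]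
    · right; rw [hM0, h, hI, hT, map_smul, map_mul]
  -- conjugates of X and Y
  have cXY : ∀ h ∈ subalgebraNormalizer K ⊓ spGL 2 F, ∀ z : GL J2 F, z ∈ isom f → (z : Matrix J2 J2 F) * I = I * z →
      (z : Matrix J2 J2 F) * z = -1 →
      ∃ s : F, ((h⁻¹ * z * h : GL J2 F) : Matrix J2 J2 F) = s • (I : Matrix J2 J2 F) ∨ ((h⁻¹ * z * h : GL J2 F) : Matrix J2 J2 F) = s • (X : Matrix J2 J2 F) ∨
        ((h⁻¹ * z * h : GL J2 F) : Matrix J2 J2 F) = s • (Y : Matrix J2 J2 F) ∨ ((h⁻¹ * z * h : GL J2 F) : Matrix J2 J2 F) = s • ((X : Matrix J2 J2 F) * Y) := by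
    intro h hh z hz hzI hzz
    refine cls1 _ (hci h hh.2 z hz) ?_ (hcsq h z (-1) hneg hzz)
    have := hcI h hh.1 z 1 (by rw [one_smul, hzI])
    rwa [one_smul] at this
  have hne1 : (1 : Matrix J2 J2 F) ≠ 0 := one_ne_zero
  have noI : ∀ h ∈ subalgebraNormalizer K, ∀ z z' : GL J2 F, (z : Matrix J2 J2 F) * z' = -((z' : Matrix J2 J2 F) * z) →
      (I : Matrix J2 J2 F) * z' = z' * I → ∀ s : F, ((h⁻¹ * z * h : GL J2 F) : Matrix J2 J2 F) ≠ s • (I : Matrix J2 J2 F) := by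
    intro h hh z z' hzz hIz s hs
    have e1 : (z : Matrix J2 J2 F) = s • ((h * I * h⁻¹ : GL J2 F) : Matrix J2 J2 F) := by
      have : z = h * (h⁻¹ * z * h) * h⁻¹ := by group
      rw [this, Units.val_mul, Units.val_mul, hs, mul_smul_comm, smul_mul_assoc, Units.val_mul, Units.val_mul]
    obtain ⟨t, ht⟩ : ∃ t : F, (z : Matrix J2 J2 F) = t • (I : Matrix J2 J2 F) := by
      rcases hactJ h hh with e | e
      · exact ⟨s, by rw [e1, e]⟩
      · exact ⟨-s, by rw [e1, e, Units.val_neg, smul_neg, neg_smul]⟩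
    have e2 : (z' : Matrix J2 J2 F) * z = -((z' : Matrix J2 J2 F) * z) := by
      rw [← hzz]
      rw [ht, mul_smul_comm, smul_mul_assoc, hIz]
    have e3 : (2 : F) • ((z' : Matrix J2 J2 F) * z) = 0 := by
      rw [two_smul]
      nth_rewrite 1 [e2]
      exact neg_add_cancel _
    have e4 := (smul_eq_zero.mp e3).resolve_left h2
    apply hne1
    calc (1 : Matrix J2 J2 F) = ((z'⁻¹ : GL J2 F) : Matrix J2 J2 F) * ((z' : Matrix J2 J2 F) * z) * ((z⁻¹ : GL J2 F) : Matrix J2 J2 F) := by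
          rw [← mul_assoc, Units.inv_mul, one_mul, Units.mul_inv]
      _ = 0 := by rw [e4, mul_zero, zero_mul]
  have hYX : (Y : Matrix J2 J2 F) * X = -((X : Matrix J2 J2 F) * Y) := by rw [hQ.XY, neg_neg]
  have comT : ∀ h ∈ subalgebraNormalizer K ⊓ spGL 2 F, ∀ z : GL J2 F, z = X ∨ z = Y →
      ((h⁻¹ * z * h : GL J2 F) : Matrix J2 J2 F) * T = T * ((h⁻¹ * z * h : GL J2 F) : Matrix J2 J2 F) := by
    intro h hh z hz
    have key : ∃ s : F, ((h⁻¹ * z * h : GL J2 F) : Matrix J2 J2 F) = s • (X : Matrix J2 J2 F) ∨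
        ((h⁻¹ * z * h : GL J2 F) : Matrix J2 J2 F) = s • (Y : Matrix J2 J2 F) ∨ ((h⁻¹ * z * h : GL J2 F) : Matrix J2 J2 F) = s • ((X : Matrix J2 J2 F) * Y) := by
      rcases hz with rfl | rfl
      · obtain ⟨s, hs⟩ := cXY h hh z hQ.isoX hQ.IX.symm hQ.XX
        exact ⟨s, hs.resolve_left (noI h hh.1 z Y hQ.XY hQ.IY s)⟩
      · obtain ⟨s, hs⟩ := cXY h hh z hQ.isoY hQ.IY.symm hQ.YY
        exact ⟨s, hs.resolve_left (noI h hh.1 z X hYX hQ.IX s)⟩
    obtain ⟨s, e | e | e⟩ := key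
    · rw [e, smul_mul_assoc, mul_smul_comm, hQ.XT]
    · rw [e, smul_mul_assoc, mul_smul_comm, hQ.YT]
    · rw [e, smul_mul_assoc, mul_smul_comm, mul_assoc, hQ.YT, ← mul_assoc, hQ.XT, mul_assoc]
  have cTz : ∀ h ∈ subalgebraNormalizer K ⊓ spGL 2 F, ∀ z : GL J2 F, z = X ∨ z = Y →
      ((h⁻¹ * T * h : GL J2 F) : Matrix J2 J2 F) * z = z * ((h⁻¹ * T * h : GL J2 F) : Matrix J2 J2 F) := by
    intro h hh z hz
    have e := comT h⁻¹ ((subalgebraNormalizer K ⊓ spGL 2 F).inv_mem hh) z hz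
    rw [← Units.val_mul, ← Units.val_mul] at e
    have e1 : (h⁻¹⁻¹ * z * h⁻¹) * T = T * (h⁻¹⁻¹ * z * h⁻¹) := Units.ext e
    rw [inv_inv] at e1
    have e2 : (h⁻¹ * T * h) * z = z * (h⁻¹ * T * h) := by
      calc (h⁻¹ * T * h) * z = h⁻¹ * (T * (h * z * h⁻¹)) * h := by group
        _ = h⁻¹ * ((h * z * h⁻¹) * T) * h := by rw [e1]
        _ = z * (h⁻¹ * T * h) := by group
    rw [← Units.val_mul, e2, Units.val_mul]
  have cTT : ∀ h ∈ subalgebraNormalizer K ⊓ spGL 2 F, ∃ s : F, ((h⁻¹ * T * h : GL J2 F) : Matrix J2 J2 F) = s • (T : Matrix J2 J2 F) ∨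
      ((h⁻¹ * T * h : GL J2 F) : Matrix J2 J2 F) = s • ((I : Matrix J2 J2 F) * T) := by
    intro h hh
    refine cls2 _ ?_ (cTz h hh X (Or.inl rfl)) (cTz h hh Y (Or.inr rfl)) (hcsq h T 1 hone hQ.TT)
    have := hcI h hh.1 T (-1) (by rw [neg_one_smul, hQ.IT, neg_neg])
    rwa [neg_one_smul] at this
  rintro h hh
  apply mem_subgroupNormalizer
  rintro g ⟨g1, gI, gX, gY, gT⟩
  have hhi : h ∈ isom f := hh.2
  refine ⟨(isom f).mul_mem ((isom f).mul_mem hhi g1) ((isom f).inv_mem hhi), ?_, ?_, ?_, ?_⟩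
  · apply PM.conj
    rcases hactJ h⁻¹ ((subalgebraNormalizer K).inv_mem hh.1) with e | e
    · rw [inv_inv] at e
      rw [e]; exact gI
    · rw [inv_inv] at e
      rw [e, Units.val_neg]
      have := gI.smul (-1)
      rwa [neg_one_smul] at this
  · apply PM.conj
    obtain ⟨s, e | e | e | e⟩ := cXY h hh X hQ.isoX hQ.IX.symm hQ.XX
    · rw [e]; exact gI.smul s
    · rw [e]; exact gX.smul s
    · rw [e]; exact gY.smul s
    · rw [e]; exact (gX.mul_right gY).smul s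
  · apply PM.conj
    obtain ⟨s, e | e | e | e⟩ := cXY h hh Y hQ.isoY hQ.IY.symm hQ.YY
    · rw [e]; exact gI.smul s
    · rw [e]; exact gX.smul s
    · rw [e]; exact gY.smul s
    · rw [e]; exact (gX.mul_right gY).smul s
  · apply PM.conj
    obtain ⟨s, e | e⟩ := cTT h hh
    · rw [e]; exact gT.smul s
    · rw [e]; exact (gI.mul_right gT).smul s

end H61.SpQ4d
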