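import Mathlib
import Cfsg.Agent.Lib.H61.SpQ4c

/-!
Pairs of totally singular planes in Sp4(3).
-/

set_option autoImplicit false
set_option linter.unusedSectionVars false

namespace H61.SpQ4e

open Cfsg Cfsg.Geo Matrix H97.AschRad H97.AschEnv H97.AschForm
open H96.AschSympType1 H96.AschSympType3 H96.AschSympType5 H96.AschAdj H96.AschSp H96.AschSp2
open H61.SpQ4 H61.SpQ4b H61.SpQ4c

variable {F : Type*} [Field F]

/-- a hyperbolic basis adapted to a pair of totally singular planes -/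
theorem hyp_basis {D : Fin 2 → Submodule F (J2 → F)} (hD : IsMDecomposition 2 D)
    (hs : ∀ i, IsTotallySingularFor (sympForm 2 F) (D i)) :
    ∃ e₁ ∈ D 0, ∃ e₂ ∈ D 0, ∃ f₁ ∈ D 1, ∃ f₂ ∈ D 1, sympForm 2 F e₁ f₁ = 1 ∧ sympForm 2 F e₁ f₂ = 0 ∧
      sympForm 2 F e₂ f₁ = 0 ∧ sympForm 2 F e₂ f₂ = 1 := by
  have hS := sympForm_symplectic 2 F
  have al := hS.bilinear.add_left
  have ar := hS.bilinear.add_right
  have sl := hS.bilinear.smul_left
  have sr := hS.bilinear.smul_right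
  have hdec : ∀ z : J2 → F, ∃ z₀ ∈ D 0, ∃ z₁ ∈ D 1, z₀ + z₁ = z := by
    intro z
    have h1 : z ∈ D 0 ⊔ D 1 := by
      have h2 : iSup D = D 0 ⊔ D 1 := by
        apply le_antisymm
        · apply iSup_le
          intro i
          fin_cases i
          · exact le_sup_left
          · exact le_sup_right
        · exact sup_le (le_iSup D 0) (le_iSup D 1)
      rw [← h2, hD.iSup_eq_top]
      exact Submodule.mem_top
    exact Submodule.mem_sup.mp h1
  have hdual : ∀ x ∈ D 0, x ≠ 0 → ∃ y ∈ D 1, sympForm 2 F x y = 1 := by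
    intro x hx hx0
    obtain ⟨z, hz⟩ := (hS.nondegenerate x hx0).2
    obtain ⟨z₀, h0, z₁, h1, rfl⟩ := hdec z
    rw [ar, hs 0 x hx z₀ h0, zero_add] at hz
    refine ⟨(sympForm 2 F x z₁)⁻¹ • z₁, (D 1).smul_mem _ h1, ?_⟩
    rw [sr, inv_mul_cancel₀ hz]
  obtain ⟨e₁, he₁, he₁0⟩ : ∃ e₁ ∈ D 0, e₁ ≠ 0 := by
    by_contra hno
    push Not at hno
    have h1 : D 0 = ⊥ := (Submodule.eq_bot_iff _).mpr hno
    have h2 := hD.finrank_eq 0
    rw [h1, finrank_bot] at h2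
    omega
  obtain ⟨f₁, hf₁, hef⟩ := hdual e₁ he₁ he₁0
  obtain ⟨v, hv, hvn⟩ : ∃ v ∈ D 0, v ∉ Submodule.span F {e₁} := by
    by_contra hno
    push Not at hno
    have h1 : D 0 ≤ Submodule.span F {e₁} := hno
    have h2 := Submodule.finrank_mono h1
    rw [hD.finrank_eq, finrank_span_singleton he₁0] at h2
    omega
  set e₂ := v + (-sympForm 2 F v f₁) • e₁ with he₂
  have he₂D : e₂ ∈ D 0 := (D 0).add_mem hv ((D 0).smul_mem _ he₁)
  have he₂0 : e₂ ≠ 0 := by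
    intro h0
    apply hvn
    rw [he₂] at h0
    rw [eq_neg_of_add_eq_zero_left h0]
    exact Submodule.neg_mem _ (Submodule.smul_mem _ _ (Submodule.mem_span_singleton_self _))
  have he₂f : sympForm 2 F e₂ f₁ = 0 := by
    rw [he₂, al, sl, hef]
    ring
  obtain ⟨f₂', hf₂', hef'⟩ := hdual e₂ he₂D he₂0
  refine ⟨e₁, he₁, e₂, he₂D, f₁, hf₁, f₂' + (-(sympForm 2 F e₁ f₂')) • f₁,
    (D 1).add_mem hf₂' ((D 1).smul_mem _ hf₁), hef, ?_, he₂f, ?_⟩
  · rw [ar, sr, hef]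
    ring
  · rw [ar, sr, he₂f, hef', mul_zero, add_zero]

/-- the swap -/
def D0 (F : Type*) [Field F] : Matrix J2 J2 F := fromBlocks 0 (-y2 F) (y2 F) 0

lemma DD : D0 F * D0 F = 1 := by
  rw [D0, Matrix.fromBlocks_multiply, ← fb_one]; simp [y2_sq]

lemma adjD (x y : J2 → F) : sympForm 2 F (D0 F *ᵥ x) y = sympForm 2 F x (D0 F *ᵥ y) := by
  rw [sf, sf, D0]; simp only [mv, mv']; simp [y2]; ring

/-- self-adjoint involutions exchanging the two coordinate planes -/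
theorem class3 (hF : ∀ x : F, x ≠ 0 → x * x = 1) (h2 : (2 : F) ≠ 0) {B C : Matrix (Fin 2) (Fin 2) F}
    (hM : fromBlocks 0 B C 0 * fromBlocks 0 B C 0 = (1 : Matrix J2 J2 F))
    (hadj : ∀ x y, sympForm 2 F (fromBlocks 0 B C 0 *ᵥ x) y = sympForm 2 F x (fromBlocks 0 B C 0 *ᵥ y)) :
    ∃ s : F, (s = 1 ∨ s = -1) ∧ fromBlocks 0 B C 0 = s • D0 F := by
  have e1 := hadj (Pi.single (Sum.inl 0) 1) (Pi.single (Sum.inl 0) 1)
  have e2 := hadj (Pi.single (Sum.inl 0) 1) (Pi.single (Sum.inl 1) 1)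
  have e3 := hadj (Pi.single (Sum.inl 1) 1) (Pi.single (Sum.inl 1) 1)
  have g1 := hadj (Pi.single (Sum.inr 0) 1) (Pi.single (Sum.inr 0) 1)
  have g2 := hadj (Pi.single (Sum.inr 0) 1) (Pi.single (Sum.inr 1) 1)
  have g3 := hadj (Pi.single (Sum.inr 1) 1) (Pi.single (Sum.inr 1) 1)
  rw [sf, sf] at e1 e2 e3 g1 g2 g3
  simp only [mv, mv'] at e1 e2 e3 g1 g2 g3
  simp at e1 e2 e3 g1 g2 g3
  rw [Matrix.fromBlocks_multiply, ← fb_one, Matrix.fromBlocks_inj] at hM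
  obtain ⟨m1, -, -, -⟩ := hM
  have f00 := congrFun (congrFun m1 0) 0
  simp [Matrix.mul_apply, Fin.sum_univ_two] at f00
  have c00 : C 0 0 = 0 := (mul_eq_zero.mp (by linear_combination e1 : (2 : F) * C 0 0 = 0)).resolve_left h2
  have c11 : C 1 1 = 0 := (mul_eq_zero.mp (by linear_combination e3 : (2 : F) * C 1 1 = 0)).resolve_left h2
  have b00 : B 0 0 = 0 := (mul_eq_zero.mp (by linear_combination -g1 : (2 : F) * B 0 0 = 0)).resolve_left h2
  have b11 : B 1 1 = 0 := (mul_eq_zero.mp (by linear_combination -g3 : (2 : F) * B 1 1 = 0)).resolve_left h2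
  have b10 : B 1 0 = -B 0 1 := by linear_combination -g2
  rw [c00, e2] at f00
  have hc0 : C 0 1 ≠ 0 := by
    intro h0
    rw [h0] at f00
    exact one_ne_zero (by linear_combination -f00 : (1 : F) = 0)
  have hc1 := hF _ hc0
  have hb : B 0 1 = -C 0 1 := by linear_combination (-C 0 1) * f00 - B 0 1 * hc1
  refine ⟨C 0 1, mul_self_eq_one_iff.mp hc1, ?_⟩
  have hC : C = C 0 1 • y2 F := by
    ext i j
    fin_cases i <;> fin_cases j <;> simp [y2, c00, c11, e2]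
  have hB : B = (-C 0 1) • y2 F := by
    ext i j
    fin_cases i <;> fin_cases j <;> simp [y2, b00, b11, b10, hb]
  rw [D0, fb_smul, Matrix.fromBlocks_inj]
  refine ⟨by simp, by rw [hB]; simp, hC, by simp⟩

lemma map_eq {ι : Type} [Fintype ι] [DecidableEq ι] {g : GL ι F} {U V : Submodule F (ι → F)}
    (h : ∀ v, v ∈ U ↔ (g : Matrix ι ι F) *ᵥ v ∈ V) : U.map (Matrix.toLin' (g : Matrix ι ι F)) = V := by
  ext v
  constructor
  · rintro ⟨w, hw, rfl⟩
    rw [Matrix.toLin'_apply]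
    exact (h w).1 hw
  · intro hv
    have h1 : (g : Matrix ι ι F) *ᵥ (((g⁻¹ : GL ι F) : Matrix ι ι F) *ᵥ v) = v := by
      rw [Matrix.mulVec_mulVec, Units.mul_inv, Matrix.one_mulVec]
    refine ⟨((g⁻¹ : GL ι F) : Matrix ι ι F) *ᵥ v, ?_, ?_⟩
    · change ((g⁻¹ : GL ι F) : Matrix ι ι F) *ᵥ v ∈ U
      rw [h, h1]
      exact hv
    · rw [Matrix.toLin'_apply, h1]

/-- **pairs of totally singular planes, q = 3** -/
theorem ts_case [Fintype F] (h3 : Fintype.card F = 3) {D : Fin 2 → Submodule F (J2 → F)} (hD : IsMDecomposition 2 D)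
    (hs : ∀ i, IsTotallySingularFor (sympForm 2 F) (D i)) :
    ∃ D' : Fin 2 → Submodule F (J2 → F), IsNondegenerateMDecomposition (sympForm 2 F) 2 D' ∧
      decompositionStabilizer D ⊓ spGL 2 F ≤ decompositionStabilizer D' := by
  classical
  have hS := sympForm_symplectic 2 F
  have h := sp_hform 2 F
  have h2 : (2 : F) ≠ 0 := two_ne_zero_of_odd (by rw [h3]; decide)
  have hsq := sq_one (F := F) h3
  obtain ⟨e₁, he₁, e₂, he₂, f₁, hf₁, f₂, hf₂, h11, h12, h21, h22⟩ := hyp_basis hD hs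
  set f := sympForm 2 F with hf
  have al := hS.bilinear.add_left
  have ar := hS.bilinear.add_right
  have sl := hS.bilinear.smul_left
  have sr := hS.bilinear.smul_right
  have sk := hS.skew
  have g11 : f f₁ e₁ = -1 := by rw [sk, h11]
  have g12 : f f₁ e₂ = 0 := by rw [sk, h21, neg_zero]
  have g21 : f f₂ e₁ = 0 := by rw [sk, h12, neg_zero]
  have g22 : f f₂ e₂ = -1 := by rw [sk, h22]
  have z0 : ∀ u ∈ D 0, ∀ v ∈ D 0, f u v = 0 := hs 0
  have z1 : ∀ u ∈ D 1, ∀ v ∈ D 1, f u v = 0 := hs 1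
  let w' : J2 → (J2 → F) := Sum.elim ![e₁, e₂] ![f₁, f₂]
  have hsum : ∀ x : J2 → F, ∑ j, x j • w' j = x (Sum.inl 0) • e₁ + x (Sum.inl 1) • e₂ +
      (x (Sum.inr 0) • f₁ + x (Sum.inr 1) • f₂) := by
    intro x
    rw [Fintype.sum_sum_type, Fin.sum_univ_two, Fin.sum_univ_two]
    rfl
  have hgram : ∀ x y : J2 → F, f (∑ j, x j • w' j) (∑ j, y j • w' j) = -1 * f x y := by
    intro x y
    have hfx : f x y = x (Sum.inr 0) * y (Sum.inl 0) + x (Sum.inr 1) * y (Sum.inl 1) -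
      x (Sum.inl 0) * y (Sum.inr 0) - x (Sum.inl 1) * y (Sum.inr 1) := sf x y
    rw [hsum, hsum, hfx]
    simp only [al, ar, sl, sr, h11, h12, h21, h22, g11, g12, g21, g22,
      z0 e₁ he₁ e₁ he₁, z0 e₁ he₁ e₂ he₂, z0 e₂ he₂ e₁ he₁, z0 e₂ he₂ e₂ he₂,
      z1 f₁ hf₁ f₁ hf₁, z1 f₁ hf₁ f₂ hf₂, z1 f₂ hf₂ f₁ hf₁, z1 f₂ hf₂ f₂ hf₂]
    ring
  obtain ⟨P, hP⟩ := exists_cols' (w := w') (by
    intro x hx
    by_contra hx0
    obtain ⟨y, hy⟩ := (hS.nondegenerate x hx0).2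
    have e := hgram x y
    rw [hx] at e
    have e0 : f 0 (∑ j, y j • w' j) = 0 := by
      have := sl 0 0 (∑ j, y j • w' j)
      rw [zero_smul, zero_mul] at this
      exact this
    rw [e0] at e
    exact hy ((mul_eq_zero.mp e.symm).resolve_left (by norm_num)))
  have hPf : ∀ x y, f ((P : Matrix J2 J2 F) *ᵥ x) ((P : Matrix J2 J2 F) *ᵥ y) = -1 * f x y := by
    intro x y; rw [hP, hP, hgram]
  have surj : ∀ u : J2 → F, ∃ x, u = (P : Matrix J2 J2 F) *ᵥ x := fun u =>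
    ⟨((P⁻¹ : GL J2 F) : Matrix J2 J2 F) *ᵥ u, by rw [Matrix.mulVec_mulVec, Units.mul_inv, Matrix.one_mulVec]⟩
  have hm0 : ∀ x, (P : Matrix J2 J2 F) *ᵥ x ∈ D 0 ↔ x (Sum.inr 0) = 0 ∧ x (Sum.inr 1) = 0 := by
    intro x
    constructor
    · intro hx
      have e1 := z0 _ hx e₁ he₁
      have e2 := z0 _ hx e₂ he₂
      rw [hP, hsum] at e1 e2
      simp only [al, sl, g11, g12, g21, g22, z0 e₁ he₁ e₁ he₁, z0 e₁ he₁ e₂ he₂, z0 e₂ he₂ e₁ he₁, z0 e₂ he₂ e₂ he₂] at e1 e2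
      exact ⟨by linear_combination -e1, by linear_combination -e2⟩
    · rintro ⟨h1, h2'⟩
      rw [hP, hsum, h1, h2', zero_smul, zero_smul, add_zero, add_zero]
      exact (D 0).add_mem ((D 0).smul_mem _ he₁) ((D 0).smul_mem _ he₂)
  have hm1 : ∀ x, (P : Matrix J2 J2 F) *ᵥ x ∈ D 1 ↔ x (Sum.inl 0) = 0 ∧ x (Sum.inl 1) = 0 := by
    intro x
    constructor
    · intro hx
      have e1 := z1 _ hx f₁ hf₁
      have e2 := z1 _ hx f₂ hf₂
      rw [hP, hsum] at e1 e2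
      simp only [al, sl, h11, h12, h21, h22, z1 f₁ hf₁ f₁ hf₁, z1 f₁ hf₁ f₂ hf₂, z1 f₂ hf₂ f₁ hf₁, z1 f₂ hf₂ f₂ hf₂] at e1 e2
      exact ⟨by linear_combination e1, by linear_combination e2⟩
    · rintro ⟨h1, h2'⟩
      rw [hP, hsum, h1, h2', zero_smul, zero_smul, add_zero, zero_add]
      exact (D 1).add_mem ((D 1).smul_mem _ hf₁) ((D 1).smul_mem _ hf₂)
  -- the involution
  set E : Matrix J2 J2 F := conjAlg F P (D0 F) with hE
  have cP : ∀ (M0 : Matrix J2 J2 F) (x : J2 → F), conjAlg F P M0 *ᵥ ((P : Matrix J2 J2 F) *ᵥ x) = (P : Matrix J2 J2 F) *ᵥ (M0 *ᵥ x) := by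
    intro M0 x
    rw [conjAlg_apply, Matrix.mulVec_mulVec, Matrix.mulVec_mulVec, mul_assoc, Units.inv_mul, mul_one]
  have hEE : E * E = 1 := by rw [hE, ← map_mul, DD, map_one]
  have hEv : ∀ v, E *ᵥ (E *ᵥ v) = v := by
    intro v; rw [Matrix.mulVec_mulVec, hEE, Matrix.one_mulVec]
  have hadj : ∀ u v, f (E *ᵥ u) v = f u (E *ᵥ v) := by
    intro u v
    obtain ⟨x, rfl⟩ := surj u
    obtain ⟨y, rfl⟩ := surj v
    rw [hE, cP, cP, hPf, hPf]
    exact congrArg (fun z => -1 * z) (adjD x y)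
  have hE0 : ∀ v ∈ D 0, E *ᵥ v ∈ D 1 := by
    intro v hv
    obtain ⟨x, rfl⟩ := surj v
    obtain ⟨h1, h2'⟩ := (hm0 x).1 hv
    rw [hE, cP, hm1, D0]
    simp only [mv]
    simp [h1, h2']
  have hE1 : ∀ v ∈ D 1, E *ᵥ v ∈ D 0 := by
    intro v hv
    obtain ⟨x, rfl⟩ := surj v
    obtain ⟨h1, h2'⟩ := (hm1 x).1 hv
    rw [hE, cP, hm0, D0]
    simp only [mv']
    simp [h1, h2']
  have hD01 : ∀ v, v ∈ D 0 → v ∈ D 1 → v = 0 := by
    intro v h0 h1
    obtain ⟨x, rfl⟩ := surj v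
    obtain ⟨a1, a2⟩ := (hm0 x).1 h0
    obtain ⟨a3, a4⟩ := (hm1 x).1 h1
    have : x = 0 := by
      ext i
      rcases i with i | i <;> fin_cases i
      · exact a3
      · exact a4
      · exact a1
      · exact a2
    rw [this, Matrix.mulVec_zero]
  let W : Submodule F (J2 → F) := LinearMap.ker (Matrix.toLin' (E - 1))
  let W' : Submodule F (J2 → F) := LinearMap.ker (Matrix.toLin' (E + 1))
  have hW : ∀ v, v ∈ W ↔ E *ᵥ v = v := by
    intro v
    change Matrix.toLin' (E - 1) v = 0 ↔ _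
    rw [Matrix.toLin'_apply, Matrix.sub_mulVec, Matrix.one_mulVec, sub_eq_zero]
  have hW' : ∀ v, v ∈ W' ↔ E *ᵥ v = -v := by
    intro v
    change Matrix.toLin' (E + 1) v = 0 ↔ _
    rw [Matrix.toLin'_apply, Matrix.add_mulVec, Matrix.one_mulVec, add_eq_zero_iff_eq_neg]
  have nl : ∀ u v, f (-u) v = -f u v := by
    intro u v
    have := sl (-1) u v
    rw [neg_one_smul] at this
    rw [this]; ring
  have hperp : h.perp W = W' := by
    apply le_antisymm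
    · intro v hv
      rw [hW']
      have hu : v + E *ᵥ v = 0 := by
        by_contra hu0
        obtain ⟨z, hz⟩ := (hS.nondegenerate _ hu0).2
        apply hz
        have : f (v + E *ᵥ v) z = f v (z + E *ᵥ z) := by rw [al, ar, hadj]
        change f (v + E *ᵥ v) z = 0
        rw [this]
        apply hv
        rw [hW, Matrix.mulVec_add, hEv, add_comm]
      rw [add_comm] at hu
      exact eq_neg_of_add_eq_zero_left hu
    · intro v hv w hw
      rw [hW'] at hv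
      rw [hW] at hw
      have e : f v w = -f v w := by
        calc f v w = f v (E *ᵥ w) := by rw [hw]
          _ = -f v w := by rw [← hadj, hv, nl]
      exact (mul_eq_zero.mp (by linear_combination e : (2 : F) * f v w = 0)).resolve_left h2
  have hinf : W ⊓ h.perp W = ⊥ := by
    rw [hperp, eq_bot_iff]
    rintro v ⟨hv, hv'⟩
    have e1 := (hW v).1 hv
    have e2 := (hW' v).1 hv'
    rw [e1] at e2
    rw [Submodule.mem_bot]
    have e3 : (2 : F) • v = 0 := by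
      rw [two_smul]
      nth_rewrite 1 [e2]
      exact neg_add_cancel v
    exact (smul_eq_zero.mp e3).resolve_left h2
  have hsmall : ∀ U : Submodule F (J2 → F), U ⊓ D 0 = ⊥ → Module.finrank F U ≤ 2 := by
    intro U hU
    have e1 := Submodule.finrank_sup_add_finrank_inf_eq U (D 0)
    rw [hU, finrank_bot, hD.finrank_eq] at e1
    have e2 := Submodule.finrank_le (U ⊔ D 0)
    rw [Module.finrank_fintype_fun_eq_card, Fintype.card_sum, Fintype.card_fin] at e2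
    omega
  have w1 := hsmall W (by
    rw [eq_bot_iff]
    rintro v ⟨hv, hv'⟩
    rw [Submodule.mem_bot]
    refine hD01 v hv' ?_
    rw [← (hW v).1 hv]
    exact hE0 v hv')
  have w2 := hsmall W' (by
    rw [eq_bot_iff]
    rintro v ⟨hv, hv'⟩
    rw [Submodule.mem_bot]
    refine hD01 v hv' ?_
    have e1 := hE0 v hv'
    rw [(hW' v).1 hv] at e1
    have := (D 1).neg_mem e1
    rwa [neg_neg] at this)
  have w3 := h.finrank_perp W
  rw [hperp, Fintype.card_sum, Fintype.card_fin] at w3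
  have aux : ∀ a b : ℕ, a ≤ 2 → b ≤ 2 → a + b = 2 + 2 → a = 2 := by omega
  have hW2 : Module.finrank F W = 2 := aux _ _ w1 w2 w3
  have hdec := (h.decomp_of_half (W := W) (by
    intro h0
    rw [h0, finrank_bot] at hW2
    omega) hinf (by rw [hW2, Fintype.card_sum, Fintype.card_fin]) (H := ⊥) bot_le bot_le).1
  rw [hW2] at hdec
  refine ⟨_, hdec, ?_⟩
  rintro g ⟨⟨σ, hσ⟩, hg2⟩
  have hgi : ∀ u v, f ((g : Matrix J2 J2 F) *ᵥ u) ((g : Matrix J2 J2 F) *ᵥ v) = f u v := fun u v => hg2 u v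
  have hgi' : ∀ u v, f (((g⁻¹ : GL J2 F) : Matrix J2 J2 F) *ᵥ u) v = f u ((g : Matrix J2 J2 F) *ᵥ v) := by
    intro u v
    rw [← hgi (((g⁻¹ : GL J2 F) : Matrix J2 J2 F) *ᵥ u) v, Matrix.mulVec_mulVec, Units.mul_inv, Matrix.one_mulVec]
  have hgσ : ∀ i v, v ∈ D i ↔ (g : Matrix J2 J2 F) *ᵥ v ∈ D (σ i) := by
    intro i v
    rw [← hσ i]
    constructor
    · intro hv
      exact ⟨v, hv, Matrix.toLin'_apply _ _⟩
    · rintro ⟨w, hw, hwv⟩
      rw [Matrix.toLin'_apply] at hwv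
      have : w = v := by
        have e := congrArg (fun z => ((g⁻¹ : GL J2 F) : Matrix J2 J2 F) *ᵥ z) hwv
        simpa [Matrix.mulVec_mulVec] using e
      rw [← this]; exact hw
  have hgg : ∀ z : J2 → F, (g : Matrix J2 J2 F) *ᵥ (((g⁻¹ : GL J2 F) : Matrix J2 J2 F) *ᵥ z) = z := by
    intro z
    rw [Matrix.mulVec_mulVec, Units.mul_inv, Matrix.one_mulVec]
  set M : Matrix J2 J2 F := ((g⁻¹ : GL J2 F) : Matrix J2 J2 F) * E * (g : Matrix J2 J2 F) with hM
  have hMv : ∀ v, M *ᵥ v = ((g⁻¹ : GL J2 F) : Matrix J2 J2 F) *ᵥ (E *ᵥ ((g : Matrix J2 J2 F) *ᵥ v)) := by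
    intro v
    rw [Matrix.mulVec_mulVec, Matrix.mulVec_mulVec, hM, mul_assoc]
  have hMM : M * M = 1 := by
    rw [hM]
    calc ((g⁻¹ : GL J2 F) : Matrix J2 J2 F) * E * (g : Matrix J2 J2 F) * (((g⁻¹ : GL J2 F) : Matrix J2 J2 F) * E * (g : Matrix J2 J2 F))
        = ((g⁻¹ : GL J2 F) : Matrix J2 J2 F) * E * ((g : Matrix J2 J2 F) * ((g⁻¹ : GL J2 F) : Matrix J2 J2 F)) * E * (g : Matrix J2 J2 F) := by
          simp only [mul_assoc]
      _ = 1 := by rw [Units.mul_inv, mul_one, mul_assoc _ E E, hEE, mul_one, Units.inv_mul]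
  have hMadj : ∀ u v, f (M *ᵥ u) v = f u (M *ᵥ v) := by
    intro u v
    rw [hMv, hgi', hadj, ← hgi u (M *ᵥ v), hMv, hgg]
  have hEi : ∀ i v, v ∈ D i → E *ᵥ v ∈ D (i + 1) := by
    intro i v hv
    fin_cases i
    · exact hE0 v hv
    · exact hE1 v hv
  have hσ1 : ∀ i : Fin 2, σ i + 1 = σ (i + 1) := by
    intro i
    have hinj := σ.injective
    have e1 : σ 0 ≠ σ 1 := fun e => by have := hinj e; simp at this
    have aux2 : ∀ a b : Fin 2, a ≠ b → a + 1 = b := by decide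
    fin_cases i
    · exact aux2 _ _ e1
    · exact aux2 _ _ e1.symm
  have hMi : ∀ i v, v ∈ D i → M *ᵥ v ∈ D (i + 1) := by
    intro i v hv
    rw [hgσ (i + 1), hMv, Matrix.mulVec_mulVec, Units.mul_inv, Matrix.one_mulVec, ← hσ1]
    exact hEi _ _ ((hgσ i v).1 hv)
  obtain ⟨M0, hM0⟩ : ∃ M0, M = conjAlg F P M0 := ⟨(conjAlg F P).symm M, ((conjAlg F P).apply_symm_apply M).symm⟩
  obtain ⟨B, C, hBC⟩ : ∃ B C, M0 = fromBlocks 0 B C 0 := by
    refine ⟨M0.toBlocks₁₂, M0.toBlocks₂₁, ?_⟩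
    conv_lhs => rw [← Matrix.fromBlocks_toBlocks M0]
    rw [Matrix.fromBlocks_inj]
    refine ⟨?_, rfl, rfl, ?_⟩
    · have key : ∀ j, M0 (Sum.inl 0) (Sum.inl j) = 0 ∧ M0 (Sum.inl 1) (Sum.inl j) = 0 := by
        intro j
        have e1 := hMi 0 ((P : Matrix J2 J2 F) *ᵥ Pi.single (Sum.inl j) 1) ((hm0 _).2 ⟨by simp, by simp⟩)
        rw [hM0, cP] at e1
        have e2 := (hm1 _).1 e1
        simpa using e2
      ext i j
      fin_cases i
      · exact (key j).1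
      · exact (key j).2
    · have key : ∀ j, M0 (Sum.inr 0) (Sum.inr j) = 0 ∧ M0 (Sum.inr 1) (Sum.inr j) = 0 := by
        intro j
        have e1 := hMi 1 ((P : Matrix J2 J2 F) *ᵥ Pi.single (Sum.inr j) 1) ((hm1 _).2 ⟨by simp, by simp⟩)
        rw [hM0, cP] at e1
        have e2 := (hm0 _).1 e1
        simpa using e2
      ext i j
      fin_cases i
      · exact (key j).1
      · exact (key j).2
  have hMM0 : M0 * M0 = 1 := by
    apply (conjAlg F P).injective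
    rw [map_mul, ← hM0, hMM, map_one]
  have hadj0 : ∀ x y, sympForm 2 F (M0 *ᵥ x) y = sympForm 2 F x (M0 *ᵥ y) := by
    intro x y
    have e1 := hMadj ((P : Matrix J2 J2 F) *ᵥ x) ((P : Matrix J2 J2 F) *ᵥ y)
    rw [hM0, cP, cP, hPf, hPf] at e1
    have e2 : -1 * sympForm 2 F (M0 *ᵥ x) y = -1 * sympForm 2 F x (M0 *ᵥ y) := e1
    linear_combination -e2
  rw [hBC] at hMM0 hadj0
  obtain ⟨s, hs1, hs⟩ := class3 hsq h2 hMM0 hadj0
  have hMs : M = s • E := by rw [hM0, hBC, hs, map_smul]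
  have hEg : E * (g : Matrix J2 J2 F) = s • ((g : Matrix J2 J2 F) * E) := by
    have : E * (g : Matrix J2 J2 F) = (g : Matrix J2 J2 F) * M := by
      rw [hM, ← mul_assoc, ← mul_assoc, Units.mul_inv, one_mul]
    rw [this, hMs, mul_smul_comm]
  have hEgv : ∀ v, E *ᵥ ((g : Matrix J2 J2 F) *ᵥ v) = s • ((g : Matrix J2 J2 F) *ᵥ (E *ᵥ v)) := by
    intro v
    rw [Matrix.mulVec_mulVec, hEg, Matrix.smul_mulVec, Matrix.mulVec_mulVec]
  have hginj : ∀ u v : J2 → F, (g : Matrix J2 J2 F) *ᵥ u = (g : Matrix J2 J2 F) *ᵥ v ↔ u = v := by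
    intro u v
    constructor
    · intro e
      have e := congrArg (fun z => ((g⁻¹ : GL J2 F) : Matrix J2 J2 F) *ᵥ z) e
      simpa [Matrix.mulVec_mulVec] using e
    · rintro rfl; rfl
  rw [hperp]
  rcases hs1 with rfl | rfl
  · refine ⟨1, fun i => ?_⟩
    rw [Equiv.Perm.one_apply]
    fin_cases i
    · refine map_eq fun v => ?_
      change v ∈ W ↔ _ ∈ W
      rw [hW, hW, hEgv, one_smul, hginj]
    · refine map_eq fun v => ?_
      change v ∈ W' ↔ _ ∈ W'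
      rw [hW', hW', hEgv, one_smul, ← Matrix.mulVec_neg, hginj]
  · refine ⟨Equiv.swap 0 1, fun i => ?_⟩
    fin_cases i
    · rw [show (Equiv.swap (0 : Fin 2) 1) ((fun i => i) ⟨0, by omega⟩) = 1 from rfl]
      refine map_eq fun v => ?_
      change v ∈ W ↔ _ ∈ W'
      rw [hW, hW', hEgv, neg_one_smul, neg_inj, hginj]
    · rw [show (Equiv.swap (0 : Fin 2) 1) ((fun i => i) ⟨1, by omega⟩) = 0 from rfl]
      refine map_eq fun v => ?_
      change v ∈ W' ↔ _ ∈ W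
      rw [hW, hW', hEgv, neg_one_smul, neg_eq_iff_eq_neg, ← Matrix.mulVec_neg, hginj]

end H61.SpQ4e
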